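import Cfsg.Agent.H3.FischerPrim
import Cfsg.Agent.H2.PGroup

/-! Primitive 3-transposition classes of width two give the symmetric group of degree five. -/

set_option autoImplicit false

namespace Cfsg.Agent.H3

open scoped commutatorElement

variable {G : Type*} [Group G]

namespace TTC

variable {T : TTC G}

/-- No three distinct pairwise commuting points. -/
def NoTri (T : TTC G) : Prop :=
  ∀ p q r : T.Pt, p ≠ q → p ≠ r → q ≠ r → cm p q → cm p r → ¬ cm q r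

namespace Std

variable [Finite G]

theorem noTri_of_W (h : T.Std) {x y a : T.Pt} (hxy : x ≠ y ∧ cm y x) (hya : ¬ cm y a)
    (H0 : ∀ w, cm x w → cm y w → w ≠ y → cm a w) : T.NoTri := by
  have hax : cm a x := H0 x (cm_refl x) hxy.2 hxy.1
  have hN : ∀ c, c ≠ y → cm y c → ¬ cm a c → ¬ cm x c := fun c h1 h2 h3 h4 => h3 (H0 c h4 h2 h1)
  have key : ∀ w, w ≠ x → w ≠ y → cm x w → ¬ cm y w := by
    intro w hwx hwy hxw hyw
    have haw := H0 w hxw hyw hwy
    have hw : ∀ c, c ≠ y → cm y c → ¬ cm a c → cm w c := by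
      intro c hc1 hyc hac
      by_contra hwc
      have hxc := hN c hc1 hyc hac
      have e1 : a ◃ y ◃ c ◃ a ◃ y = c := by
        rw [← rf_comm hya, hyc.symm.rf_rf_comm, rf_rf, ← rf_comm hac, rf_rf]
      have hcz : cm c (x ◃ w ◃ c) := by
        rw [cm_rf_right, rf_comm hxc, rf_comm hwc, cm_rf]; exact hxw
      have h1 : cm y (a ◃ c ◃ y ◃ a ◃ x ◃ w ◃ c) := by
        rw [cm_rf_right, cm_rf_right, cm_rf_right, cm_rf_right, e1]; exact hcz
      have h2 : cm x (a ◃ c ◃ y ◃ a ◃ x ◃ w ◃ c) := by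
        rw [cm_rf_of_cm hax.symm, cm_rf_right, cm_rf_right, cm_rf_right, cm_rf_right,
          hyc.rf_rf_comm, hxy.2.rf_eq, hax.symm.rf_rf_comm, rf_rf_swap (ncm_symm hxc),
          rf_comm hac, rf_comm hwc, cm_rf]
        exact haw
      have h3 : a ◃ c ◃ y ◃ a ◃ x ◃ w ◃ c ≠ y := by
        intro e
        have : x ◃ w ◃ c = c := by
          have := congrArg (fun t => a ◃ y ◃ c ◃ a ◃ t) e
          simpa only [rf_rf, e1] using this
        have h' : w ◃ c = x ◃ c := by rw [← this, rf_rf, this]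
        exact hwx (rf_inj_left hwc hxc h')
      have h4 := H0 _ h2 h1 h3
      have hyz : y ◃ x ◃ w ◃ c = x ◃ w ◃ c := (hxy.2.rf_right (hyw.rf_right hyc)).rf_eq
      rw [cm_rf_self_left, cm_rf_right, cm_rf_right, cm_rf_right, ← rf_comm hac,
        rf_distrib a y, ← rf_comm hya, rf_rf, rf_rf_left, hyc.rf_eq, cm_rf_left, hyz,
        rf_comm hac, cm_rf_left, hcz.rf_eq, cm_rf_of_cm hax, cm_rf_of_cm haw] at h4
      exact hac h4
    obtain ⟨c, hc1, hc2, hc3⟩ := h.exists_cm_ncm' hya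
    have := h.perp_induction (d := y) (S := {u | ∀ c, c ≠ y → cm y c → ¬ cm a c → cm u c})
      ⟨hwy, hyw⟩ hw (fun u hu v hv1 hv2 huv c hc1 hc2 hc3 => by
        have hav : cm a v := by
          by_contra h'
          exact huv (hu v hv1 hv2 h')
        have := hu (v ◃ c) (fun e => hc1 (by rw [← rf_rf v c, e, hv2.rf_eq']))
          (hv2.rf_right hc2) (by rwa [cm_rf_of_cm hav])
        rwa [cm_rf_right, ← rf_comm huv, cm_rf_left, (hu c hc1 hc2 hc3).rf_eq] at this)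
      (x := c) ⟨hc1, hc2⟩
    exact cm_rf_self_right (hN c hc1 hc2 hc3) (this (x ◃ c)
      (fun e => hc1 (by rw [← rf_rf x c, e, hxy.2.rf_eq'])) (hxy.2.rf_right hc2)
      (by rwa [cm_rf_of_cm hax]))
  intro p q r hpq hpr hqr h1 h2 h3
  obtain ⟨g, rfl, rfl⟩ := h.exists_smul_pair_cm (a := x) (b := y) (c := p) (d := q)
    ⟨hxy.1.symm, hxy.2.symm⟩ ⟨hpq.symm, h1⟩
  exact key (g⁻¹ • r) (fun e => hpr (by rw [← e]; simp)) (fun e => hqr (by rw [← e]; simp))
    ((cm_smul_left _ _ _).1 h2) ((cm_smul_left _ _ _).1 h3)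

/-- A central translation of `D_y` in width two. -/
theorem exists_translation (h : T.Std) (hT : T.NoTri) (y : T.Pt) :
    ∃ x x' : T.Pt, (x ≠ y ∧ cm y x) ∧ (x' ≠ y ∧ cm y x') ∧ x ≠ x' ∧
      ∀ u v : T.Pt, u ≠ y → cm y u → v ≠ y → cm y v →
        u ◃ ((x.val * x'.val) • v) = (x.val * x'.val)⁻¹ • (u ◃ v) := by
  haveI : Fact (Nat.Prime 3) := ⟨Nat.prime_three⟩
  set R := Subgroup.closure {w : G | w ∈ T.D ∧ w ≠ y.val ∧ Commute y.val w} with hR
  have hmem : ∀ u : T.Pt, u ≠ y → cm y u → u.val ∈ R := fun u h1 h2 =>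
    Subgroup.subset_closure ⟨u.mem, fun e => h1 (Pt.ext e), h2⟩
  have hRy : ∀ g ∈ R, g • y = y := fun g hg => by
    have : R ≤ MulAction.stabilizer G y := by
      rw [hR, Subgroup.closure_le]
      rintro w ⟨-, -, hw⟩
      exact commute_iff_smul_eq.1 hw.symm
    exact this hg
  have hRs : ∀ g ∈ R, ∀ u : T.Pt, u ≠ y ∧ cm y u → g • u ≠ y ∧ cm y (g • u) := fun g hg u hu =>
    ⟨fun e => hu.1 (MulAction.injective g (e.trans (hRy g hg).symm)), by
      rw [← hRy g hg, cm_smul]; exact hu.2⟩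
  obtain ⟨x, hx⟩ := h.exists_cm y
  set x0 : R := ⟨x.val, hmem x hx.1 hx.2⟩ with hx0
  have hgen : Subgroup.closure (conjugatesOf x0) = ⊤ := by
    rw [eq_top_iff, ← Subgroup.closure_closure_coe_preimage]
    apply Subgroup.closure_mono
    rintro ⟨w, hw⟩ ⟨h1, h2, h3⟩
    obtain ⟨g, hg, e⟩ := h.exists_conj_perp (d := y) (y := x) (x := ⟨w, h1⟩) hx
      ⟨fun e => h2 (congrArg Pt.val e), h3⟩
    exact isConj_iff.2 ⟨⟨g, hg⟩, Subtype.ext (congrArg Pt.val e)⟩
  obtain ⟨P, hPn, hP, hle, hPx⟩ := exists_pgroup_of_prods Nat.prime_three (by norm_num)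
    (x := x0) (Subtype.ext x.mul_self) hgen fun g => ⟨1, Subtype.ext (by
      rw [pow_one]
      change (x.val * ((g : G) • x).val) ^ 3 = 1
      have hg := hRs g g.2 x hx
      by_cases e : x = (g : G) • x
      · rw [← e, x.mul_self, one_pow]
      · exact tt_cube T.tt x.mem ((g : G) • x).mem (hT y x _ hx.1.symm hg.1.symm e hx.2 hg.2))⟩
  have hcen : ∀ g : R, g ∈ Subgroup.center R ↔ ∀ u : T.Pt, u ≠ y → cm y u → (g : G) • u = u := by
    intro g
    constructor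
    · intro hg u h1 h2
      exact commute_iff_smul_eq.1
        (congrArg Subtype.val (Subgroup.mem_center_iff.1 hg ⟨u.val, hmem u h1 h2⟩)).symm
    · intro hg
      refine Subgroup.mem_center_iff.2 fun k => Subtype.ext ?_
      refine (commute_of_mem_closure (U := {(g : G)}) ?_ k.2 (Subgroup.subset_closure rfl)).eq
      rintro w ⟨h1, h2, h3⟩ _ rfl
      exact (commute_iff_smul_eq.2 (hg ⟨w, h1⟩ (fun e => h2 (congrArg Pt.val e)) h3)).symm
  haveI := hP.isNilpotent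
  obtain ⟨z, hz, hzZ, hzP⟩ := H2.exists_mem_not_mem_commutator_mem (P := P) (K := P)
    (M := Subgroup.center R) le_rfl Subgroup.le_normalizer (fun hZ => by
      obtain ⟨w, hw1, hw2⟩ := h.exists_cm_ncm hx.1
      have hwy : w ≠ y := fun e => hw2 (e ▸ hx.2.symm)
      have := (hcen _).1 (hZ (hle (Subgroup.commutator_mem_commutator (Subgroup.mem_top x0)
        (Subgroup.mem_top ⟨w.val, hmem w hwy hw1⟩)))) x hx.1 hx.2
      change (x.val * w.val * x.val⁻¹ * w.val⁻¹) • x = x at this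
      rw [x.inv_val, w.inv_val, mul_smul, mul_smul, mul_smul] at this
      simp only [← rf_def] at this
      rw [rf_rf_swap (ncm_symm hw2), rf_self] at this
      exact rf_ne_left hw2 this)
  have hx' := hRs z z.2 x hx
  have hnot : ∀ u : T.Pt, ∀ hu : u.val ∈ R, (⟨u.val, hu⟩ : R) ∉ P := fun u hu hmem => by
    obtain ⟨k, hk⟩ := hP ⟨_, hmem⟩
    have hk' : u.val ^ 3 ^ k = 1 := congrArg (fun t : P => ((t : R) : G)) hk
    exact u.ne_one (eq_one_of_odd_of_mul_self u.mul_self ((show Odd 3 by decide).pow.of_dvd_nat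
      (orderOf_dvd_of_pow_eq_one hk')))
  refine ⟨x, (z : G) • x, hx, hx', fun e => hzZ ((hcen z).2 fun u h1 h2 => ?_),
    fun u v h1 h2 h3 h4 => ?_⟩
  · obtain ⟨g, hg, rfl⟩ := h.exists_conj_perp hx ⟨h1, h2⟩
    obtain ⟨p, hp, e'⟩ : ∃ p ∈ P, (p : G) • x = g • x := by
      rcases hPx ⟨g, hg⟩ with h' | h'
      · exact ⟨_, h', rfl⟩
      · refine ⟨_, h', ?_⟩
        change (g * x.val) • x = _
        rw [mul_smul, ← rf_def, rf_self]
    have := (hcen _).1 (hzP p hp) _ h1 h2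
    rw [← e'] at this ⊢
    change ((z : G) * p * (z : G)⁻¹ * (p : G)⁻¹) • (p : G) • x = _ at this
    rw [mul_smul, inv_smul_smul, mul_smul, mul_smul] at this
    rwa [show (z : G)⁻¹ • x = x by rw [inv_smul_eq_iff, ← e]] at this
  · set π := QuotientGroup.mk' (Subgroup.center R) with hπ
    have hc : ∀ q ∈ P, Commute (π z) (π q) := fun q hq => by
      rw [← commutatorElement_eq_one_iff_commute, ← map_commutatorElement]
      exact (QuotientGroup.eq_one_iff _).2 (hzP q hq)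
    have hxx : x0 * x0 = 1 := Subtype.ext x.mul_self
    have hxi : x0⁻¹ = x0 := inv_eq_of_mul_eq_one_right hxx
    set t : R := x0 * (z * x0 * z⁻¹) with ht
    have hct : ∀ q ∈ P, Commute (π t) (π q) := fun q hq => by
      have h1 := (hc _ (hPn.conj_mem q hq x0⁻¹)).conj (π x0)
      have h2 : Commute (π (x0 * z * x0⁻¹)) (π q) := by simpa [mul_assoc] using h1
      have := h2.mul_left (hc q hq).inv_left
      rw [← map_inv, ← map_mul, hxi] at this
      simpa only [ht, mul_assoc] using this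
    set u0 : R := ⟨u.val, hmem u h1 h2⟩ with hu0
    have hq := (hPx u0).resolve_left (hnot u _)
    have e1 : x0 * t * x0 = t⁻¹ := by
      rw [ht, mul_inv_rev, hxi, ← mul_assoc, hxx, one_mul, mul_inv_rev, mul_inv_rev, hxi, inv_inv,
        mul_assoc z]
    have e2 : π (t * (u0 * t * u0⁻¹)) = 1 := by
      have e3 : u0 * t * u0⁻¹ = (u0 * x0) * t⁻¹ * (u0 * x0)⁻¹ := by
        rw [← e1, mul_inv_rev, hxi]
        calc u0 * t * u0⁻¹ = u0 * (x0 * x0) * t * (x0 * x0) * u0⁻¹ := by rw [hxx]; group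
          _ = _ := by group
      rw [e3, map_mul π t, map_mul π _ (u0 * x0)⁻¹, map_mul π _ t⁻¹, map_inv, map_inv,
        ← (hct _ hq).inv_left.eq]
      group
    have e4 := (hcen _).1 ((QuotientGroup.eq_one_iff _).1 e2) (u ◃ v)
      (fun e => h3 (by rw [← rf_rf u v, e, h2.rf_eq'])) (h2.rf_right h4)
    change ((t : G) * (u.val * t * u.val⁻¹)) • u.val • v = _ at e4
    rw [mul_smul, mul_smul, inv_smul_smul, mul_smul] at e4
    change u.val • ((t : G) • v) = (t : G)⁻¹ • (u ◃ v)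
    rw [eq_inv_smul_iff, e4]

theorem ncard_mu (h : T.Std) {a b c d : T.Pt} (hab : ¬ cm a b) (hcd : ¬ cm c d) :
    {u | cm a u ∧ cm b u}.ncard = {u | cm c u ∧ cm d u}.ncard := by
  obtain ⟨g, rfl, rfl⟩ := h.exists_smul_pair_ncm hab hcd
  rw [← ncard_smul_set g (fun u => cm (g • a) u ∧ cm (g • b) u)]
  simp

/-- In width two, `μ = 1`. -/
theorem mu_one (h : T.Std) (hT : T.NoTri) {p q u v : T.Pt} (hpq : ¬ cm p q) (h1 : cm p u)
    (h2 : cm q u) (h3 : cm p v) (h4 : cm q v) : u = v := by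
  by_contra huv
  obtain ⟨x, x', hx, hx', hxx, ht⟩ := h.exists_translation hT p
  set y := p with hy
  have hxx' : ¬ cm x x' := hT y x x' hx.1.symm hx'.1.symm hxx hx.2 hx'.2
  obtain ⟨a, ⟨hxa, hxa'⟩, hay⟩ : ∃ a ∈ {u | cm x u ∧ cm x' u}, a ≠ y := by
    apply Set.exists_ne_of_one_lt_ncard
    rw [h.ncard_mu hxx' hpq, Set.one_lt_ncard]
    exact ⟨u, ⟨h1, h2⟩, v, ⟨h3, h4⟩, huv⟩
  have hya : ¬ cm y a :=
    hT x y a hx.1 (fun e => hxx' (e ▸ hxa'.symm)) hay.symm hx.2.symm hxa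
  obtain ⟨c, hc1, hyc, hac⟩ := h.exists_cm_ncm' hya
  have hMc : ∀ w, cm y w → cm a w → ¬ cm w c := fun w hw1 hw2 =>
    hT y w c (fun e => hya (e ▸ hw2.symm)) hc1.symm (fun e => hac (e ▸ hw2)) hw1 hyc
  have hbc : ¬ cm (y ◃ a) c := by rw [cm_rf_left, hyc.rf_eq]; exact hac
  have hb : ∀ w, cm y w → cm a w → cm (y ◃ a) w := fun w hw1 hw2 =>
    (hw1.symm.rf_right hw2.symm).symm
  have hφ : ∀ w, cm y w → cm a w → cm c ((y ◃ a) ◃ w ◃ c) := fun w hw1 hw2 => by
    rw [cm_rf_right, rf_comm hbc, rf_comm (hMc w hw1 hw2), cm_rf]; exact hb w hw1 hw2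
  set t := x.val * x'.val with htdef
  have hts : ∀ w : T.Pt, t • w = x ◃ x' ◃ w := fun w => mul_smul _ _ _
  have htM : ∀ d w, cm d x → cm d x' → (cm d (t • w) ↔ cm d w) := fun d w h1 h2 => by
    rw [hts, cm_rf_of_cm h1, cm_rf_of_cm h2]
  have hcc : ¬ cm c (t • c) := by
    refine hT y c _ hc1.symm (fun e => ?_) (fun e => ?_) hyc ((htM y c hx.2 hx'.2).2 hyc)
    · have : ¬ cm a (t • c) := (htM a c hxa.symm hxa'.symm).not.2 hac
      rw [hts] at e
      exact hc1 (by rw [← rf_rf x' c, ← rf_rf x (x' ◃ c), ← e, hx.2.rf_eq', hx'.2.rf_eq'])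
    · rw [hts] at e
      exact hxx (rf_inj_left (hMc x hx.2 hxa.symm) (hMc x' hx'.2 hxa'.symm)
        (by conv_lhs => rw [e, rf_rf]))
  have hsub : insert y ((fun w => (y ◃ a) ◃ w ◃ c) '' {u | cm y u ∧ cm a u}) ⊆
      {u | cm c u ∧ cm (t • c) u} := by
    rintro _ (rfl | ⟨w, ⟨hw1, hw2⟩, rfl⟩)
    · exact ⟨hyc.symm, ((htM _ c hx.2 hx'.2).2 hyc).symm⟩
    · refine ⟨hφ w hw1 hw2, ?_⟩
      have htb : t⁻¹ • (y ◃ a) = y ◃ a := by
        rw [inv_smul_eq_iff, hts, (hb x' hx'.2 hxa'.symm).rf_eq', (hb x hx.2 hxa.symm).rf_eq']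
      have hw1' := (htM y w hx.2 hx'.2).2 hw1
      have hw2' := (htM a w hxa.symm hxa'.symm).2 hw2
      rw [cm_smul_left, smul_rf, htb, rf_comm (hMc w hw1 hw2),
        ← ht c w hc1 hyc (fun e => hya (e ▸ hw2.symm)) hw1, ← rf_comm (hMc _ hw1' hw2')]
      exact hφ _ hw1' hw2'
  have hle := Set.ncard_le_ncard hsub
  rw [Set.ncard_insert_of_notMem, Set.InjOn.ncard_image, h.ncard_mu hcc hya] at hle
  · omega
  · intro w hw w' hw' e
    exact rf_inj_left (hMc w hw.1 hw.2) (hMc w' hw'.1 hw'.2) (rf_left_cancel e)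
  · rintro ⟨w, ⟨hw1, hw2⟩, e⟩
    apply hya
    rw [← e, cm_comm]
    beta_reduce
    rw [(hb w hw1 hw2).rf_rf_comm, cm_rf_of_cm hw2, cm_rf_right,
      rf_comm (ncm_symm (cm_rf_self_right hya)), rf_rf_swap hya]
    exact hyc

/-- In width two, `D_y` has three points. -/
theorem perp_three (h : T.Std) (hT : T.NoTri) {y a c x : T.Pt} (hya : ¬ cm y a)
    (hc1 : c ≠ y) (hyc : cm y c) (hac : ¬ cm a c) (hyx : cm y x) (hax : cm a x) {w : T.Pt}
    (hw1 : w ≠ y) (hyw : cm y w) : w = x ∨ w = c ∨ w = c ◃ x := by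
  by_cases haw : cm a w
  · exact Or.inl (h.mu_one hT hya hyw haw hyx hax)
  by_cases hwc : w = c
  · exact Or.inr (Or.inl hwc)
  right; right
  by_cases h3 : cm a (c ◃ w)
  · rw [← h.mu_one hT hya (hyc.rf_right hyw) h3 hyx hax, rf_rf]
  exfalso
  have hcw : ¬ cm c w := hT y c w hc1.symm hw1.symm (Ne.symm hwc) hyc hyw
  have hpy : ¬ cm y (c ◃ w ◃ a) := by rwa [cm_rf_of_cm hyc, cm_rf_of_cm hyw]
  have hp3 : ¬ cm (c ◃ w) (c ◃ w ◃ a) := by rw [cm_rf, cm_rf_self_left]; exact ncm_symm haw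
  have hpc : ¬ cm c (c ◃ w ◃ a) := by
    rw [cm_rf_self_left, cm_rf_right, ← rf_comm hcw]; exact ncm_symm h3
  have k1 : cm c ((y ◃ a) ◃ c ◃ w ◃ a) := by
    rw [cm_rf_right, rf_rf_left, hyc.rf_eq, cm_rf_left, rf_comm hac,
      show c ◃ a = (c ◃ w) ◃ c ◃ w ◃ a by rw [← rf_distrib, rf_rf],
      rf_comm hp3, rf_comm hpy, cm_rf]
    exact (hyc.rf_right hyw).symm
  have k2 : cm w ((y ◃ a) ◃ c ◃ w ◃ a) := by
    have : cm (c ◃ c ◃ w ◃ a) (y ◃ c ◃ w ◃ a) := by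
      rw [rf_comm hpc, rf_comm hpy, cm_rf]
      exact hyc.symm
    rw [cm_rf_right, rf_rf_left, hyw.rf_eq, cm_rf_left, rf_comm haw]
    rwa [rf_rf] at this
  have e := h.mu_one hT hcw k1 k2 hyc.symm hyw.symm
  have e2 : c ◃ w ◃ a = a := by
    rw [← rf_rf (y ◃ a) (c ◃ w ◃ a), e, rf_rf_left, rf_self, rf_rf_swap (ncm_symm hya)]
  exact hwc (rf_inj_left (ncm_symm haw) (ncm_symm hac) (by conv_rhs => rw [← e2, rf_rf]))

/-- In width two the group is `S₅`. -/
theorem equiv_perm_five (h : T.Std) (hT : T.NoTri) (hZ : Subgroup.center G = ⊥) :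
    Nonempty (G ≃* Equiv.Perm (Fin 5)) := by
  obtain ⟨x, y, hxy, hc⟩ := h.ex_cm
  have hyx := hc.symm
  obtain ⟨a, hxa, hya⟩ := h.exists_cm_ncm hxy.symm
  have hax := hxa.symm
  obtain ⟨c, hc1, hyc, hac⟩ := h.exists_cm_ncm' hya
  have hcx : ¬ cm c x := hT y c x hc1.symm hxy.symm (fun e => hac (e ▸ hax)) hyc hyx
  let τ : Fin 5 → Fin 5 → T.Pt :=
    ![![y, y, y ◃ a, y ◃ a ◃ c, y ◃ a ◃ c ◃ x], ![y, y, a, a ◃ c, a ◃ c ◃ x],
      ![y ◃ a, a, y, c, c ◃ x], ![y ◃ a ◃ c, a ◃ c, c, y, x],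
      ![y ◃ a ◃ c ◃ x, a ◃ c ◃ x, c ◃ x, x, y]]
  let gen : Fin 4 → T.Pt := ![y, a, c, x]
  let Γ : Subgroup (G × Equiv.Perm (Fin 5)) :=
    Subgroup.closure (Set.range fun i : Fin 4 => ((gen i).val, Equiv.swap i.castSucc i.succ))
  have r1 : ∀ w, c ◃ y ◃ w = y ◃ c ◃ w := hyc.symm.rf_rf_comm
  have r2 : ∀ w, x ◃ y ◃ w = y ◃ x ◃ w := hc.rf_rf_comm
  have r3 : ∀ w, x ◃ a ◃ w = a ◃ x ◃ w := hxa.rf_rf_comm
  have br : ∀ {p q : T.Pt}, ¬ cm p q → ∀ w, q ◃ p ◃ q ◃ w = p ◃ q ◃ p ◃ w := fun hpq w => by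
    rw [← rf_rf_left, ← rf_rf_left, rf_comm hpq]
  have r4 : y ◃ c ◃ x = c ◃ x := (hyc.rf_right hyx).rf_eq
  have hgen : ∀ k : Fin 4, ∀ i j : Fin 5, i ≠ j → gen k ◃ τ i j =
      τ (Equiv.swap k.castSucc k.succ i) (Equiv.swap k.castSucc k.succ j) := by
    intro k i j hij
    fin_cases k <;> fin_cases i <;> fin_cases j <;>
      first
      | exact absurd rfl hij
      | simp [τ, gen, Equiv.swap_apply_def, r1, r2, r3, r4, br hya, br hac, br hcx, hyc.rf_eq,
          hyc.rf_eq', hyx.rf_eq, hyx.rf_eq', hax.rf_eq, hax.rf_eq', ← rf_comm hya, ← rf_comm hac,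
          ← rf_comm hcx, rf_rf_swap hya, rf_rf_swap hac, rf_rf_swap hcx]
  have hΓ : ∀ p ∈ Γ, ∀ i j : Fin 5, i ≠ j → p.1 • τ i j = τ (p.2 i) (p.2 j) := by
    intro p hp
    induction hp using Subgroup.closure_induction with
    | mem p hp => obtain ⟨k, rfl⟩ := hp; exact hgen k
    | one => intro i j _; simp
    | mul p q _ _ hp hq =>
      intro i j hij
      rw [Prod.fst_mul, mul_smul, hq i j hij, hp _ _ (q.2.injective.ne hij)]; rfl
    | inv p _ hp =>
      intro i j hij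
      rw [Prod.fst_inv, inv_smul_eq_iff, hp _ _ ((p⁻¹).2.injective.ne hij)]; simp
  let Γ1 : Subgroup G := Γ.map (MonoidHom.fst _ _)
  have hg1 : ∀ k, (gen k).val ∈ Γ1 := fun k => ⟨_, Subgroup.subset_closure ⟨k, rfl⟩, rfl⟩
  have hy1 : y.val ∈ Γ1 := hg1 0
  have ha1 : a.val ∈ Γ1 := hg1 1
  have hc1' : c.val ∈ Γ1 := hg1 2
  have hx1 : x.val ∈ Γ1 := hg1 3
  have hD := h.commuting_induction (S := {w | ∃ g ∈ Γ1, g • y = w}) ⟨y, 1, one_mem _, one_smul _ _⟩
    (by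
      rintro _ ⟨g, hg, rfl⟩ b hb
      have hcy : ∃ k ∈ Γ1, k • y = c := ⟨a.val * c.val * y.val * a.val,
        mul_mem (mul_mem (mul_mem ha1 hc1') hy1) ha1, by
          simp only [mul_smul, ← rf_def]
          rw [rf_rf_swap (ncm_symm hya), rf_rf_swap (ncm_symm hac)]⟩
      obtain ⟨k, hk, hky⟩ := hcy
      have : ∃ k ∈ Γ1, k • y = g⁻¹ • b := by
        by_cases e : g⁻¹ • b = y
        · exact ⟨1, one_mem _, by rw [e, one_smul]⟩
        rcases h.perp_three hT hya hc1 hyc hac hyx hax e ((cm_smul_left _ _ _).1 hb) with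
          e | e | e
        · refine ⟨c.val * x.val * k, mul_mem (mul_mem hc1' hx1) hk, ?_⟩
          simp only [mul_smul, ← rf_def]
          rw [hky, e, rf_rf_swap (ncm_symm hcx)]
        · exact ⟨k, hk, by rw [hky, e]⟩
        · refine ⟨x.val * k, mul_mem hx1 hk, ?_⟩
          simp only [mul_smul, ← rf_def]
          rw [hky, e, rf_comm hcx]
      obtain ⟨k', hk', e⟩ := this
      exact ⟨g * k', mul_mem hg hk', by rw [mul_smul, e, smul_inv_smul]⟩)
  have hval : ∀ w : T.Pt, w.val ∈ Γ1 := fun w => by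
    obtain ⟨g, hg, rfl⟩ : w ∈ {w | ∃ g ∈ Γ1, g • y = w} := hD ▸ Set.mem_univ w
    exact mul_mem (mul_mem hg hy1) (inv_mem hg)
  have hΓ1 : Γ1 = ⊤ := by
    rw [eq_top_iff, ← T.gen, Subgroup.closure_le]
    exact fun w hw => hval ⟨w, hw⟩
  let p1 : Γ →* G := (MonoidHom.fst _ _).comp Γ.subtype
  let p2 : Γ →* Equiv.Perm (Fin 5) := (MonoidHom.snd _ _).comp Γ.subtype
  have hp1 : Function.Surjective p1 := fun g => by
    obtain ⟨p, hp, e⟩ : g ∈ Γ1 := hΓ1 ▸ Subgroup.mem_top g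
    exact ⟨⟨p, hp⟩, e⟩
  have hp2 : Function.Surjective p2 := fun σ => by
    have hσ : σ ∈ Submonoid.closure (Set.range fun i : Fin 4 => Equiv.swap i.castSucc i.succ) :=
      Equiv.Perm.mclosure_swap_castSucc_succ 4 ▸ Submonoid.mem_top σ
    induction hσ using Submonoid.closure_induction with
    | mem s hs =>
      obtain ⟨k, rfl⟩ := hs
      exact ⟨⟨_, Subgroup.subset_closure ⟨k, rfl⟩⟩, rfl⟩
    | one => exact ⟨1, map_one _⟩
    | mul s t _ _ hs ht =>
      obtain ⟨p, rfl⟩ := hs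
      obtain ⟨q, rfl⟩ := ht
      exact ⟨p * q, map_mul _ _ _⟩
  have hp2i : Function.Injective p2 := by
    rw [injective_iff_map_eq_one]
    rintro ⟨⟨g, σ⟩, hp⟩ (rfl : σ = 1)
    have h1 : ∀ k, g • gen k = gen k := fun k => by
      have := hΓ _ hp k.castSucc k.succ (Fin.castSucc_lt_succ (i := k)).ne
      fin_cases k <;> simpa [τ, gen] using this
    have h2 : g ∈ Subgroup.center G := by
      refine Subgroup.mem_center_iff.2 fun k => ?_
      obtain ⟨p, hp, rfl⟩ : k ∈ Γ1 := hΓ1 ▸ Subgroup.mem_top k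
      have : Γ ≤ (Subgroup.centralizer {g}).comap (MonoidHom.fst _ _) := by
        rw [Subgroup.closure_le]
        rintro _ ⟨k, rfl⟩
        exact Subgroup.mem_centralizer_singleton_iff.2 (commute_iff_smul_eq.2 (h1 k)).symm.eq
      exact Subgroup.mem_centralizer_singleton_iff.1 (this hp)
    rw [hZ, Subgroup.mem_bot] at h2
    subst h2
    rfl
  let φ : Equiv.Perm (Fin 5) →* G := p1.comp (MulEquiv.ofBijective p2 ⟨hp2i, hp2⟩).symm.toMonoidHom
  have hφ : Function.Surjective φ := hp1.comp (MulEquiv.surjective _)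
  have hφi : Function.Injective φ := by
    rw [← MonoidHom.ker_eq_bot_iff]
    by_contra hk
    have hA := Equiv.Perm.alternatingGroup_le_of_normal (α := Fin 5) (by simp) (N := φ.ker)
      ((Subgroup.nontrivial_iff_ne_bot _).2 hk)
    rw [← alternatingGroup.commutator_perm_eq (by simp)] at hA
    obtain ⟨s, hs⟩ := hφ y.val
    obtain ⟨t, ht⟩ := hφ a.val
    have := hA (Subgroup.commutator_mem_commutator (Subgroup.mem_top s) (Subgroup.mem_top t))
    rw [MonoidHom.mem_ker, map_commutatorElement, hs, ht] at this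
    exact hya (commutatorElement_eq_one_iff_commute.1 this)
  exact ⟨(MulEquiv.ofBijective φ ⟨hφi, hφ⟩).symm⟩

end Std

end TTC

end Cfsg.Agent.H3
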