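import Cfsg.Agent.H3.FischerU2
import Cfsg.Prelude.Def_Solvable

/-! A noncentral `2`-core in the local group gives thick lines. -/

set_option autoImplicit false

namespace Cfsg.Agent.H3

open Matrix

variable {G : Type*} [Group G]

namespace TTC

variable {T : TTC G}

theorem big_of_pCore [Finite G] (x : T.Pt)
    (h : ¬ Cfsg.pCore 2 ↥(Subgroup.closure {y : G | y ∈ T.D ∧ y ≠ x.val ∧ Commute x.val y}) ≤
      Subgroup.center ↥(Subgroup.closure {y : G | y ∈ T.D ∧ y ≠ x.val ∧ Commute x.val y})) :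
    T.Big := by
  set R := Subgroup.closure {y : G | y ∈ T.D ∧ y ≠ x.val ∧ Commute x.val y} with hR
  have hmem : ∀ u : T.Pt, u ≠ x → cm x u → u.val ∈ R := fun u h1 h2 =>
    Subgroup.subset_closure ⟨u.mem, fun e => h1 (Pt.ext e), h2⟩
  have hRy : ∀ g ∈ R, g • x = x := fun g hg => by
    have : R ≤ MulAction.stabilizer G x := by
      rw [hR, Subgroup.closure_le]
      rintro w ⟨-, -, hw⟩
      exact commute_iff_smul_eq.1 hw.symm
    exact this hg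
  have hRs : ∀ g ∈ R, ∀ u : T.Pt, u ≠ x ∧ cm x u → g • u ≠ x ∧ cm x (g • u) := fun g hg u hu =>
    ⟨fun e => hu.1 (MulAction.injective g (e.trans (hRy g hg).symm)), by
      rw [← hRy g hg, cm_smul]; exact hu.2⟩
  unfold Cfsg.pCore at h
  rw [sSup_le_iff] at h
  push Not at h
  obtain ⟨N, ⟨hN, hNo⟩, hNZ⟩ := h
  obtain ⟨n, hn, hnZ⟩ := SetLike.not_le_iff_exists.1 hNZ
  obtain ⟨y, hy, hny⟩ : ∃ y : T.Pt, (y ≠ x ∧ cm x y) ∧ (n : G) • y ≠ y := by
    by_contra hc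
    push Not at hc
    refine hnZ (Subgroup.mem_center_iff.2 fun k => Subtype.ext ?_)
    refine (commute_of_mem_closure (U := {(n : G)}) ?_ k.2 (Subgroup.subset_closure rfl)).eq
    rintro w ⟨h1, h2, h3⟩ _ rfl
    exact (commute_iff_smul_eq.2 (hc ⟨w, h1⟩ ⟨fun e => h2 (congrArg Pt.val e), h3⟩)).symm
  have hb := hRs n n.2 y hy
  refine ⟨x, y, (n : G) • y, hy.1.symm, hy.2, fun w hxw hyw => ?_, hb.1, hny⟩
  by_cases hwx : w = x
  · rw [hwx]; exact hb.2.symm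
  by_contra hbw
  set b := (n : G) • y with hbdef
  set w0 : R := ⟨w.val, hmem w hwx hxw⟩
  set y0 : R := ⟨y.val, hmem y hy.1 hy.2⟩
  have h1 : n * (y0 * n⁻¹ * y0⁻¹) ∈ N := mul_mem hn (hN.conj_mem _ (inv_mem hn) y0)
  set m := n * (y0 * n⁻¹ * y0⁻¹) with hm
  have h2 : b.val = (m : G) * y.val := by
    change (n : G) * y.val * (n : G)⁻¹ = (n : G) * (y.val * (n : G)⁻¹ * y.val⁻¹) * y.val
    group
  have h3 : m * ((y0 * w0) * m * (y0 * w0)⁻¹) ∈ N := mul_mem h1 (hN.conj_mem _ h1 _)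
  have h4 : ((m * ((y0 * w0) * m * (y0 * w0)⁻¹) : R) : G) = (b.val * w.val) ^ 2 := by
    change (m : G) * ((y.val * w.val) * m * (y.val * w.val)⁻¹) = _
    rw [h2, _root_.mul_inv_rev, w.inv_val, y.inv_val, ← (show Commute y.val w.val from hyw).eq, pow_two]
    simp only [mul_assoc]
  obtain ⟨k, hk⟩ := hNo ⟨_, h3⟩
  have h5 : ((b.val * w.val) ^ 2) ^ 2 ^ k = 1 := by
    rw [← h4]
    exact congrArg (fun z : N => ((z : R) : G)) hk
  rw [← pow_mul, ← orderOf_dvd_iff_pow_eq_one, tt_orderOf_three T.tt b.mem w.mem hbw,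
    ← pow_succ'] at h5
  exact absurd (Nat.prime_three.dvd_of_dvd_pow h5) (by norm_num)

theorem Std.uemb_of_big [Finite G] (h : T.Std) (hB : T.Big) :
    (∃ (n : ℕ) (ψ : T.Pt → Fin n ⊕ Fin n → ZMod 2),
      T.UEmb (RingEquiv.refl _) (J (Fin n) (ZMod 2)) ψ) ∨
    ∃ (n : ℕ) (ψ : T.Pt → Fin n → F4), 4 ≤ n ∧ T.UEmb F4.τ 1 ψ :=
  (h.ncard_three_or_five hB).imp (h.exists_uemb_sp hB) h.exists_uemb_su

end TTC

end Cfsg.Agent.H3
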