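import Cfsg.Agent.H3.ThreeTrans
import Cfsg.Agent.H6.IwaU

/-! Transvections as 3-transpositions. -/

set_option autoImplicit false

namespace Cfsg.Agent.H3

open Matrix Cfsg.Agent.H6

theorem isThreeTranspositionClass_of {G : Type*} [Group G] {D : Set G} (hne : D.Nonempty)
    (h2 : ∀ a ∈ D, a * a = 1 ∧ a ≠ 1)
    (hbr : ∀ a ∈ D, ∀ b ∈ D, Commute a b ∨ a * b * a = b * a * b)
    (hconj : ∀ g, ∀ a ∈ D, g * a * g⁻¹ ∈ D) (htr : ∀ a ∈ D, ∀ b ∈ D, IsConj a b)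
    (hgen : Subgroup.closure D = ⊤) : IsThreeTranspositionClass D := by
  haveI : Fact (Nat.Prime 2) := ⟨Nat.prime_two⟩
  refine ⟨⟨fun a ha => orderOf_eq_prime (by rw [pow_two, (h2 a ha).1]) (h2 a ha).2,
    fun a ha b hb => (hbr a ha b hb).imp (fun h => ?_)
      (cube_of_braid (h2 a ha).1 (h2 b hb).1)⟩, ?_, hgen⟩
  · rw [h.mul_pow, pow_two, pow_two, (h2 a ha).1, (h2 b hb).1, one_mul]
  · obtain ⟨d, hd⟩ := hne
    refine ⟨d, hd, Set.ext fun x => ⟨htr d hd x, fun hx => ?_⟩⟩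
    obtain ⟨g, rfl⟩ := isConj_iff.1 hx
    exact hconj g d hd

theorem isConj_of_braid {G : Type*} [Group G] {a b : G} (h : a * b * a = b * a * b) :
    IsConj a b := isConj_iff.2 ⟨a * b, by rw [h]; group⟩

variable {ι : Type*} [Fintype ι] [DecidableEq ι] {F : Type*} [Field F] {τ : F ≃+* F}
  {H : Type*} [Group H] {ρ : H →* Matrix ι ι F} {A : Matrix ι ι F}

theorem exists_tv_of_rank {M : Matrix ι ι F} (h : (M - 1).rank = 1) :
    ∃ a f : ι → F, a ≠ 0 ∧ f ≠ 0 ∧ M = tv a f := by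
  rw [Matrix.rank, finrank_eq_one_iff'] at h
  obtain ⟨⟨a, ha⟩, ha0, h⟩ := h
  choose f hf using fun j : ι => h ⟨(M - 1) *ᵥ Pi.single j 1, ⟨_, rfl⟩⟩
  have e : M - 1 = vecMulVec a f := by
    ext i j
    have := congrFun (congrArg Subtype.val (hf j)) i
    simp only [SetLike.mk_smul_mk, Pi.smul_apply, smul_eq_mul, mulVec_single_one, col_apply] at this
    rw [vecMulVec_apply, ← this, mul_comm]
  refine ⟨a, f, fun h => ha0 (Subtype.ext h), fun h0 => ha0 (Subtype.ext ?_), by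
    rw [tv, ← e]; abel⟩
  obtain ⟨x, hx⟩ := ha
  change a = 0
  rw [← hx, e, h0]; simp

theorem rank_tv {a f : ι → F} (ha : a ≠ 0) (hf : f ≠ 0) : (tv a f - 1).rank = 1 := by
  rw [tv, add_sub_cancel_left]
  refine le_antisymm (rank_vecMulVec_le a f) (Nat.pos_of_ne_zero fun h => ?_)
  obtain ⟨v, hv⟩ := exists_dot_one hf
  rw [Matrix.rank, Submodule.finrank_eq_zero] at h
  have : vecMulVec a f *ᵥ v ∈ LinearMap.range (vecMulVec a f).mulVecLin := ⟨v, rfl⟩
  rw [h, Submodule.mem_bot, vecMulVec_mulVec', hv, one_smul] at this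
  exact ha this

theorem det_tv' (a f : ι → F) : (tv a f).det = 1 + f ⬝ᵥ a := by
  rw [tv, vecMulVec_eq Unit, det_one_add_replicateCol_mul_replicateRow]

local notation "s⟪" u ", " v "⟫" => sf (τ : F →+* F) A u v

variable (ρ τ A) in
/-- `t` is the normalized transvection with centre `a`. -/
def IsT (t : H) (a : ι → F) : Prop :=
  a ≠ 0 ∧ s⟪a, a⟫ = 0 ∧ ∀ v, ρ t *ᵥ v = v + s⟪v, a⟫ • a

theorem IsT.rank (hA : A.det ≠ 0) {t : H} {a : ι → F} (h : IsT τ ρ A t a) :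
    (ρ t - 1).rank = 1 := by
  have : ρ t = tv a (pf τ A a) := ext_mulVec fun v => by rw [h.2.2, tv_mulVec, pf_dot]
  rw [this]; exact rank_tv h.1 (pf_ne_zero hA h.1)

theorem tt_class_of_isT (I : Isom ρ τ A) (inj : Function.Injective ρ) (h2 : (2 : F) = 0)
    (hN : ∀ u v, s⟪u, v⟫ ≠ 0 → s⟪u, v⟫ * s⟪v, u⟫ = 1) (hs : ∀ u v, τ s⟪u, v⟫ = s⟪v, u⟫)
    (hex : ∀ a, a ≠ 0 → s⟪a, a⟫ = 0 → ∃ t, IsT τ ρ A t a)
    (hmid : ∀ a b, a ≠ 0 → b ≠ 0 → s⟪a, a⟫ = 0 → s⟪a, b⟫ = 0 →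
      ∃ c, s⟪c, c⟫ = 0 ∧ s⟪c, a⟫ ≠ 0 ∧ s⟪c, b⟫ ≠ 0)
    (hne : ∃ a, a ≠ 0 ∧ s⟪a, a⟫ = 0) {D : Set H} (hD : ∀ t, t ∈ D ↔ ∃ a, IsT τ ρ A t a)
    (hgen : Subgroup.closure D = ⊤) : IsThreeTranspositionClass D := by
  have hs' : ∀ u v, (τ : F →+* F) s⟪u, v⟫ = s⟪v, u⟫ := hs
  have hbr : ∀ {s t : H} {a b}, IsT τ ρ A s a → IsT τ ρ A t b → s⟪a, b⟫ ≠ 0 →
      s * t * s = t * s * t := fun {s t a b} h1 h3 h => inj (ext_mulVec fun v => by
    have e1 := hN a b h
    simp only [map_mul, ← mulVec_mulVec, h1.2.2, h3.2.2, sf_add_left, sf_smul_left, h1.2.1,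
      h3.2.1]
    ext i
    simp only [Pi.add_apply, Pi.smul_apply, smul_eq_mul]
    linear_combination (s⟪v, a⟫ * a i - s⟪v, b⟫ * b i) * e1 + (s⟪v, a⟫ * a i - s⟪v, b⟫ * b i) * h2)
  refine isThreeTranspositionClass_of ?_ (fun t ht => ?_) (fun s hs t ht => ?_)
    (fun g t ht => ?_) (fun s hs t ht => ?_) hgen
  · obtain ⟨a, h1, h3⟩ := hne
    obtain ⟨t, ht⟩ := hex a h1 h3
    exact ⟨t, (hD t).2 ⟨a, ht⟩⟩
  · obtain ⟨a, ha⟩ := (hD t).1 ht
    refine ⟨inj (ext_mulVec fun v => ?_), fun e => ?_⟩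
    · simp only [map_mul, ← mulVec_mulVec, ha.2.2, sf_add_left, sf_smul_left, ha.2.1, map_one,
        one_mulVec]
      ext i
      simp only [Pi.add_apply, Pi.smul_apply, smul_eq_mul]
      linear_combination (s⟪v, a⟫ * a i) * h2
    · have := ha.rank I.det
      rw [e, map_one, sub_self, rank_zero] at this
      exact zero_ne_one this
  · obtain ⟨a, ha⟩ := (hD s).1 hs
    obtain ⟨b, hb⟩ := (hD t).1 ht
    by_cases h : s⟪a, b⟫ = 0
    · left
      refine inj (ext_mulVec fun v => ?_)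
      simp only [map_mul, ← mulVec_mulVec, ha.2.2, hb.2.2, sf_add_left, sf_smul_left, h,
        I.refl _ _ h, mul_zero, add_zero]
      abel
    · exact Or.inr (hbr ha hb h)
  · obtain ⟨a, ha⟩ := (hD t).1 ht
    refine (hD _).2 ⟨ρ g *ᵥ a, rho_mulVec_ne_zero g ha.1, by rw [I.isom, ha.2.1], fun v => ?_⟩
    rw [map_mul, map_mul, ← mulVec_mulVec, ← mulVec_mulVec, ha.2.2, mulVec_add, mulVec_inv_mulVec,
      mulVec_smul, ← I.isom g, mulVec_inv_mulVec]
  · obtain ⟨a, ha⟩ := (hD s).1 hs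
    obtain ⟨b, hb⟩ := (hD t).1 ht
    by_cases h : s⟪a, b⟫ = 0
    · obtain ⟨c, h1, h3, h4⟩ := hmid a b ha.1 hb.1 ha.2.1 h
      obtain ⟨u, hu⟩ := hex c (fun e => h3 (by rw [e, sf_zero_left])) h1
      exact (isConj_of_braid (hbr hu ha h3)).symm.trans (isConj_of_braid (hbr hu hb h4))
    · exact isConj_of_braid (hbr ha hb h)

theorem closure_eq_top_of_tvSub (I : Isom ρ τ A) (inj : Function.Injective ρ)
    (h : tvSub ρ = ⊤) : Subgroup.closure {t | (ρ t - 1).rank = 1} = ⊤ := by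
  rw [eq_top_iff, ← h, tvSub, Subgroup.closure_le]
  rintro t ⟨a, f, -, e⟩
  by_cases h0 : a = 0 ∨ f = 0
  · have : t = 1 := inj (by rcases h0 with rfl | rfl <;> simp [e, tv])
    rw [this]; exact one_mem _
  · push Not at h0
    exact Subgroup.subset_closure (show (ρ t - 1).rank = 1 by rw [e]; exact rank_tv h0.1 h0.2)

section unitary

variable [Finite F]

theorem flagQ_le_tvSub (U : SUlike τ ρ) (h4 : 4 ≤ Fintype.card ι) (h2 : (2 : F) = 0)
    (hN : ∀ x : F, x ≠ 0 → x * τ x = 1) {ω : F} (hω : ω ^ 2 + ω + 1 = 0) {a : ι → F}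
    (ha0 : a ≠ 0) (ha : hf τ a a = 0) : flagQ ρ a (pf τ 1 a) ≤ tvSub ρ := by
  have hω0 : ω ≠ 0 := by rintro rfl; simp at hω
  obtain ⟨b, hb⟩ := exists_hf_one (τ := τ) ha0
  have hb' : hf τ a b = 1 := by rw [← hf_conj U.ord, hb, map_one]
  have hT : ∀ u, hf τ u u = 0 → ∃ t ∈ tvSub ρ, ∀ v, ρ t *ᵥ v = v + hf τ v u • u := fun u hu => by
    obtain ⟨t, ht⟩ := U.exists_tv hu (k := 1) (by rw [map_one]; linear_combination h2)
    exact ⟨t, TvOr1.mem ⟨_, _, by rw [one_smul, pf_dot_hf, hu], ht⟩, fun v => by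
      rw [ht, tv_mulVec, one_smul, pf_dot_hf]⟩
  let P : (ι → F) → Prop := fun u => ∃ t ∈ tvSub ρ, t ∈ flagQ ρ a (pf τ 1 a) ∧
    ∃ c : F, ρ t *ᵥ b = b + u + c • a
  have Piso : ∀ u, hf τ u u = 0 → hf τ u a = 0 → P u := fun u hu hua => by
    have hau := hf_comm U.ord hua
    obtain ⟨t, ht, e⟩ := hT u hu
    obtain ⟨t', ht', e'⟩ := hT (u + a) (by simp [hf_add_left, hf_add_right, hu, ha, hua, hau])
    have key : ∀ v, ρ (t' * t) *ᵥ v = v + hf τ v a • u + (hf τ v u + hf τ v a) • a := fun v => by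
      rw [map_mul, ← mulVec_mulVec, e, e']
      simp only [hf_add_left, hf_add_right, hf_smul_left, hu, hua, mul_zero, add_zero]
      ext i
      simp only [Pi.add_apply, Pi.smul_apply, smul_eq_mul]
      linear_combination (hf τ v u * u i) * h2
    refine ⟨t' * t, mul_mem ht' ht, ⟨?_, fun v => ?_, fun v hv => ⟨hf τ v u, ?_⟩⟩, _, by
      rw [key, hb, one_smul]⟩
    · rw [key, ha, hau]; simp
    · rw [key]; simp [pf_dot_hf, hf_add_left, hf_smul_left, ha, hua]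
    · rw [pf_dot_hf] at hv
      rw [key, hv]; simp
  have Padd : ∀ u u', hf τ u' a = 0 → P u → P u' → P (u + u') := by
    rintro u u' hu' ⟨t, ht1, ht2, c, e⟩ ⟨t', ht1', ht2', c', e'⟩
    obtain ⟨d, hd⟩ := ht2.2.2 u' (by rw [pf_dot_hf, hu'])
    refine ⟨t * t', mul_mem ht1 ht1', mul_mem ht2 ht2', c + d + c', ?_⟩
    rw [map_mul, ← mulVec_mulVec, e', mulVec_add, mulVec_add, e, hd, mulVec_smul, ht2.1]
    module
  have Pall : ∀ u, hf τ u a = 0 → P u := fun u hua => by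
    by_cases hu : hf τ u u = 0
    · exact Piso u hu hua
    have hu1 : hf τ u u = 1 := by
      have h1 := hN _ hu
      rw [hf_conj U.ord] at h1
      have : (hf τ u u - 1) ^ 2 = 0 := by linear_combination h1 - (hf τ u u - 1) * h2
      exact sub_eq_zero.1 (pow_eq_zero_iff two_ne_zero |>.1 this)
    obtain ⟨y, hy, hyu, hya⟩ : ∃ y, hf τ y y = 1 ∧ hf τ y u = 0 ∧ hf τ y a = 0 := by
      obtain ⟨i⟩ : Nonempty ι := Fintype.card_pos_iff.1 (by omega)
      obtain ⟨e, he, rfl⟩ := exists_onb_one U.ord hu1 i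
      obtain ⟨j, k, l, hjk, hjl, hkl⟩ := exists_three (ι := {j // j ≠ i}) (by
        rw [Fintype.card_subtype_compl, Fintype.card_subtype_eq]; omega)
      by_cases h1 : hf τ (e j) a = 0
      · exact ⟨e j, he.self j, he.ne j.2, h1⟩
      by_cases h3 : hf τ (e k) a = 0
      · exact ⟨e k, he.self k, he.ne k.2, h3⟩
      by_cases h5 : hf τ (e l) a = 0
      · exact ⟨e l, he.self l, he.ne l.2, h5⟩
      have hjk' : (j : ι) ≠ k := fun e => hjk (Subtype.ext e)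
      have hjl' : (j : ι) ≠ l := fun e => hjl (Subtype.ext e)
      have hkl' : (k : ι) ≠ l := fun e => hkl (Subtype.ext e)
      refine ⟨(hf τ (e j) a)⁻¹ • e j + (ω * (hf τ (e k) a)⁻¹) • e k +
        (ω ^ 2 * (hf τ (e l) a)⁻¹) • e l, ?_, ?_, ?_⟩
      · simp only [hf_add_left, hf_add_right, hf_smul_left, hf_smul_right, he.self, he.ne hjk',
          he.ne hjl', he.ne hkl', he.ne hjk'.symm, he.ne hjl'.symm, he.ne hkl'.symm]
        have n1 := hN _ (inv_ne_zero h1)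
        have n2 := hN _ (mul_ne_zero hω0 (inv_ne_zero h3))
        have n3 := hN _ (mul_ne_zero (pow_ne_zero 2 hω0) (inv_ne_zero h5))
        linear_combination n1 + n2 + n3 + h2
      · simp only [hf_add_left, hf_smul_left, he.ne j.2, he.ne k.2, he.ne l.2]; simp
      · simp only [hf_add_left, hf_smul_left]
        rw [inv_mul_cancel₀ h1, inv_mul_cancel_right₀ h3, inv_mul_cancel_right₀ h5]
        linear_combination hω
    have huy := hf_comm U.ord hyu
    have hiso : ∀ c : F, c ≠ 0 → P (u + c • y) := fun c hc => Piso _ (by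
      simp only [hf_add_left, hf_add_right, hf_smul_left, hf_smul_right, hu1, hy, hyu, huy]
      linear_combination hN c hc + h2) (by simp [hf_add_left, hf_smul_left, hua, hya])
    have hp : ∀ c : F, hf τ (u + c • y) a = 0 := fun c => by
      simp [hf_add_left, hf_smul_left, hua, hya]
    have := Padd _ _ (hp _) (Padd _ _ (hp _) (hiso 1 one_ne_zero) (hiso ω hω0))
      (hiso (ω ^ 2) (pow_ne_zero 2 hω0))
    convert this using 1
    ext i
    simp only [Pi.add_apply, Pi.smul_apply, smul_eq_mul]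
    linear_combination - u i * h2 - y i * hω
  intro g hg
  obtain ⟨t, ht1, ht2, c, e⟩ := Pall (ρ g *ᵥ b - b) (by
    rw [hf_sub_left, ← pf_dot_hf, hg.2.1, pf_dot_hf, sub_self])
  have hk : g⁻¹ * t ∈ flagQ ρ a (pf τ 1 a) := mul_mem (inv_mem hg) ht2
  have hkb : ρ (g⁻¹ * t) *ᵥ b = b + c • a := by
    rw [map_mul, ← mulVec_mulVec, e, add_sub_cancel, mulVec_add, inv_mulVec_mulVec, mulVec_smul,
      (inv_mem hg).1]
  have : g⁻¹ * t ∈ tvSub ρ := TvOr1.mem ⟨a, c • pf τ 1 a, by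
    rw [smul_dotProduct, pf_dot_hf, ha, smul_zero], ext_mulVec fun v => by
      obtain ⟨d, hd⟩ := hk.2.2 (v - hf τ v a • b) (by
        rw [pf_dot_hf, hf_sub_left, hf_smul_left, hb, mul_one, sub_self])
      have h1 := U.isom (g⁻¹ * t) (v - hf τ v a • b) b
      rw [hd, hkb] at h1
      simp only [hf_add_left, hf_add_right, hf_sub_left, hf_smul_left, hf_smul_right, ha, hb,
        hb'] at h1
      have hd0 : d = 0 := by linear_combination h1
      rw [hd0, zero_smul, add_zero, mulVec_sub, mulVec_smul, hkb] at hd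
      rw [tv_mulVec, smul_dotProduct, pf_dot_hf, eq_add_of_sub_eq hd, smul_eq_mul]
      module⟩
  have h3 := mul_mem ht1 (inv_mem this)
  simpa using h3

end unitary

end Cfsg.Agent.H3
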