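import Cfsg.Agent.H3.FischerLn
import Cfsg.Agent.H3.Transv
import Cfsg.Agent.S1631
import Cfsg.Agent.S0440

/-! Embeddings of 3-transposition classes in polar spaces. -/

set_option autoImplicit false

namespace Cfsg.Agent.H3

open Matrix Cfsg.Agent.H6

section gram

variable {κ : Type*} [Fintype κ] [DecidableEq κ] {F : Type*} [Field F]

theorem exists_nondeg (τ : F ≃+* F) (A : Matrix κ κ F)
    (hrefl : ∀ u v, sf (τ : F →+* F) A u v = 0 → sf (τ : F →+* F) A v u = 0) :
    ∃ (n : ℕ) (B : Matrix (Fin n) (Fin n) F) (P : (κ → F) →ₗ[F] (Fin n → F)),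
      Function.Surjective P ∧ B.det ≠ 0 ∧
      ∀ u v, sf (τ : F →+* F) B (P u) (P v) = sf (τ : F →+* F) A u v := by
  let R : Submodule F (κ → F) :=
    { carrier := {r | ∀ u, sf (τ : F →+* F) A u r = 0}
      zero_mem' := fun u => sf_zero_right _ _ u
      add_mem' := fun {a b} ha hb u => by rw [sf_add_right, ha, hb, add_zero]
      smul_mem' := fun c a ha u => by rw [sf_smul_right, ha, mul_zero] }
  obtain ⟨U, hU⟩ := R.exists_isCompl
  let b := Module.finBasis F U
  let Q : Matrix κ (Fin (Module.finrank F U)) F := Matrix.of fun k j => (b j : κ → F) k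
  have hQ : ∀ x, Q *ᵥ x = (b.equivFun.symm x : κ → F) := fun x => by
    funext k
    simp [Q, mulVec, dotProduct, mul_comm]
  let π := U.projectionOnto R hU.symm
  refine ⟨_, Qᵀ * A * Q.map τ, b.equivFun.toLinearMap ∘ₗ π, ?_, ?_, fun u v => ?_⟩
  · exact b.equivFun.surjective.comp (fun x => ⟨x, Submodule.projectionOnto_apply_left _ x⟩)
  · intro h0
    obtain ⟨x, hx, e⟩ := Matrix.exists_mulVec_eq_zero_iff.2 h0
    have h1 : ∀ w, sf (τ : F →+* F) A (Q *ᵥ w) (Q *ᵥ (τ.symm ∘ x)) = 0 := fun w => by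
      rw [sf_mulVec, sf]
      have : (τ : F →+* F) ∘ (τ.symm ∘ x) = x := by funext i; simp
      rw [this]
      erw [e]
      simp
    have h2 : Q *ᵥ (τ.symm ∘ x) ∈ R := fun u => by
      obtain ⟨r, s, rfl, -⟩ := Submodule.existsUnique_add_of_isCompl hU u
      rw [sf_add_left, hrefl _ _ (r.2 _), zero_add]
      have := h1 (b.equivFun s)
      rwa [hQ, LinearEquiv.symm_apply_apply] at this
    have h3 : Q *ᵥ (τ.symm ∘ x) = 0 := by
      have h4 : Q *ᵥ (τ.symm ∘ x) ∈ U := by rw [hQ]; exact Subtype.prop _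
      exact Submodule.disjoint_def.1 hU.disjoint _ h2 h4
    rw [hQ, ZeroMemClass.coe_eq_zero, LinearEquiv.map_eq_zero_iff] at h3
    exact hx (funext fun i => by simpa using congrFun h3 i)
  · have key : ∀ u, ∃ r ∈ R, u = Q *ᵥ (b.equivFun (π u)) + r := fun u => by
      obtain ⟨r, s, rfl, -⟩ := Submodule.existsUnique_add_of_isCompl hU u
      refine ⟨r, r.2, ?_⟩
      rw [hQ, LinearEquiv.symm_apply_apply, map_add, Submodule.projectionOnto_apply_left,
        Submodule.projectionOnto_apply_right, zero_add, add_comm]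
    obtain ⟨r, hr, e1⟩ := key u
    obtain ⟨s, hs, e2⟩ := key v
    conv_rhs => rw [e1, e2, sf_add_right, hs, add_zero, sf_add_left, hrefl _ _ (hr _), add_zero,
      sf_mulVec]
    rfl

theorem exists_gram_herm [Finite F] {τ : F ≃+* F} (hσ : orderOf τ = 2) {A : Matrix κ κ F}
    (hA : (A.map (τ : F →+* F))ᵀ = A) :
    ∃ (n : ℕ) (P : (κ → F) →ₗ[F] (Fin n → F)), Function.Surjective P ∧
      ∀ u v, hf τ (P u) (P v) = sf (τ : F →+* F) A u v := by
  have h1 := sf_herm (σ := (τ : F →+* F)) (sq_of_orderOf_two hσ) hA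
  obtain ⟨n, B, P, hP, hB, e⟩ := exists_nondeg τ A fun u v h => by rw [← h1, h, map_zero]
  have hB' : (B.map (τ : F →+* F))ᵀ = B := by
    ext i j
    obtain ⟨u, hu⟩ := hP (Pi.single i 1)
    obtain ⟨v, hv⟩ := hP (Pi.single j 1)
    rw [transpose_apply, map_apply, ← sf_single (τ : F →+* F) B j i, ← sf_single (τ : F →+* F) B i j,
      ← hu, ← hv, e, e, h1]
  obtain ⟨g, hg⟩ := exists_herm_basis hσ hB' hB
  refine ⟨n, (g⁻¹).1.mulVecLin ∘ₗ P, fun x => ?_, fun u v => ?_⟩
  · obtain ⟨u, hu⟩ := hP (g.1 *ᵥ x)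
    exact ⟨u, by simp [hu]⟩
  · rw [← e, hf_def, ← hg]
    erw [← sf_mulVec]
    simp

theorem exists_gram_symp {A : Matrix κ κ F} (hA : IsAlt A) :
    ∃ (n : ℕ) (P : (κ → F) →ₗ[F] (Fin n ⊕ Fin n → F)), Function.Surjective P ∧
      ∀ u v, bf (J (Fin n) F) (P u) (P v) = bf A u v := by
  obtain ⟨m, B, P, hP, hB, e⟩ := exists_nondeg (RingEquiv.refl F) A fun u v h => by
    have := hA.swap v u
    erw [this, h, neg_zero]
  have hB' : IsAlt B := fun x => by
    obtain ⟨u, rfl⟩ := hP x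
    exact (e u u).trans (hA u)
  obtain ⟨n, hn⟩ := even_card_of_isAlt hB' hB
  have hc : 2 * Fintype.card (Fin n) ≤ Fintype.card (Fin m) := by simp at hn ⊢; omega
  obtain ⟨f, -, hf⟩ := exists_hyp_ext hB' hB (κ := Fin n) hc ∅ 0 (by simp)
  let Q : Matrix (Fin m) (Fin n ⊕ Fin n) F := Matrix.of fun k j => f j k
  have hQ : Qᵀ * B * Q.map (RingHom.id F) = J (Fin n) F := by
    ext i j
    rw [H6.gram_apply]; exact hf i j
  have hinj : Function.Injective Q.mulVecLin := by
    rw [injective_iff_map_eq_zero]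
    intro x hx
    refine sf_nondeg_right (σ := RingHom.id F) det_J_ne_zero fun u => ?_
    rw [← hQ, ← sf_mulVec]
    rw [show Q *ᵥ x = 0 from hx]
    exact sf_zero_right _ _ _
  let E := Q.mulVecLin.linearEquivOfInjective hinj (by simp at hn ⊢; omega)
  refine ⟨n, E.symm.toLinearMap ∘ₗ P, E.symm.surjective.comp hP, fun u v => ?_⟩
  rw [← hQ, ← sf_mulVec]
  have : ∀ x, Q *ᵥ E.symm x = x := fun x => E.apply_symm_apply x
  simp only [LinearMap.comp_apply, LinearEquiv.coe_coe, this]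
  exact e u v

theorem span_single_eq_top {V : Type*} [AddCommGroup V] [Module F V] {P : (κ → F) →ₗ[F] V}
    (hP : Function.Surjective P) :
    Submodule.span F (Set.range fun p : κ => P (Pi.single p 1)) = ⊤ := by
  rw [eq_top_iff]
  intro v _
  obtain ⟨u, rfl⟩ := hP v
  rw [LinearMap.pi_apply_eq_sum_univ]
  refine Submodule.sum_mem _ fun i _ => Submodule.smul_mem _ _ (Submodule.subset_span ⟨i, ?_⟩)
  refine congrArg P (funext fun j => ?_)
  simp [Pi.single_apply, eq_comm]

theorem eq_of_span_right {α : Type*} {σ : F →+* F} {A : Matrix κ κ F} (hA : A.det ≠ 0)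
    {ψ : α → κ → F} (hspan : Submodule.span F (Set.range ψ) = ⊤) {v w : κ → F}
    (h : ∀ p, sf σ A (ψ p) v = sf σ A (ψ p) w) : v = w := by
  rw [← sub_eq_zero]
  refine sf_nondeg_right (σ := σ) hA fun u => ?_
  have hu : u ∈ Submodule.span F (Set.range ψ) := hspan ▸ Submodule.mem_top
  induction hu using Submodule.span_induction with
  | mem x hx => obtain ⟨p, rfl⟩ := hx; rw [sf_sub_right, h p, sub_self]
  | zero => exact sf_zero_left _ _ _
  | add x y _ _ h1 h2 => rw [sf_add_left, h1, h2, add_zero]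
  | smul c x _ h1 => rw [sf_smul_left, h1, mul_zero]

end gram

namespace TTC

variable {G : Type*} [Group G] {T : TTC G}

theorem ker_toPermHom : (MulAction.toPermHom G T.Pt).ker = Subgroup.center G := by
  ext z
  rw [MonoidHom.mem_ker]
  constructor
  · intro h
    exact mem_center_of_forall_commute (T := T) fun d =>
      commute_iff_smul_eq.2 (by simpa using congrArg (· d) h)
  · intro h
    ext1 d
    exact commute_iff_smul_eq.1 (Subgroup.mem_center_iff.1 h d.val).symm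

theorem range_toPermHom : (MulAction.toPermHom G T.Pt).range =
    Subgroup.closure (Set.range fun d : T.Pt => MulAction.toPermHom G T.Pt d.val) := by
  rw [MonoidHom.range_eq_map, ← T.gen, MonoidHom.map_closure]
  congr 1
  ext s
  exact ⟨fun ⟨d, hd, e⟩ => ⟨⟨d, hd⟩, e⟩, fun ⟨d, e⟩ => ⟨d.val, d.mem, e⟩⟩

/-- Isomorphic Fischer spaces have isomorphic central quotients. -/
theorem quot_equiv {G' : Type*} [Group G'] {T' : TTC G'} (β : T.Pt ≃ T'.Pt)
    (hβ : ∀ a b, β (a ◃ b) = β a ◃ β b) :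
    Nonempty (G ⧸ Subgroup.center G ≃* G' ⧸ Subgroup.center G') := by
  have h1 : (MulAction.toPermHom G T.Pt).range.map β.permCongrHom.toMonoidHom =
      (MulAction.toPermHom G' T'.Pt).range := by
    rw [range_toPermHom, range_toPermHom, MonoidHom.map_closure, ← Set.range_comp,
      ← β.surjective.range_comp]
    congr 2
    funext d
    ext1 p
    change β (d ◃ β.symm p) = β d ◃ p
    rw [hβ, Equiv.apply_symm_apply]
  exact ⟨(QuotientGroup.quotientMulEquivOfEq ker_toPermHom.symm).trans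
    ((QuotientGroup.quotientKerEquivRange _).trans
      (((β.permCongrHom.subgroupMap _).trans (MulEquiv.subgroupCongr h1)).trans
        ((QuotientGroup.quotientKerEquivRange _).symm.trans
          (QuotientGroup.quotientMulEquivOfEq ker_toPermHom))))⟩

variable {ι : Type*} [Fintype ι] [DecidableEq ι] {F : Type*} [Field F]

/-- An embedding of the class onto the isotropic points of a form in characteristic two. -/
structure UEmb (T : TTC G) (τ : F ≃+* F) (A : Matrix ι ι F) (ψ : T.Pt → ι → F) : Prop where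
  ne : ∀ p, ψ p ≠ 0
  cm_iff : ∀ p q, cm p q ↔ sf (τ : F →+* F) A (ψ p) (ψ q) = 0
  rf : ∀ d p, Par (ψ p + sf (τ : F →+* F) A (ψ p) (ψ d) • ψ d) (ψ (d ◃ p))
  surj : ∀ v, v ≠ 0 → sf (τ : F →+* F) A v v = 0 → ∃ p, Par (ψ p) v

theorem UEmb.quot_equiv [Finite G] {τ : F ≃+* F} {A : Matrix ι ι F} {ψ : T.Pt → ι → F}
    (E : T.UEmb τ A ψ) (h : T.Std) {H : Type*} [Group H] {ρ : H →* Matrix ι ι F}
    (I : Isom ρ τ A) (inj : Function.Injective ρ) (hN : ∀ c : F, c ≠ 0 → τ c * c = 1)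
    (T' : TTC H) (hD : ∀ t, t ∈ T'.D ↔ ∃ a, IsT τ ρ A t a)
    (hex : ∀ a, a ≠ 0 → sf (τ : F →+* F) A a a = 0 → ∃ t, IsT τ ρ A t a) :
    Nonempty (G ⧸ Subgroup.center G ≃* H ⧸ Subgroup.center H) := by
  have hpar : ∀ {t : H} {a b}, IsT τ ρ A t a → Par a b → IsT τ ρ A t b := by
    rintro t a _ ha ⟨c, hc, rfl⟩
    refine ⟨smul_ne_zero hc ha.1, by rw [sf_smul_left, sf_smul_right, ha.2.1]; simp, fun v => ?_⟩
    rw [ha.2.2, sf_smul_right, smul_smul, mul_right_comm]
    erw [hN c hc, one_mul]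
  have huniq : ∀ {s t : H} {a}, IsT τ ρ A s a → IsT τ ρ A t a → s = t := fun hs ht =>
    inj (ext_mulVec fun v => by rw [hs.2.2, ht.2.2])
  choose t ht using fun p => hex (ψ p) (E.ne p) ((E.cm_iff p p).1 (cm_refl p))
  let β : T.Pt → T'.Pt := fun p => ⟨t p, (hD _).2 ⟨_, ht p⟩⟩
  have hβ : Function.Bijective β := by
    constructor
    · intro p q e
      have e' : t p = t q := congrArg Pt.val e
      by_contra hne
      obtain ⟨w, h1, h2⟩ := h.exists_cm_ncm hne
      have h3 := (ht p).2.2 (ψ w)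
      rw [e', (ht q).2.2, (E.cm_iff _ _).1 h1.symm, zero_smul, add_right_inj, eq_comm,
        smul_eq_zero] at h3
      exact h3.elim (fun h4 => h2 ((E.cm_iff _ _).2 h4).symm) (E.ne p)
    · rintro ⟨s, hs⟩
      obtain ⟨a, ha⟩ := (hD s).1 hs
      obtain ⟨p, hp⟩ := E.surj a ha.1 ha.2.1
      exact ⟨p, Pt.ext (huniq (hpar (ht p) hp) ha)⟩
  refine TTC.quot_equiv (Equiv.ofBijective β hβ) fun a b => Pt.ext ?_
  change t (a ◃ b) = t a * t b * (t a)⁻¹
  refine huniq (ht _) (hpar (a := ρ (t a) *ᵥ ψ b) ⟨rho_mulVec_ne_zero _ (E.ne b),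
    by rw [I.isom, (ht b).2.1], fun v => ?_⟩ (by rw [(ht a).2.2]; exact E.rf a b))
  rw [map_mul, map_mul, ← mulVec_mulVec, ← mulVec_mulVec, (ht b).2.2, mulVec_add,
    mulVec_inv_mulVec, mulVec_smul, ← I.isom (t a), mulVec_inv_mulVec]

theorem equiv_of_center_eq_bot {H : Type*} [Group H] (h : Subgroup.center H = ⊥) :
    Nonempty (H ⧸ Subgroup.center H ≃* H) :=
  ⟨(QuotientGroup.quotientMulEquivOfEq h).trans QuotientGroup.quotientBot⟩

theorem UEmb.equiv_sp [Finite G] {n : ℕ} {ψ : T.Pt → Fin n ⊕ Fin n → ZMod 2}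
    (E : T.UEmb (RingEquiv.refl _) (J (Fin n) (ZMod 2)) ψ) (h : T.Std)
    (hZ : Subgroup.center G = ⊥) : Nonempty (G ≃* symplecticGroup (Fin n) (ZMod 2)) := by
  have U := spLike (F := ZMod 2) (m := n)
  have h01 : ∀ x : ZMod 2, x ≠ 0 → x = 1 := by decide
  obtain ⟨a0, -, -⟩ := h.ex_ncm
  have hn : 1 ≤ n := by
    by_contra hn
    obtain rfl : n = 0 := by omega
    exact E.ne a0 (Subsingleton.elim _ _)
  have hρ : ∀ t : symplecticGroup (Fin n) (ZMod 2), t.1 = jRho (spJ (ZMod 2) n) t :=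
    fun _ => rfl
  obtain ⟨e⟩ := E.quot_equiv h U.toIsom U.inj (fun c hc => by rw [h01 c hc]; simp)
    (TTC.ofClass (S0440.result n hn)) (fun t => ⟨fun ht => by
      obtain ⟨a, f, ha, hf, e⟩ := H3.exists_tv_of_rank ht
      have hd : f ⬝ᵥ a = 0 := by
        have h1 : (tv a f).det ≠ 0 := by
          rw [← e]; exact (SymplecticGroup.symplectic_det t.2).ne_zero
        rw [H3.det_tv'] at h1
        simpa using h01 _ h1
      obtain ⟨c, hc, e'⟩ := U.toIsom.par_pf (t := t) ⟨ha, hf, hd, e⟩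
      rw [h01 c hc, one_smul] at e'
      refine ⟨a, ha, U.alt a, fun v => ?_⟩
      rw [← hρ, e, tv_mulVec, ← e', pf_dot], fun ⟨a, ha⟩ => ha.rank U.det⟩)
    (fun a ha ha' => by
      obtain ⟨t, ht⟩ := U.exists_tv' a
      exact ⟨t, ha, ha', ht⟩)
  obtain ⟨e1⟩ := equiv_of_center_eq_bot hZ
  obtain ⟨e2⟩ := equiv_of_center_eq_bot (H := symplecticGroup (Fin n) (ZMod 2))
    (eq_bot_iff.2 fun z hz => U.center_eq_one hz)
  exact ⟨e1.symm.trans (e.trans e2)⟩

theorem UEmb.equiv_psu [Finite G] {F : Type} [Field F] [Fintype F] (hF : Fintype.card F = 4)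
    {τ : F ≃+* F} (hσ : orderOf τ = 2) (hτ : ∀ x, τ x = x ^ 2) {n : ℕ} (hn : 4 ≤ n)
    {ψ : T.Pt → Fin n → F} (E : T.UEmb τ 1 ψ) (h : T.Std)
    (hZ : Subgroup.center G = ⊥) : Nonempty (G ≃* PSU n F 2) := by
  classical
  have U := suLike (n := n) hσ hτ
  have h3 : ∀ x : F, x ≠ 0 → x * τ x = 1 := fun x hx => by
    have := FiniteField.pow_card_sub_one_eq_one x hx
    rw [hF] at this
    rw [hτ, ← this]; ring
  have h2 : (2 : F) = 0 := by
    have := FiniteField.cast_card_eq_zero F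
    rw [hF] at this
    have h : (2 : F) ^ 2 = 0 := by rw [← this]; norm_num
    exact pow_eq_zero_iff two_ne_zero |>.1 h
  have hρ : ∀ t : SU n F 2, t.1.1 = jRho (suJ F n 2) t := fun _ => rfl
  obtain ⟨e⟩ := E.quot_equiv h U.toIsom U.inj (fun c hc => by rw [mul_comm, h3 c hc])
    (TTC.ofClass (S1631.result F hF n hn)) (fun t => ⟨fun ht => by
      obtain ⟨a, f, ha, hf0, e⟩ := H3.exists_tv_of_rank ht
      have hd : f ⬝ᵥ a = 0 := by
        have h1 : (tv a f).det = 1 := by rw [← e]; exact t.1.2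
        rw [H3.det_tv'] at h1
        simpa using h1
      obtain ⟨c, hc, e'⟩ := (U.toIsom.par_pf (t := t) ⟨ha, hf0, hd, e⟩).symm
      have e1 : ∀ v, jRho (suJ F n 2) t *ᵥ v = v + (c * hf τ v a) • a := fun v => by
        rw [← hρ, e, tv_mulVec, e', smul_dotProduct, pf_dot_hf, smul_eq_mul]
      have haa : hf τ a a = 0 := by
        rw [e', smul_dotProduct, pf_dot_hf, smul_eq_mul] at hd
        exact (mul_eq_zero.1 hd).resolve_left hc
      obtain ⟨v, hv⟩ := exists_hf_one (τ := τ) ha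
      have hv' : hf τ a v = 1 := by rw [← hf_conj hσ, hv, map_one]
      have h1 := U.isom t v v
      simp only [e1, hf_add_left, hf_add_right, hf_smul_left, hf_smul_right, hv, hv', haa, mul_one,
        hτ] at h1
      have hc1 : c = 1 := by
        apply mul_left_cancel₀ hc
        linear_combination h1 - c * h2
      exact ⟨a, ha, haa, fun v => by rw [e1, hc1, one_mul, hf_def]⟩,
      fun ⟨a, ha⟩ => ha.rank U.toIsom.det⟩)
    (fun a ha ha' => by
      obtain ⟨t, ht⟩ := U.exists_tv (a := a) ha' (k := 1) (by rw [map_one]; linear_combination h2)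
      exact ⟨t, ha, ha', fun v => by rw [ht, tv_mulVec, one_smul, pf_dot]⟩)
  obtain ⟨e1⟩ := equiv_of_center_eq_bot hZ
  exact ⟨e1.symm.trans e⟩

open Classical in
/-- the symplectic form of a class -/
noncomputable def sform (p q : T.Pt) : ZMod 2 := if cm p q then 0 else 1

theorem sform_eq_zero {p q : T.Pt} : sform p q = 0 ↔ cm p q := by
  unfold sform; split_ifs with h <;> simp [h]

theorem sform_of_cm {p q : T.Pt} (h : cm p q) : sform p q = 0 := sform_eq_zero.2 h

theorem sform_of_ncm {p q : T.Pt} (h : ¬ cm p q) : sform p q = 1 := if_neg h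

theorem sform_comm (p q : T.Pt) : sform p q = sform q p := by
  by_cases h : cm p q
  · rw [sform_of_cm h, sform_of_cm h.symm]
  · rw [sform_of_ncm h, sform_of_ncm (ncm_symm h)]

/-- classes of symplectic type -/
def Cotri (T : TTC G) : Prop := ∀ a b p : T.Pt, ¬ cm a b → cm p a ∨ cm p b ∨ cm p (a ◃ b)

theorem Cotri.sform_rf (hC : T.Cotri) (p d b : T.Pt) :
    sform p (d ◃ b) = sform p b + sform b d * sform p d := by
  by_cases h : cm d b
  · rw [h.rf_eq, sform_of_cm h.symm]; simp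
  rw [sform_of_ncm (ncm_symm h), one_mul]
  by_cases h1 : cm p d <;> by_cases h2 : cm p b
  · rw [sform_of_cm h1, sform_of_cm h2, sform_of_cm (h1.rf_right h2)]; rfl
  · rw [sform_of_cm h1, sform_of_ncm h2, sform_of_ncm (ncm_rf_of_cm h1 h2)]; rfl
  · rw [sform_of_ncm h1, sform_of_cm h2, sform_of_ncm (ncm_rf_of_cm' h1 h2 h)]; rfl
  · rw [sform_of_ncm h1, sform_of_ncm h2,
      sform_of_cm (((hC d b p h).resolve_left h1).resolve_left h2)]; rfl

theorem Cotri.exists_emb [Finite G] (hC : T.Cotri) (hne : ∃ a b : T.Pt, ¬ cm a b) :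
    ∃ (n : ℕ) (ψ : T.Pt → Fin n ⊕ Fin n → ZMod 2), (∀ p, ψ p ≠ 0) ∧
      (∀ p q, bf (J (Fin n) (ZMod 2)) (ψ p) (ψ q) = sform p q) ∧
      (∀ d p, ψ (d ◃ p) = ψ p + sform p d • ψ d) ∧ Submodule.span (ZMod 2) (Set.range ψ) = ⊤ := by
  classical
  haveI := Fintype.ofFinite T.Pt
  obtain ⟨n, P, hP, e⟩ := exists_gram_symp (A := Matrix.of fun p q : T.Pt => sform p q)
    (isAlt_iff.2 ⟨by ext p q; simp [sform_comm p q], fun p => sform_of_cm (cm_refl p)⟩)
  have e1 : ∀ p q, bf (J (Fin n) (ZMod 2)) (P (Pi.single p 1)) (P (Pi.single q 1)) = sform p q :=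
    fun p q => by rw [e, sf_single]; rfl
  have hspan := span_single_eq_top hP
  refine ⟨n, fun p => P (Pi.single p 1), fun p h0 => ?_, e1, fun d p => ?_, hspan⟩
  · obtain ⟨a, b, hab⟩ := hne
    obtain ⟨g, rfl⟩ := exists_smul_eq a p
    have := e1 (g • a) (g • b)
    rw [show P (Pi.single (g • a) 1) = 0 from h0, sf_zero_left, eq_comm, sform_eq_zero,
      cm_smul] at this
    exact hab this
  · refine eq_of_span_right (σ := RingHom.id _) det_J_ne_zero hspan fun q => ?_
    rw [sf_add_right, bf_smul_right, e1, e1, e1, hC.sform_rf]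

namespace Std

variable [Finite G]

theorem exists_eq_three (h : T.Std) (h3 : ∀ L : Set T.Pt, IsLn L → L.ncard = 3) {a b : T.Pt}
    (hab : a ≠ b) (hc : cm a b) : ∃ c, c ≠ a ∧ c ≠ b ∧ Ln a b = {a, b, c} := by
  have hL := isLn_Ln hab hc
  obtain ⟨c, h1, h2, h4⟩ : ∃ c ∈ Ln a b, c ≠ a ∧ c ≠ b := by
    by_contra hn
    push Not at hn
    have : Ln a b ⊆ {a, b} := fun c hc => by
      by_cases e : c = a
      · exact Or.inl e
      · exact Or.inr (hn c hc e)
    have h1 := (Set.ncard_le_ncard this).trans (Set.ncard_insert_le a {b})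
    rw [Set.ncard_singleton, h3 _ hL] at h1
    omega
  refine ⟨c, h2, h4, (Set.eq_of_subset_of_ncard_le ?_ ?_).symm⟩
  · rintro p (rfl | rfl | rfl)
    exacts [left_mem_Ln _ _, right_mem_Ln _ _, h1]
  · rw [h3 _ hL, Set.ncard_eq_three.2 ⟨a, b, c, hab, h2.symm, h4.symm, rfl⟩]

theorem sform_line (h : T.Std) (hB : T.Big) {a b c : T.Pt} (hab : a ≠ b) (hc : cm a b)
    (hca : c ≠ a) (hcb : c ≠ b) (e : Ln a b = {a, b, c}) (p : T.Pt) :
    sform p c = sform p a + sform p b := by
  have hL := isLn_Ln hab hc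
  have ha := left_mem_Ln a b
  have hb := right_mem_Ln a b
  have hc' : c ∈ Ln a b := by rw [e]; simp
  by_cases h1 : cm p a <;> by_cases h2 : cm p b
  · rw [sform_of_cm h1, sform_of_cm h2, sform_of_cm (h.cm_of_two hL ha hb hab h1 h2 hc')]; rfl
  · rw [sform_of_cm h1, sform_of_ncm h2,
      sform_of_ncm (fun h3 => h2 (h.cm_of_two hL hc' ha hca h3 h1 hb))]; rfl
  · rw [sform_of_ncm h1, sform_of_cm h2,
      sform_of_ncm (fun h3 => h1 (h.cm_of_two hL hc' hb hcb h3 h2 ha))]; rfl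
  · obtain ⟨q, hq, hpq⟩ := h.exists_cm_ln hB hL p
    rw [e] at hq
    rcases hq with rfl | rfl | rfl
    · exact absurd hpq h1
    · exact absurd hpq h2
    · rw [sform_of_ncm h1, sform_of_ncm h2, sform_of_cm hpq]; rfl

theorem cotri_of_three (h : T.Std) (hB : T.Big) (h3 : ∀ L : Set T.Pt, IsLn L → L.ncard = 3) :
    T.Cotri := by
  intro a b p hab
  by_cases hpa : cm p a
  · exact Or.inl hpa
  right
  have := h.ncm_conn hB (v := a) (y := b) (S := {q | sform q b ≠ sform q (a ◃ b)}) hab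
    (by
      change sform b b ≠ _
      rw [sform_of_cm (cm_refl b), sform_of_ncm (cm_rf_self_right hab)]; decide)
    (fun u hu u' h1 h2 huu => by
      by_cases e : u = u'
      · exact e ▸ hu
      obtain ⟨c, hc1, hc2, hc⟩ := h.exists_eq_three h3 e huu
      have k := fun p => h.sform_line hB e huu hc1 hc2 hc p
      have k1 := k a
      rw [sform_of_ncm h1, sform_of_ncm h2] at k1
      have k2 : cm c a := (sform_eq_zero.1 (k1.trans rfl)).symm
      have k3 : sform b c = sform (a ◃ b) c := by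
        by_cases k4 : cm c b
        · rw [sform_of_cm k4.symm, sform_of_cm (k2.rf_right k4).symm]
        · rw [sform_of_ncm (ncm_symm k4), sform_of_ncm (ncm_symm (ncm_rf_of_cm k2 k4))]
      rw [k b, k (a ◃ b)] at k3
      intro k5
      rw [sform_comm b u', k5, sform_comm (a ◃ b) u', add_left_inj, sform_comm b,
        sform_comm (a ◃ b)] at k3
      exact hu k3) (ncm_symm hpa)
  by_contra hn
  rw [not_or] at hn
  exact this (by rw [sform_of_ncm hn.1, sform_of_ncm hn.2])

theorem exists_uemb_sp (h : T.Std) (hB : T.Big) (h3 : ∀ L : Set T.Pt, IsLn L → L.ncard = 3) :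
    ∃ (n : ℕ) (ψ : T.Pt → Fin n ⊕ Fin n → ZMod 2),
      T.UEmb (RingEquiv.refl _) (J (Fin n) (ZMod 2)) ψ := by
  have hC := h.cotri_of_three hB h3
  obtain ⟨n, ψ, h0, e, hrf, hspan⟩ := hC.exists_emb h.ex_ncm
  refine ⟨n, ψ, h0, fun p q => by erw [e, sform_eq_zero], fun d p => by
    erw [e, hrf]; exact Par.refl _, fun v hv _ => ?_⟩
  have key : ∀ v ∈ Submodule.span (ZMod 2) (Set.range ψ), v = 0 ∨ ∃ p, ψ p = v := by
    intro v hv
    induction hv using Submodule.span_induction with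
    | mem x hx => exact Or.inr hx
    | zero => exact Or.inl rfl
    | add x y _ _ h1 h2 =>
      rcases h1 with rfl | ⟨p, rfl⟩
      · simpa using h2
      rcases h2 with rfl | ⟨q, rfl⟩
      · simp
      by_cases hpq : p = q
      · left; rw [hpq]; funext i; exact CharTwo.add_self_eq_zero _
      right
      by_cases hc : cm p q
      · obtain ⟨c, hc1, hc2, hc3⟩ := h.exists_eq_three h3 hpq hc
        exact ⟨c, eq_of_span_right (σ := RingHom.id _) det_J_ne_zero hspan fun r => by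
          rw [sf_add_right, e, e, e, h.sform_line hB hpq hc hc1 hc2 hc3]⟩
      · exact ⟨q ◃ p, by rw [hrf, sform_of_ncm hc, one_smul]⟩
    | smul c x _ h1 =>
      have : c = 0 ∨ c = 1 := by revert c; decide
      rcases this with rfl | rfl
      · simp
      · simpa using h1
  obtain ⟨p, rfl⟩ := (key v (hspan ▸ Submodule.mem_top)).resolve_left hv
  exact ⟨p, Par.refl _⟩

end Std

end TTC

end Cfsg.Agent.H3
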