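import Cfsg.Agent.H3.FischerS5

/-! Lines in the commuting graph of a 3-transposition class. -/

set_option autoImplicit false

namespace Cfsg.Agent.H3

theorem ncard_modEq_two {α : Type*} [Finite α] {S : Set α} (f : α → α) (hf : ∀ x ∈ S, f x ∈ S)
    (hff : ∀ x ∈ S, f (f x) = x) : S.ncard ≡ {x | x ∈ S ∧ f x = x}.ncard [MOD 2] := by
  classical
  haveI : Fact (Nat.Prime 2) := ⟨Nat.prime_two⟩
  haveI := Fintype.ofFinite S
  let F : Function.End S := fun x => ⟨f x, hf x x.2⟩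
  have hF : F ^ 2 ^ 1 = 1 := by
    funext x
    exact Subtype.ext (hff x x.2)
  have h1 := Equiv.Perm.card_fixedPoints_modEq hF
  rw [← Nat.card_eq_fintype_card, ← Nat.card_eq_fintype_card, Nat.card_coe_set_eq,
    Nat.card_coe_set_eq, ← Set.ncard_image_of_injective _ Subtype.val_injective] at h1
  convert h1 using 2
  ext y
  exact ⟨fun hy => ⟨⟨y, hy.1⟩, Subtype.ext hy.2, rfl⟩,
    fun ⟨b, hb, hby⟩ => hby ▸ ⟨b.2, congrArg Subtype.val hb⟩⟩

variable {G : Type*} [Group G]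

namespace TTC

variable {T : TTC G}

theorem cm_rf_rf {a b p : T.Pt} (hab : cm a b) (ha : ¬ cm p a) (hb : ¬ cm p b) :
    cm p (a ◃ b ◃ p) := by
  rw [cm_rf_right, rf_comm (ncm_symm ha), rf_comm (ncm_symm hb), cm_rf]; exact hab

theorem rf_rf_ne {a b p : T.Pt} (hab : a ≠ b) (ha : ¬ cm p a) (hb : ¬ cm p b) :
    a ◃ b ◃ p ≠ p := fun e => by
  have : b ◃ p = a ◃ p := by rw [← rf_rf a (b ◃ p), e]
  exact hab (rf_inj_left (ncm_symm hb) (ncm_symm ha) this).symm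

theorem ncm_rf_of_cm {d a b : T.Pt} (ha : cm d a) (hb : ¬ cm d b) : ¬ cm d (a ◃ b) := by
  rwa [cm_rf_of_cm ha]

theorem ncm_rf_of_cm' {d a b : T.Pt} (ha : ¬ cm d a) (hb : cm d b) (hab : ¬ cm a b) :
    ¬ cm d (a ◃ b) := by
  rw [rf_comm hab]; exact ncm_rf_of_cm hb ha

/-- the line through two points -/
def Ln (a b : T.Pt) : Set T.Pt := {p | ∀ w, cm a w → cm b w → cm p w}

theorem left_mem_Ln (a b : T.Pt) : a ∈ Ln a b := fun _ h _ => h

theorem right_mem_Ln (a b : T.Pt) : b ∈ Ln a b := fun _ _ h => h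

theorem Ln_comm (a b : T.Pt) : Ln a b = Ln b a :=
  Set.ext fun _ => ⟨fun h w h1 h2 => h w h2 h1, fun h w h1 h2 => h w h2 h1⟩

theorem Ln_subset {a b c d : T.Pt} (hc : c ∈ Ln a b) (hd : d ∈ Ln a b) : Ln c d ⊆ Ln a b :=
  fun _ hp w h1 h2 => hp w (hc w h1 h2) (hd w h1 h2)

theorem smul_mem_Ln (g : G) {a b p : T.Pt} : g • p ∈ Ln (g • a) (g • b) ↔ p ∈ Ln a b := by
  refine ⟨fun h w h1 h2 => (cm_smul g _ _).1 (h _ ((cm_smul g _ _).2 h1) ((cm_smul g _ _).2 h2)),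
    fun h w h1 h2 => ?_⟩
  rw [cm_smul_left] at h1 h2 ⊢
  exact h _ h1 h2

/-- lines -/
def IsLn (L : Set T.Pt) : Prop := ∃ a b, a ≠ b ∧ cm a b ∧ L = Ln a b

theorem isLn_Ln {a b : T.Pt} (h1 : a ≠ b) (h2 : cm a b) : IsLn (Ln a b) := ⟨a, b, h1, h2, rfl⟩

theorem IsLn.cm {L : Set T.Pt} (hL : IsLn L) {p q : T.Pt} (hp : p ∈ L) (hq : q ∈ L) : cm p q := by
  obtain ⟨a, b, -, hab, rfl⟩ := hL
  exact hp q (hq a (cm_refl a) hab.symm).symm (hq b hab (cm_refl b)).symm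

/-- some line has a third point -/
def Big (T : TTC G) : Prop := ∃ a b c : T.Pt, a ≠ b ∧ cm a b ∧ c ∈ Ln a b ∧ c ≠ a ∧ c ≠ b

namespace Std

variable [Finite G]

theorem ncard_ln (h : T.Std) {L M : Set T.Pt} (hL : IsLn L) (hM : IsLn M) : L.ncard = M.ncard := by
  obtain ⟨a, b, h1, h2, rfl⟩ := hL
  obtain ⟨c, d, h3, h4, rfl⟩ := hM
  obtain ⟨g, rfl, rfl⟩ := h.exists_smul_pair_cm ⟨h1.symm, h2⟩ ⟨h3.symm, h4⟩
  have := ncard_smul_set g (fun x => x ∈ Ln (g • a) (g • b))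
  simp only [smul_mem_Ln, Set.ofPred_mem_eq] at this
  exact this

theorem ln_eq (h : T.Std) {L : Set T.Pt} (hL : IsLn L) {c d : T.Pt} (hc : c ∈ L) (hd : d ∈ L)
    (hcd : c ≠ d) : Ln c d = L := by
  have h1 := h.ncard_ln hL (isLn_Ln hcd (hL.cm hc hd))
  obtain ⟨a, b, -, -, rfl⟩ := hL
  exact Set.eq_of_subset_of_ncard_le (Ln_subset hc hd) h1.le

theorem cm_of_two (h : T.Std) {L : Set T.Pt} (hL : IsLn L) {c d p q : T.Pt} (hc : c ∈ L)
    (hd : d ∈ L) (hcd : c ≠ d) (h1 : cm p c) (h2 : cm p d) (hq : q ∈ L) : cm p q := by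
  rw [← h.ln_eq hL hc hd hcd] at hq
  exact (hq p h1.symm h2.symm).symm

theorem eq_of_cm (h : T.Std) {L : Set T.Pt} (hL : IsLn L) {c d p q : T.Pt} (hc : c ∈ L)
    (hd : d ∈ L) (h1 : cm p c) (h2 : cm p d) (hq : q ∈ L) (h3 : ¬ cm p q) : c = d := by
  by_contra hcd
  exact h3 (h.cm_of_two hL hc hd hcd h1 h2 hq)

theorem smul_mem_ln (h : T.Std) {L : Set T.Pt} (hL : IsLn L) {g : G} {c d : T.Pt} (hc : c ∈ L)
    (hd : d ∈ L) (hcd : c ≠ d) (h1 : g • c ∈ L) (h2 : g • d ∈ L) {q : T.Pt} (hq : q ∈ L) :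
    g • q ∈ L := by
  rw [← h.ln_eq hL h1 h2 (fun e => hcd (MulAction.injective g e)), smul_mem_Ln,
    h.ln_eq hL hc hd hcd]
  exact hq

theorem three_le (h : T.Std) (hB : T.Big) {L : Set T.Pt} (hL : IsLn L) : 3 ≤ L.ncard := by
  obtain ⟨a, b, c, h1, h2, h3, h4, h5⟩ := hB
  rw [h.ncard_ln hL (isLn_Ln h1 h2)]
  exact (Set.two_lt_ncard (Set.toFinite _)).2
    ⟨a, left_mem_Ln a b, b, right_mem_Ln a b, c, h3, h1, h4.symm, h5.symm⟩

theorem ncard_ln_modEq (h : T.Std) {L : Set T.Pt} (hL : IsLn L) {a b p : T.Pt} (ha : a ∈ L)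
    (hb : b ∈ L) (hab : a ≠ b) (h1 : ¬ cm p a) (h2 : ¬ cm p b) :
    L.ncard ≡ {q | q ∈ L ∧ cm p q}.ncard [MOD 2] := by
  have hc := hL.cm ha hb
  have hpp := cm_rf_rf hc h1 h2
  have e1 : p ◃ (a ◃ b ◃ p) ◃ a = b := by
    rw [rf_rf_left, rf_self, rf_rf_left, hc.rf_eq', rf_comm h1, hc.symm.rf_rf_comm, rf_rf,
      rf_rf_swap (ncm_symm h2)]
  have hff : ∀ q, p ◃ (a ◃ b ◃ p) ◃ p ◃ (a ◃ b ◃ p) ◃ q = q := fun q => by
    rw [hpp.rf_rf_comm, rf_rf, rf_rf]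
  have e2 : p ◃ (a ◃ b ◃ p) ◃ b = a := by
    have := hff a
    rwa [e1] at this
  have := ncard_modEq_two (S := L) (fun q => p ◃ (a ◃ b ◃ p) ◃ q) (fun q hq => by
    have := h.smul_mem_ln hL (g := p.val * (a ◃ b ◃ p).val) ha hb hab
      (by rw [mul_smul, ← rf_def, ← rf_def, e1]; exact hb)
      (by rw [mul_smul, ← rf_def, ← rf_def, e2]; exact ha) hq
    rwa [mul_smul] at this) (fun q _ => hff q)
  convert this using 2
  ext q
  simp only [Set.mem_ofPred_eq]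
  refine and_congr_right fun hq => ⟨fun hpq => ?_, fun e => ?_⟩
  · have : cm q (a ◃ b ◃ p) := (hL.cm hq ha).rf_right ((hL.cm hq hb).rf_right hpq.symm)
    rw [this.rf_eq', hpq.rf_eq]
  · have h3 : Commute (p.val * (a ◃ b ◃ p).val) q.val := by
      rw [commute_iff_smul_eq, mul_smul]; exact e
    exact cm.symm ((tt_commute_mul_iff T.tt p.mem (a ◃ b ◃ p).mem q.mem
      (fun e => rf_rf_ne hab h1 h2 (Pt.ext e).symm) hpp).1 h3.symm).1

theorem odd_ncard (h : T.Std) (hB : T.Big) {L : Set T.Pt} (hL : IsLn L) : Odd L.ncard := by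
  obtain ⟨a, b, c, h1, h2, h3, h4, h5⟩ := hB
  have hM := isLn_Ln h1 h2
  rw [h.ncard_ln hL hM]
  obtain ⟨p, hp1, hp2⟩ := h.exists_cm_ncm h1.symm
  have huniq : ∀ q ∈ Ln a b, cm p q → q = a := fun q hq hpq =>
    h.eq_of_cm hM hq (left_mem_Ln a b) hpq hp1.symm (right_mem_Ln a b) (ncm_symm hp2)
  have := h.ncard_ln_modEq hM (right_mem_Ln a b) h3 h5.symm (ncm_symm hp2)
    (fun e => h4 (huniq c h3 e))
  have e : {q | q ∈ Ln a b ∧ cm p q} = {a} := by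
    ext q
    exact ⟨fun hq => huniq q hq.1 hq.2, fun hq => by
      rw [Set.mem_singleton_iff.1 hq]; exact ⟨left_mem_Ln a b, hp1.symm⟩⟩
  rw [e, Set.ncard_singleton] at this
  exact Nat.odd_iff.2 this

/-- The one-or-all axiom. -/
theorem exists_cm_ln (h : T.Std) (hB : T.Big) {L : Set T.Pt} (hL : IsLn L) (p : T.Pt) :
    ∃ q ∈ L, cm p q := by
  by_contra hn
  push Not at hn
  obtain ⟨a, b, h1, h2, rfl⟩ := id hL
  have := h.ncard_ln_modEq hL (left_mem_Ln a b) (right_mem_Ln a b) h1 (hn _ (left_mem_Ln a b))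
    (hn _ (right_mem_Ln a b))
  have e : {q | q ∈ Ln a b ∧ cm p q} = ∅ := by
    ext q
    exact ⟨fun hq => hn q hq.1 hq.2, fun hq => hq.elim⟩
  rw [e, Set.ncard_empty] at this
  have h3 := Nat.odd_iff.1 (h.odd_ncard hB hL)
  unfold Nat.ModEq at this
  omega

theorem rf_rf_mem (h : T.Std) (hB : T.Big) {L : Set T.Pt} (hL : IsLn L) {a b b' p : T.Pt}
    (ha : a ∈ L) (hb : b ∈ L) (hb' : b' ∈ L) (hbb : b ≠ b') (hpa : cm p a) (h1 : ¬ cm p b)
    (h2 : ¬ cm p b') : b ◃ b' ◃ p ∈ Ln p a := by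
  have hc := hL.cm hb hb'
  have hM := isLn_Ln (rf_rf_ne hbb h1 h2).symm (cm_rf_rf hc h1 h2)
  have hpM := left_mem_Ln p (b ◃ b' ◃ p)
  have hwM := right_mem_Ln p (b ◃ b' ◃ p)
  obtain ⟨r, hr, hbr⟩ := h.exists_cm_ln hB hM b
  have hr' : b ◃ b' ◃ r ∈ Ln p (b ◃ b' ◃ p) := by
    have := h.smul_mem_ln hM (g := b.val * b'.val) hpM hwM (rf_rf_ne hbb h1 h2).symm
      (by rw [mul_smul]; exact hwM) (by
        rw [mul_smul, ← rf_def, ← rf_def, hc.symm.rf_rf_comm, rf_rf, rf_rf]; exact hpM) hr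
    rwa [mul_smul] at this
  have e1 : b ◃ b' ◃ r = r := h.eq_of_cm hM hr' hr ((cm_refl b).rf_right (hc.rf_right hbr)) hbr
    hpM (ncm_symm h1)
  have hb'r : cm b' r := by
    rw [cm_iff_rf_eq, ← rf_rf b (b' ◃ r), e1, hbr.rf_eq]
  have hrL : r ∈ L := by
    rw [← h.ln_eq hL hb hb' hbb]
    intro t ht ht'
    by_cases htb : t = b
    · rw [htb]; exact hbr.symm
    have hN := isLn_Ln htb ht.symm
    obtain ⟨t', ht1, ht2⟩ := h.exists_cm_ln hB hN p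
    have h3 : cm t' b := hN.cm ht1 (right_mem_Ln _ _)
    have h4 : cm t' b' := ht1 b' ht'.symm hc
    have h5 : cm r t' := hr t' ht2 (h3.rf_right (h4.rf_right ht2.symm)).symm
    exact h.cm_of_two hN ht1 (right_mem_Ln _ _) (fun e => h1 (e ▸ ht2)) h5 hbr.symm
      (left_mem_Ln _ _)
  have hra : r = a := h.eq_of_cm hL hrL ha (hM.cm hpM hr) hpa hb h1
  rw [h.ln_eq hM hpM (hra ▸ hr) (fun e => h1 (e ▸ hL.cm ha hb))]
  exact hwM

theorem exists_ncm_perp (h : T.Std) (hB : T.Big) {x y c : T.Pt} (hxy : ¬ cm x y) (hx : cm x c)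
    (hy : cm y c) : ∃ c', cm x c' ∧ cm y c' ∧ ¬ cm c c' := by
  obtain ⟨t, ht1, ht2⟩ := h.exists_cm_ncm (d := x) (y := c) (fun e => hxy (e ▸ hy.symm))
  have hL := isLn_Ln (a := x) (b := t) (fun e => ht2 (e ▸ hx.symm)) ht1
  obtain ⟨c', h1, h2⟩ := h.exists_cm_ln hB hL y
  exact ⟨c', hL.cm (left_mem_Ln _ _) h1, h2, fun h3 => ht2 (h.cm_of_two hL (left_mem_Ln _ _) h1
    (fun e => hxy (e ▸ h2.symm)) hx.symm h3 (right_mem_Ln _ _))⟩

theorem exists_third (h : T.Std) (hB : T.Big) {L : Set T.Pt} (hL : IsLn L) (a b : T.Pt) :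
    ∃ c ∈ L, c ≠ a ∧ c ≠ b := by
  by_contra hn
  push Not at hn
  have : L ⊆ {a, b} := fun c hc => by
    by_cases e : c = a
    · exact Or.inl e
    · exact Or.inr (hn c hc e)
  have h1 := (Set.ncard_le_ncard this).trans (Set.ncard_insert_le a {b})
  have h2 := h.three_le hB hL
  rw [Set.ncard_singleton] at h1
  omega

theorem ncard_le_five (h : T.Std) (hB : T.Big) {L : Set T.Pt} (hL : IsLn L) : L.ncard ≤ 5 := by
  classical
  by_contra hn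
  have hex : ∀ s : Finset T.Pt, s.card ≤ 5 → ∃ c ∈ L, c ∉ s := fun s hs => by
    by_contra hc
    push Not at hc
    have := Set.ncard_le_ncard (s := L) (t := s) hc
    rw [Set.ncard_coe_finset] at this
    omega
  obtain ⟨e, a, hea, -, hLe⟩ := id hL
  have he : e ∈ L := hLe ▸ left_mem_Ln e a
  have ha : a ∈ L := hLe ▸ right_mem_Ln e a
  obtain ⟨p, hpe, hpa⟩ := h.exists_cm_ncm hea.symm
  have hp : ∀ q ∈ L, q ≠ e → ¬ cm p q := fun q hq hqe hc =>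
    hqe (h.eq_of_cm hL hq he hc hpe.symm ha (ncm_symm hpa))
  have hpe' : p ≠ e := fun e' => hpa (e' ▸ hL.cm ha he)
  obtain ⟨x, hx, hx'⟩ := hex {e, a} (Finset.card_le_two.trans (by norm_num))
  obtain ⟨b, hb, hb'⟩ := hex {e, a, x} (Finset.card_le_three.trans (by norm_num))
  simp only [Finset.mem_insert, Finset.mem_singleton, not_or] at hx' hb'
  have hM := isLn_Ln hpe' hpe.symm
  -- the fourth point
  obtain ⟨d, hd, hde, hda, hdp⟩ : ∃ d ∈ L, d ≠ e ∧ d ≠ a ∧ a ◃ d ◃ p = x ◃ b ◃ p := by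
    have hsurj := Set.surj_on_of_inj_on_of_ncard_le (s := L \ {e}) (t := Ln p e \ {e})
      (fun d _ => a ◃ d ◃ p) (fun d hd => by
        by_cases hda : d = a
        · rw [hda, rf_rf]; exact ⟨left_mem_Ln _ _, hpe'⟩
        · refine ⟨h.rf_rf_mem hB hL he ha hd.1 (Ne.symm hda) hpe.symm (ncm_symm hpa)
            (hp d hd.1 hd.2), fun e' => hpa ?_⟩
          rw [Set.mem_singleton_iff] at e'
          have := hL.cm ha he
          rwa [← e', cm_rf_self_left, cm_rf_of_cm (hL.cm ha hd.1)] at this)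
      (fun d d' hd hd' e' => rf_inj_left (ncm_symm (hp d hd.1 hd.2)) (ncm_symm (hp d' hd'.1 hd'.2))
        (rf_left_cancel e'))
      (by rw [Set.ncard_sdiff_singleton_of_mem he,
        Set.ncard_sdiff_singleton_of_mem (right_mem_Ln _ _), h.ncard_ln hL hM])
    obtain ⟨d, hd, e'⟩ := hsurj (x ◃ b ◃ p) ⟨h.rf_rf_mem hB hL he hx hb (Ne.symm hb'.2.2) hpe.symm
      (hp x hx hx'.1) (hp b hb hb'.1), fun e' => hp x hx hx'.1 (by
        rw [Set.mem_singleton_iff] at e'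
        have := hL.cm hx he
        rw [← e', cm_rf_self_left, cm_rf_of_cm (hL.cm hx hb)] at this
        exact this.symm)⟩
    refine ⟨d, hd.1, hd.2, fun e'' => ?_, e'.symm⟩
    rw [e'', rf_rf] at e'
    exact rf_rf_ne (Ne.symm hb'.2.2) (hp x hx hx'.1) (hp b hb hb'.1) e'
  have hdp' : a ◃ x ◃ b ◃ p = d ◃ p := by rw [← hdp, rf_rf]
  have hdx : d ≠ x := fun e' => by
    rw [e', (hL.cm ha hx).rf_rf_comm] at hdp
    exact hb'.2.1 (rf_inj_left (ncm_symm (hp b hb hb'.1)) hpa (rf_left_cancel hdp).symm)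
  have hdb : d ≠ b := fun e' => by
    rw [e', (hL.cm ha hb).rf_rf_comm, (hL.cm hx hb).rf_rf_comm] at hdp
    exact hx'.2 (rf_inj_left (ncm_symm (hp x hx hx'.1)) hpa (rf_left_cancel hdp).symm)
  obtain ⟨p', h1, h2, h3⟩ := h.exists_ncm_perp hB (hp d hd hde) hpe.symm (hL.cm hd he)
  have hp' : ∀ q ∈ L, q ≠ d → ¬ cm p' q := fun q hq hqe hc =>
    hqe (h.eq_of_cm hL hq hd hc h2.symm he (ncm_symm h3))
  have hpp : p ≠ p' := fun e' => h3 (e' ▸ hpe)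
  have hN := isLn_Ln hpp h1
  -- the product of the five points fixes `p` and `p'`
  have hperm : ∀ q, a ◃ x ◃ b ◃ a ◃ x ◃ b ◃ q = q := fun q => by
    rw [(hL.cm hb ha).rf_rf_comm, (hL.cm hb hx).rf_rf_comm, rf_rf, (hL.cm hx ha).rf_rf_comm,
      rf_rf, rf_rf]
  have w1 : a ◃ x ◃ b ◃ d ◃ e ◃ p = p := by rw [hpe.rf_eq, ← hdp', hperm]
  have w2 : a ◃ x ◃ b ◃ d ◃ e ◃ p' = p' := by
    have hq : cm p (a ◃ x ◃ b ◃ p') := by
      rw [cm_rf_right, cm_rf_right, cm_rf_right, (hL.cm hb hx).rf_rf_comm,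
        (hL.cm hb ha).rf_rf_comm, (hL.cm hx ha).rf_rf_comm, hdp']
      exact (h2.symm.rf_right h1.symm).symm
    -- the point of `L` moving `p'` to `a x b p'`
    have h4 : x ◃ b ◃ p' ∈ Ln p' d := h.rf_rf_mem hB hL hd hx hb (Ne.symm hb'.2.2) h2.symm
      (hp' x hx hdx.symm) (hp' b hb hdb.symm)
    have h5 : a ◃ e ◃ p' ∈ Ln p' d := h.rf_rf_mem hB hL hd ha he hea.symm h2.symm
      (hp' a ha hda.symm) (hp' e he hde.symm)
    have hN' := isLn_Ln (a := p') (b := d) (fun e' => h3 (e' ▸ hL.cm he hd)) h2.symm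
    have h6 : x ◃ b ◃ p' = a ◃ e ◃ p' := by
      refine h.eq_of_cm hN' h4 h5 (p := a ◃ p) (q := d) ?_ ?_ (right_mem_Ln _ _) ?_
      · rwa [cm_rf_left]
      · rw [cm_rf]; exact (hpe.symm).rf_right h1
      · rw [cm_rf_left, (hL.cm ha hd).rf_eq]; exact hp d hd hde
    rw [(hL.cm hd he).rf_rf_comm, h2.rf_eq, (hL.cm hb he).rf_rf_comm, (hL.cm hx he).rf_rf_comm,
      h6, (hL.cm he ha).rf_rf_comm, rf_rf, rf_rf]
  obtain ⟨f, hf, hf'⟩ := hex {e, a, x, b, d} Finset.card_le_five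
  simp only [Finset.mem_insert, Finset.mem_singleton, not_or] at hf'
  obtain ⟨r, hr, hfr⟩ := h.exists_cm_ln hB hN f
  have hr1 : ∀ q ∈ L, q ≠ f → ¬ cm r q := fun q hq hqf hc => by
    have h4 : ∀ q' ∈ L, cm r q' := fun q' hq' => h.cm_of_two hL hq hf hqf hc hfr.symm hq'
    have hrp : r ≠ p := fun e' => hpa (e' ▸ h4 a ha).symm
    exact h3 (h.cm_of_two hN hr (left_mem_Ln _ _) hrp (h4 e he).symm hpe (right_mem_Ln _ _))
  have w3 : a ◃ x ◃ b ◃ d ◃ e ◃ r = r := by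
    have := h.smul_mem_ln hN (g := a.val * x.val * b.val * d.val * e.val) (left_mem_Ln _ _)
      (right_mem_Ln _ _) hpp (by simp only [mul_smul, ← rf_def, w1]; exact left_mem_Ln _ _)
      (by simp only [mul_smul, ← rf_def, w2]; exact right_mem_Ln _ _) hr
    simp only [mul_smul, ← rf_def] at this
    refine h.eq_of_cm hN this hr ?_ hfr (left_mem_Ln _ _) (ncm_symm (hp f hf hf'.1))
    exact (hL.cm hf ha).rf_right ((hL.cm hf hx).rf_right ((hL.cm hf hb).rf_right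
      ((hL.cm hf hd).rf_right ((hL.cm hf he).rf_right hfr))))
  have hr2 : ∀ q ∈ L, q ≠ f → ¬ cm (e ◃ r) q := fun q hq hqf => by
    rw [cm_rf_left, (hL.cm he hq).rf_eq]; exact hr1 q hq hqf
  have hr3 : cm (e ◃ r) f := ((hL.cm hf he).rf_right hfr).symm
  have k1 := h.rf_rf_mem hB hL hf hb hd hdb.symm hr3 (hr2 b hb (Ne.symm hf'.2.2.2.1))
    (hr2 d hd (Ne.symm hf'.2.2.2.2))
  have hN2 := isLn_Ln (a := e ◃ r) (b := f) (fun e' => hr2 e he (Ne.symm hf'.1)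
    (e' ▸ hL.cm hf he)) hr3
  have k2 := h.rf_rf_mem hB hL hf ha hx (Ne.symm hx'.2) hr3 (hr2 a ha (Ne.symm hf'.2.1))
    (hr2 x hx (Ne.symm hf'.2.2.1))
  have k3 := h.smul_mem_ln hN2 (g := a.val * x.val) (left_mem_Ln _ _) (right_mem_Ln _ _)
    (fun e' => hr2 e he (Ne.symm hf'.1) (e' ▸ hL.cm hf he)) (by rw [mul_smul]; exact k2)
    (by rw [mul_smul, ← rf_def, ← rf_def, (hL.cm hx hf).rf_eq, (hL.cm ha hf).rf_eq]
        exact right_mem_Ln _ _) k1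
  rw [mul_smul, ← rf_def, ← rf_def, w3] at k3
  exact cm_rf_self_right (ncm_symm (hr1 e he (Ne.symm hf'.1))) (hN2.cm k3 (left_mem_Ln _ _))

theorem ncard_three_or_five (h : T.Std) (hB : T.Big) :
    (∀ L : Set T.Pt, IsLn L → L.ncard = 3) ∨ ∀ L : Set T.Pt, IsLn L → L.ncard = 5 := by
  obtain ⟨a, b, h1, h2⟩ := h.ex_cm
  have hM := isLn_Ln h1 h2
  have h3 := h.three_le hB hM
  have h4 := h.ncard_le_five hB hM
  have h5 := Nat.odd_iff.1 (h.odd_ncard hB hM)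
  have : (Ln a b).ncard = 3 ∨ (Ln a b).ncard = 5 := by omega
  exact this.imp (fun e L hL => (h.ncard_ln hL hM).trans e) (fun e L hL => (h.ncard_ln hL hM).trans e)

/-- The set `A_v` is connected under collinearity. -/
theorem ncm_conn (h : T.Std) (hB : T.Big) {v y : T.Pt} {S : Set T.Pt} (hy : ¬ cm v y) (hyS : y ∈ S)
    (hS : ∀ u ∈ S, ∀ u', ¬ cm v u → ¬ cm v u' → cm u u' → u' ∈ S) {y' : T.Pt} (hy' : ¬ cm v y') :
    y' ∈ S := by
  by_cases hyy : cm y y'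
  · exact hS y hyS y' hy hy' hyy
  obtain ⟨c, hc1, hc2⟩ := h.exists_cm_cm y y'
  obtain ⟨c', h1, h2, h3⟩ := h.exists_ncm_perp hB hyy hc1 hc2
  by_cases hvc : cm v c
  swap
  · exact hS c (hS y hyS c hy hvc hc1) y' hvc hy' hc2.symm
  by_cases hvc' : cm v c'
  swap
  · exact hS c' (hS y hyS c' hy hvc' h1) y' hvc' hy' h2.symm
  have hL := isLn_Ln (a := y) (b := c) (fun e => hy (e ▸ hvc)) hc1
  have hL' := isLn_Ln (a := y') (b := c') (fun e => hy' (e ▸ hvc')) h2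
  obtain ⟨u, hu, hu1, hu2⟩ := h.exists_third hB hL y c
  have hvu : ¬ cm v u := fun e => hu2 (h.eq_of_cm hL hu (right_mem_Ln _ _) e hvc (left_mem_Ln _ _) hy)
  have hcu : ¬ cm c' u := fun e =>
    hu1 (h.eq_of_cm hL hu (left_mem_Ln _ _) e h1.symm (right_mem_Ln _ _) (ncm_symm h3))
  obtain ⟨u', hu', huu⟩ := h.exists_cm_ln hB hL' u
  have hvu' : ¬ cm v u' := fun e => hcu (by
    rw [← h.eq_of_cm hL' hu' (right_mem_Ln _ _) e hvc' (left_mem_Ln _ _) hy']; exact huu.symm)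
  exact hS u' (hS u (hS y hyS u hy hvu (hL.cm (left_mem_Ln _ _) hu)) u' hvu hvu' huu) y' hvu' hy'
    (hL'.cm hu' (left_mem_Ln _ _))

/-- The set `A_v` is one orbit under the reflections in `v^⊥`. -/
theorem ncm_induction (h : T.Std) (hB : T.Big) {v y : T.Pt} {S : Set T.Pt} (hy : ¬ cm v y)
    (hyS : y ∈ S) (hS : ∀ u ∈ S, ∀ d, ¬ cm v u → cm v d → d ◃ u ∈ S) {y' : T.Pt}
    (hy' : ¬ cm v y') : y' ∈ S := by
  refine h.ncm_conn hB hy hyS (fun a ha b h1 h2 hab => ?_) hy'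
  have h3 : ¬ cm a (v ◃ b) := by
    rw [cm_rf_right, rf_comm h1, cm_rf_left, hab.rf_eq]; exact h2
  have h4 : cm v (a ◃ v ◃ b) := by
    rw [cm_rf_right, ← rf_comm h1, cm_rf]; exact hab
  have h5 : (a ◃ v ◃ b) ◃ a = v ◃ b := by
    rw [rf_rf_left, rf_self, rf_rf_swap (ncm_symm h3)]
  have := hS _ (hS a ha _ h1 h4) v (by rw [h5, cm_rf_self_left]; exact h2) (cm_refl v)
  rwa [h5, rf_rf] at this

theorem ncm_of_mem_hyp (h : T.Std) (hB : T.Big) {x y k : T.Pt} (hxy : ¬ cm x y)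
    (hk : k ∈ Ln x y) (hkx : k ≠ x) : ¬ cm x k := by
  intro hc
  have hL := isLn_Ln hkx.symm hc
  obtain ⟨c, h1, h2⟩ := h.exists_cm_ln hB hL y
  obtain ⟨c', h3, h4, h5⟩ := h.exists_ncm_perp hB hxy (hL.cm (left_mem_Ln _ _) h1) h2
  exact h5 (h1 c' h3 (hk c' h3 h4))

theorem perp_eq_of_mem_hyp (h : T.Std) {x y k k' : T.Pt} (hxy : ¬ cm x y) (hk : k ∈ Ln x y)
    (hk' : k' ∈ Ln x y) (hkk : ¬ cm k k') {p : T.Pt} (h1 : cm k p) (h2 : cm k' p) :
    cm x p ∧ cm y p := by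
  have := Set.eq_of_subset_of_ncard_le (s := {u | cm x u ∧ cm y u}) (t := {u | cm k u ∧ cm k' u})
    (fun u hu => ⟨hk u hu.1 hu.2, hk' u hu.1 hu.2⟩) (h.ncard_mu hkk hxy).le
  exact (this ▸ (⟨h1, h2⟩ : p ∈ {u | cm k u ∧ cm k' u}) : p ∈ {u | cm x u ∧ cm y u})

/-- Hyperbolic lines have three points. -/
theorem mem_hyp (h : T.Std) (hB : T.Big) {x y k : T.Pt} (hxy : ¬ cm x y) (hk : k ∈ Ln x y) :
    k = x ∨ k = y ∨ k = x ◃ y := by
  classical
  by_contra hn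
  simp only [not_or] at hn
  have hx := left_mem_Ln x y
  have hy := right_mem_Ln x y
  have hrf : ∀ a ∈ Ln x y, ∀ b ∈ Ln x y, a ◃ b ∈ Ln x y := fun a ha b hb w h1 h2 =>
    ((ha w h1 h2).symm.rf_right (hb w h1 h2).symm).symm
  have hnc : ∀ a ∈ Ln x y, ∀ b ∈ Ln x y, a ≠ b → ¬ cm a b := fun a ha b hb hab => by
    by_cases hax : a = x
    · rw [hax]; exact h.ncm_of_mem_hyp hB hxy hb (fun e => hab (hax.trans e.symm))
    · have h1 := ncm_symm (h.ncm_of_mem_hyp hB hxy ha hax)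
      refine h.ncm_of_mem_hyp hB h1 (fun w h2 h3 => ?_) hab.symm
      have := h.perp_eq_of_mem_hyp hxy ha hx h1 h2 h3
      exact hb w this.1 this.2
  -- a line missing the common perp
  obtain ⟨c, hc1, hc2⟩ := h.exists_cm_cm x y
  obtain ⟨c', h1, h2, h3⟩ := h.exists_ncm_perp hB hxy hc1 hc2
  have hL1 := isLn_Ln (a := x) (b := c) (fun e => hxy (e ▸ hc2.symm)) hc1
  have hL2 := isLn_Ln (a := y) (b := c') (fun e => hxy (e ▸ h1)) h2
  obtain ⟨a, ha, ha1, ha2⟩ := h.exists_third hB hL1 x c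
  have hya : ¬ cm y a := fun e =>
    ha2 (h.eq_of_cm hL1 ha (right_mem_Ln _ _) e hc2 (left_mem_Ln _ _) (ncm_symm hxy))
  have hca : ¬ cm c' a := fun e =>
    ha1 (h.eq_of_cm hL1 ha (left_mem_Ln _ _) e h1.symm (right_mem_Ln _ _) (ncm_symm h3))
  obtain ⟨b, hb, hab⟩ := h.exists_cm_ln hB hL2 a
  have hxb : ¬ cm x b := fun e => hca (by
    rw [← h.eq_of_cm hL2 hb (right_mem_Ln _ _) e h1 (left_mem_Ln _ _) hxy]; exact hab.symm)
  have hxa : cm x a := hL1.cm (left_mem_Ln _ _) ha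
  have hL := isLn_Ln (a := a) (b := b) (fun e => hxb (e ▸ hxa)) hab
  choose θ hθ1 hθ2 using h.exists_cm_ln hB hL
  have hle := Set.ncard_le_ncard_of_injOn (s := Ln x y) (t := Ln a b) θ (fun k _ => hθ1 k)
    (fun k1 hk1 k2 hk2 e => by
      by_contra hne
      have := h.perp_eq_of_mem_hyp hxy hk1 hk2 (hnc k1 hk1 k2 hk2 hne) (hθ2 k1) (e ▸ hθ2 k2)
      rw [h.eq_of_cm hL (hθ1 k1) (left_mem_Ln _ _) this.1 hxa (right_mem_Ln _ _) hxb] at this
      exact hya this.2) (Set.toFinite _)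
  have hxk := hnc x hx k hk (Ne.symm hn.1)
  have hyk := hnc y hy k hk (Ne.symm hn.2.1)
  have h6 : ({x, y, x ◃ y, k, x ◃ k, y ◃ k} : Finset T.Pt).card = 6 := by
    have e1 : x ≠ y := fun e => hxy (e ▸ cm_refl x)
    have e2 : y ≠ x ◃ k := fun e => hn.2.2 (by rw [e, rf_rf])
    have e3 : x ◃ y ≠ x ◃ k := fun e => hn.2.1 (rf_left_cancel e).symm
    have e4 : x ≠ y ◃ k := fun e => hn.2.2 (by rw [rf_comm hxy, e, rf_rf])
    have e5 : x ◃ y ≠ y ◃ k := fun e => hn.1 (by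
      rw [rf_comm hxy] at e; exact (rf_left_cancel e).symm)
    have e6 : x ◃ k ≠ y ◃ k := fun e => e1 (rf_inj_left hxk hyk e)
    rw [Finset.card_insert_of_notMem, Finset.card_insert_of_notMem, Finset.card_insert_of_notMem,
      Finset.card_insert_of_notMem, Finset.card_pair e6] <;>
    simp only [Finset.mem_insert, Finset.mem_singleton, not_or]
    · exact ⟨(rf_ne_right hxk).symm, (rf_ne_right hyk).symm⟩
    · exact ⟨Ne.symm hn.2.2, e3, e5⟩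
    · exact ⟨(rf_ne_right hxy).symm, Ne.symm hn.2.1, e2, (rf_ne_left hyk).symm⟩
    · exact ⟨e1, (rf_ne_left hxy).symm, Ne.symm hn.1, (rf_ne_left hxk).symm, e4⟩
  have h7 := Set.ncard_le_ncard (s := (({x, y, x ◃ y, k, x ◃ k, y ◃ k} : Finset T.Pt) : Set T.Pt))
    (t := Ln x y) (by
      intro p hp
      simp only [Finset.coe_insert, Finset.coe_singleton, Set.mem_insert_iff,
        Set.mem_singleton_iff] at hp
      rcases hp with rfl | rfl | rfl | rfl | rfl | rfl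
      exacts [hx, hy, hrf _ hx _ hy, hk, hrf _ hx _ hk, hrf _ hy _ hk])
  rw [Set.ncard_coe_finset, h6] at h7
  have := h.ncard_le_five hB hL
  omega

end Std

end TTC

end Cfsg.Agent.H3
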