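import Cfsg.Agent.H3.FischerLn
import Cfsg.Agent.H3.F4

/-! Orientation of the lines with five points through a point. -/

set_option autoImplicit false

namespace Cfsg.Agent.H3

theorem rot_three {α : Type*} {S : Set α} (hS : S.ncard = 3) {r : α → α}
    (hr : ∀ a ∈ S, r a ∈ S ∧ r a ≠ a ∧ r (r a) ≠ a) {a : α} (ha : a ∈ S) :
    (∀ b ∈ S, b = a ∨ b = r a ∨ b = r (r a)) ∧ r (r (r a)) = a := by
  have hfin : S.Finite := Set.finite_of_ncard_ne_zero (by omega)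
  have h1 := hr a ha
  have h2 := hr _ h1.1
  have h3 := hr _ h2.1
  have e : ({a, r a, r (r a)} : Set α) = S := Set.eq_of_subset_of_ncard_le (by
    rintro _ (rfl | rfl | rfl)
    exacts [ha, h1.1, h2.1]) (by
      rw [hS, Set.ncard_eq_three.2 ⟨a, r a, r (r a), h1.2.1.symm, h1.2.2.symm, h2.2.1.symm, rfl⟩])
    hfin
  have key : ∀ b ∈ S, b = a ∨ b = r a ∨ b = r (r a) := fun b hb => by rwa [← e] at hb
  exact ⟨key, ((key _ h3.1).resolve_right fun h => h.elim h2.2.2 h3.2.1)⟩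

theorem rot_comm {α : Type*} {S : Set α} (hS : S.ncard = 3) {r f : α → α}
    (hr : ∀ a ∈ S, r a ∈ S ∧ r a ≠ a ∧ r (r a) ≠ a) (hf : ∀ a ∈ S, f a ∈ S)
    (hf3 : ∀ a ∈ S, f (f (f a)) = a) (hinj : Function.Injective f) {a : α} (ha : a ∈ S) :
    f (r a) = r (f a) := by
  obtain ⟨key, h3⟩ := rot_three hS hr ha
  have h1 := hr a ha
  have h2 := hr _ h1.1
  have e1 := hf3 a ha
  have e2 := hf3 _ h1.1
  rcases key _ (hf a ha) with h | h | h
  · rw [h]
    rcases key _ (hf _ h1.1) with h' | h' | h'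
    · exact absurd (hinj (h'.trans h.symm)) h1.2.1
    · exact h'
    · exfalso
      rcases key _ (hf _ h2.1) with h'' | h'' | h''
      · exact h1.2.2 (hinj (h''.trans h.symm))
      · rw [h', h'', h'] at e2; exact h2.2.1 e2
      · exact h2.2.1 (hinj (h''.trans h'.symm))
  · rw [h]
    rcases key _ (hf _ h1.1) with h' | h' | h'
    · rw [h, h', h] at e1; exact absurd e1 h1.2.1
    · exact absurd (hinj (h'.trans h.symm)) h1.2.1
    · exact h'
  · rw [h, h3]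
    rcases key _ (hf _ h1.1) with h' | h' | h'
    · exact h'
    · exfalso
      rcases key _ (hf _ h2.1) with h'' | h'' | h''
      · rw [h, h'', h] at e1; exact h1.2.2 e1
      · exact h2.2.1 (hinj (h''.trans h'.symm))
      · exact h1.2.2 (hinj (h''.trans h.symm))
    · exact absurd (hinj (h'.trans h.symm)) h1.2.1

variable {G : Type*} [Group G]

theorem cube_commutator_aux {a b : G} (ha : a ^ 3 = 1) (hb : b ^ 3 = 1) (h1 : (a * b) ^ 3 = 1)
    (h2 : (a⁻¹ * b) ^ 3 = 1) : (b⁻¹ * a⁻¹ * b * a) ^ 3 = 1 := by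
  have e1 : a * b * a = b⁻¹ * a⁻¹ * b⁻¹ := by
    calc a * b * a = (a * b) ^ 3 * (b⁻¹ * a⁻¹ * b⁻¹) := by rw [pow_three]; group
      _ = _ := by rw [h1, one_mul]
  have e2 : a * b⁻¹ * a = b * a⁻¹ * b := by
    calc a * b⁻¹ * a = a * b⁻¹ * a * (a⁻¹ * b) ^ 3 * (b⁻¹ * a * b⁻¹ * a * b⁻¹ * a) *
          (a⁻¹ * b * a⁻¹ * b * a⁻¹ * b) := by rw [h2]; group
      _ = a * b⁻¹ * a * (a⁻¹ * b) ^ 3 := by rw [h2]; group
      _ = _ := by rw [pow_three]; group
  have e3 : b * b = b⁻¹ := by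
    rw [eq_inv_iff_mul_eq_one, ← hb, pow_three']
  have hc : Commute (b⁻¹ * a * b) a := by
    calc b⁻¹ * a * b * a = b⁻¹ * (a * b * a) := by group
      _ = (b * b)⁻¹ * a⁻¹ * b⁻¹ := by rw [e1]; group
      _ = b * a⁻¹ * (b * b) := by rw [e3, inv_inv]
      _ = a * b⁻¹ * a * b := by rw [e2]; group
      _ = _ := by group
  have : b⁻¹ * a⁻¹ * b = (b⁻¹ * a * b)⁻¹ := by group
  rw [this, hc.inv_left.mul_pow, ha, mul_one, inv_pow, inv_eq_one,
    show b⁻¹ * a * b = b⁻¹ * a * b⁻¹⁻¹ by group, conj_pow, ha]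
  group

namespace TTC

variable {T : TTC G}

theorem rf_rf_self {c c' : T.Pt} (hc : ¬ cm c c') : (c ◃ c') ◃ c = c' := by
  rw [rf_rf_left, rf_self, rf_rf_swap (ncm_symm hc)]

theorem tri_cube {a b c : T.Pt} (hab : ¬ cm a b) (hbc : ¬ cm b c) (hac : ¬ cm a c) :
    (cm a (b ◃ c) ∧ (a ◃ c).val * ((b ◃ c).val * (a ◃ b).val) = (b ◃ c).val) ∨
    ((a ◃ c).val * ((b ◃ c).val * (a ◃ b).val)) ^ 3 = a.val := by
  have ha := a.mul_self
  have hb := b.mul_self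
  have hc := c.mul_self
  have e0 : (a ◃ c).val * ((b ◃ c).val * (a ◃ b).val) =
      a.val * (c.val * a.val * b.val * c.val * a.val * b.val) := by
    rw [rf_comm hab]
    simp only [rf_val]
    calc _ = a.val * c.val * a.val * b.val * c.val * (b.val * b.val) * a.val * b.val := by group
      _ = _ := by rw [hb]; group
  by_cases h : cm c (a ◃ b)
  · left
    refine ⟨by rwa [cm_rf_right, ← rf_comm hab, cm_comm], ?_⟩
    have h1 : c.val * (a.val * b.val * a.val) = (a.val * b.val * a.val) * c.val := by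
      rw [← rf_val]; exact h
    have h2 := tt_braid T.tt a.mem c.mem hac
    rw [e0, rf_val]
    calc _ = a.val * c.val * a.val * b.val * (a.val * a.val) * c.val * a.val * b.val := by
            rw [ha]; group
      _ = a.val * (c.val * (a.val * b.val * a.val)) * (a.val * c.val * a.val) * b.val := by group
      _ = (a.val * a.val) * b.val * a.val * (c.val * c.val) * a.val * c.val * b.val := by
            rw [h1, h2]; group
      _ = b.val * (a.val * a.val) * c.val * b.val := by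
            rw [hc, mul_one, mul_assoc _ a.val a.val, ha, one_mul]
      _ = _ := by rw [ha]; group
  · right
    have h1 := cube_commutator_aux (tt_cube T.tt a.mem b.mem hab) (tt_cube T.tt a.mem c.mem hac)
      (by
        have := tt_cube T.tt (a ◃ b).mem c.mem (ncm_symm h)
        rw [rf_val] at this
        rw [← this]; group)
      (by
        have := tt_cube T.tt b.mem c.mem hbc
        rw [← this, mul_inv_rev, a.inv_val, b.inv_val]
        congr 1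
        calc _ = b.val * (a.val * a.val) * c.val := by group
          _ = _ := by rw [ha, mul_one])
    have e1 : (a.val * c.val)⁻¹ * (a.val * b.val)⁻¹ * (a.val * c.val) * (a.val * b.val) =
        c.val * a.val * b.val * c.val * a.val * b.val := by
      rw [mul_inv_rev, mul_inv_rev, a.inv_val, b.inv_val, c.inv_val]
      calc _ = c.val * a.val * b.val * (a.val * a.val) * c.val * a.val * b.val := by group
        _ = _ := by rw [ha]; group
    rw [e1] at h1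
    have h2 : Commute ((a ◃ c).val * ((b ◃ c).val * (a ◃ b).val)) a.val := by
      rw [commute_iff_smul_eq, mul_smul, mul_smul, ← rf_def, ← rf_def, ← rf_def,
        rf_rf_self hab, rf_rf_self hbc, rf_comm hac, rf_rf_self (ncm_symm hac)]
    rw [e0] at h2 ⊢
    have h3 : Commute a.val (c.val * a.val * b.val * c.val * a.val * b.val) := by
      have := (Commute.refl a.val).inv_right.mul_right h2.symm
      rwa [inv_mul_cancel_left] at this
    rw [h3.mul_pow, h1, mul_one, pow_three, ha, mul_one]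

/-- the points of the line `x c` other than `x` and `c` -/
def Fib (x c : T.Pt) : Set T.Pt := {a | a ∈ Ln x c ∧ a ≠ x ∧ a ≠ c}

theorem smul_mem_Fib {g : G} {x c a : T.Pt} (hx : g • x = x) (ha : a ∈ Fib x c) :
    g • a ∈ Fib x (g • c) :=
  ⟨by have := (smul_mem_Ln g).2 ha.1; rwa [hx] at this,
    fun e => ha.2.1 (MulAction.injective g (e.trans hx.symm)),
    fun e => ha.2.2 (MulAction.injective g e)⟩

/-- Coordinates on the lines through `x`. -/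
structure Orient (x y : T.Pt) (pt : T.Pt → F4 → T.Pt) : Prop where
  one : ∀ a, a ≠ x → cm x a → ¬ cm y a → pt a 1 = a
  zero : ∀ a, a ≠ x → cm x a → ¬ cm y a → cm y (pt a 0)
  mem : ∀ a, a ≠ x → cm x a → ¬ cm y a → ∀ l, pt a l ∈ Ln x a ∧ pt a l ≠ x
  inj : ∀ a, a ≠ x → cm x a → ¬ cm y a → Function.Injective (pt a)
  surj : ∀ a, a ≠ x → cm x a → ¬ cm y a → ∀ q ∈ Ln x a, q ≠ x → ∃ l, pt a l = q
  mul : ∀ a, a ≠ x → cm x a → ¬ cm y a → ∀ l m, l ≠ 0 → pt (pt a l) m = pt a (l * m)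
  rf : ∀ a, a ≠ x → cm x a → ¬ cm y a → ∀ d, cm x d → cm y d → ∀ l, d ◃ pt a l = pt (d ◃ a) l

namespace Std

variable [Finite G]

theorem big_of_five (h : T.Std) (h5 : ∀ L : Set T.Pt, IsLn L → L.ncard = 5) : T.Big := by
  obtain ⟨a, b, h1, h2⟩ := h.ex_cm
  by_contra hn
  have : Ln a b ⊆ {a, b} := fun c hc => by
    by_contra hc'
    simp only [Set.mem_insert_iff, Set.mem_singleton_iff, not_or] at hc'
    exact hn ⟨a, b, c, h1, h2, hc, hc'.1, hc'.2⟩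
  have h3 := (Set.ncard_le_ncard this).trans (Set.ncard_insert_le a {b})
  rw [Set.ncard_singleton, h5 _ (isLn_Ln h1 h2)] at h3
  omega

theorem exists_notMem_four (h5 : ∀ L : Set T.Pt, IsLn L → L.ncard = 5) {L : Set T.Pt}
    (hL : IsLn L) (a b c d : T.Pt) : ∃ e ∈ L, e ≠ a ∧ e ≠ b ∧ e ≠ c ∧ e ≠ d := by
  classical
  by_contra hc
  have := Set.ncard_le_ncard (s := L) (t := ({a, b, c, d} : Finset T.Pt)) (fun e he => by
    by_contra hn
    simp only [Finset.coe_insert, Finset.coe_singleton, Set.mem_insert_iff, Set.mem_singleton_iff,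
      not_or] at hn
    exact hc ⟨e, he, hn⟩)
  rw [Set.ncard_coe_finset, h5 _ hL] at this
  have := this.trans Finset.card_le_four
  omega

theorem ncard_Fib (h5 : ∀ L : Set T.Pt, IsLn L → L.ncard = 5) {x c : T.Pt} (h1 : x ≠ c)
    (h2 : cm x c) : (Fib x c).ncard = 3 := by
  have : Fib x c = (Ln x c \ {x}) \ {c} := by
    ext a; simp only [Fib, Set.mem_ofPred_eq, Set.mem_sdiff, Set.mem_singleton_iff, and_assoc]
  rw [this, Set.ncard_sdiff_singleton_of_mem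
      (show c ∈ Ln x c \ {x} from ⟨right_mem_Ln _ _, h1.symm⟩),
    Set.ncard_sdiff_singleton_of_mem (left_mem_Ln _ _), h5 _ (isLn_Ln h1 h2)]

theorem exists_ncm_ncm_perp (h : T.Std) (hB : T.Big) {x y c c' : T.Pt} (hxy : ¬ cm x y)
    (h1 : cm x c) (h2 : cm y c) (h3 : cm x c') (h4 : cm y c') :
    ∃ d, cm x d ∧ cm y d ∧ ¬ cm c d ∧ ¬ cm c' d := by
  obtain ⟨d1, a1, a2, a3⟩ := h.exists_ncm_perp hB hxy h1 h2
  obtain ⟨d2, b1, b2, b3⟩ := h.exists_ncm_perp hB hxy h3 h4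
  by_cases k1 : cm c' d1
  swap
  · exact ⟨d1, a1, a2, a3, k1⟩
  by_cases k2 : cm c d2
  swap
  · exact ⟨d2, b1, b2, k2, b3⟩
  by_cases k3 : cm d1 d2
  · have hL := isLn_Ln (a := d1) (b := d2) (fun e => a3 (e ▸ k2)) k3
    obtain ⟨d, hd, hd1, hd2⟩ := h.exists_third hB hL d1 d2
    exact ⟨d, (hd x a1.symm b1.symm).symm, (hd y a2.symm b2.symm).symm,
      fun e => hd2 (h.eq_of_cm hL hd (right_mem_Ln _ _) e k2 (left_mem_Ln _ _) a3),
      fun e => hd1 (h.eq_of_cm hL hd (left_mem_Ln _ _) e k1 (right_mem_Ln _ _) b3)⟩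
  · exact ⟨d1 ◃ d2, a1.rf_right b1, a2.rf_right b2, ncm_rf_of_cm' a3 k2 k3, ncm_rf_of_cm k1 b3⟩

theorem exists_rot (h : T.Std) (h5 : ∀ L : Set T.Pt, IsLn L → L.ncard = 5) {x y : T.Pt}
    (hxy : ¬ cm x y) : ∃ r : T.Pt → T.Pt → T.Pt,
      (∀ c, cm x c → cm y c → ∀ a ∈ Fib x c, r c a ∈ Fib x c ∧ r c a ≠ a ∧ r c (r c a) ≠ a) ∧
      ∀ c, cm x c → cm y c → ∀ d, cm x d → cm y d → ∀ a ∈ Fib x c,
        d ◃ r c a = r (d ◃ c) (d ◃ a) := by
  classical
  have hB := h.big_of_five h5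
  have hne : ∀ {c}, cm y c → x ≠ c := fun hc e => hxy (e ▸ hc.symm)
  obtain ⟨c0, hx0, hy0⟩ := h.exists_cm_cm x y
  have hF0 := ncard_Fib h5 (hne hy0) hx0
  obtain ⟨r0, hr0⟩ : ∃ r0 : T.Pt → T.Pt,
      ∀ a ∈ Fib x c0, r0 a ∈ Fib x c0 ∧ r0 a ≠ a ∧ r0 (r0 a) ≠ a := by
    obtain ⟨a1, a2, a3, h1, h2, h3, e⟩ := Set.ncard_eq_three.1 hF0
    refine ⟨fun a => if a = a1 then a2 else if a = a2 then a3 else a1, ?_⟩
    rw [e]
    rintro _ (rfl | rfl | rfl) <;> simp [h1, h2, h3, h1.symm, h2.symm, h3.symm]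
  let K : Subgroup G :=
    { carrier := {k | k • x = x ∧ k • c0 = c0 ∧ ∀ a ∈ Fib x c0, k • r0 a = r0 (k • a)}
      one_mem' := by simp
      mul_mem' := fun {k k'} hk hk' => ⟨by rw [mul_smul, hk'.1, hk.1],
        by rw [mul_smul, hk'.2.1, hk.2.1], fun a ha => by
          have := smul_mem_Fib hk'.1 ha
          rw [hk'.2.1] at this
          rw [mul_smul, hk'.2.2 a ha, hk.2.2 _ this, mul_smul]⟩
      inv_mem' := fun {k} hk => by
        have e1 : k⁻¹ • x = x := by rw [inv_smul_eq_iff, hk.1]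
        have e2 : k⁻¹ • c0 = c0 := by rw [inv_smul_eq_iff, hk.2.1]
        refine ⟨e1, e2, fun a ha => ?_⟩
        have := smul_mem_Fib e1 ha
        rw [e2] at this
        rw [inv_smul_eq_iff, hk.2.2 _ this, smul_inv_smul] }
  let Eqv : G → G → Prop := fun g g' => g⁻¹ * g' ∈ K
  have Esymm : ∀ {g g'}, Eqv g g' → Eqv g' g := fun {g g'} hg => by
    simpa using K.inv_mem hg
  have Etrans : ∀ {g g' g''}, Eqv g g' → Eqv g' g'' → Eqv g g'' := fun {g g' g''} h1 h2 => by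
    simpa [mul_assoc] using K.mul_mem h1 h2
  have Emul : ∀ (k) {g g'}, Eqv g g' → Eqv (k * g) (k * g') := fun k {g g'} h1 => by
    simpa [Eqv, mul_assoc] using h1
  have Erefl : ∀ g, Eqv g g := fun g => by simp [Eqv]
  have hE : ∀ {c c' : T.Pt}, ¬ cm c c' → (c ◃ c').val • c = c' := rf_rf_self
  have hEx : ∀ {c c' : T.Pt}, cm x c → cm x c' → (c ◃ c').val • x = x := fun h1 h2 =>
    (h1.rf_right h2).rf_eq'
  have Tri : ∀ {c1 c2 c3 : T.Pt} {g : G}, cm x c1 → cm x c2 → cm x c3 → ¬ cm c1 c2 → ¬ cm c2 c3 →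
      ¬ cm c1 c3 → g • x = x → g • c0 = c1 →
      Eqv ((c1 ◃ c3).val * g) ((c2 ◃ c3).val * ((c1 ◃ c2).val * g)) := by
    intro c1 c2 c3 g h1 h2 h3 h12 h23 h13 hgx hg0
    set γ := (c1 ◃ c3).val * ((c2 ◃ c3).val * (c1 ◃ c2).val) with hγ
    have e : ((c1 ◃ c3).val * g)⁻¹ * ((c2 ◃ c3).val * ((c1 ◃ c2).val * g)) = g⁻¹ * γ * g := by
      rw [mul_inv_rev, Pt.inv_val, hγ]; group
    have hγx : γ • x = x := by rw [hγ, mul_smul, mul_smul, hEx h1 h2, hEx h2 h3, hEx h1 h3]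
    have hγ1 : γ • c1 = c1 := by
      rw [hγ, mul_smul, mul_smul, hE h12, hE h23, rf_comm h13, hE (ncm_symm h13)]
    have e1 : (g⁻¹ * γ * g) • x = x := by rw [mul_smul, mul_smul, hgx, hγx, inv_smul_eq_iff, hgx]
    have e2 : (g⁻¹ * γ * g) • c0 = c0 := by rw [mul_smul, mul_smul, hg0, hγ1, inv_smul_eq_iff, hg0]
    change _ ∈ K
    rw [e]
    refine ⟨e1, e2, fun a ha => rot_comm hF0 hr0 (f := fun a => (g⁻¹ * γ * g) • a)
      (fun a ha => by have := smul_mem_Fib e1 ha; rwa [e2] at this) (fun a ha => ?_)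
      (MulAction.injective _) ha⟩
    have hga := smul_mem_Fib hgx ha
    rw [hg0] at hga
    have h4 : (γ ^ 3) • g • a = g • a := by
      rcases tri_cube h12 h23 h13 with ⟨h4, h6⟩ | h4
      · have : γ • g • a = g • a := by
          rw [hγ, h6]; exact (hga.1 _ (h2.rf_right h3) h4).rf_eq'
        rw [pow_three, mul_smul γ, mul_smul γ, this, this, this]
      · rw [hγ, h4]; exact (hga.1 _ h1 (cm_refl _)).rf_eq'
    simp only [smul_smul] at h4 ⊢
    rw [show g⁻¹ * γ * g * (g⁻¹ * γ * g * (g⁻¹ * γ * g)) = g⁻¹ * (γ ^ 3 * g) by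
      rw [pow_three]; group, mul_smul, h4, inv_smul_smul]
  have Tri0 : ∀ {c c' : T.Pt}, cm x c → cm x c' → ¬ cm c0 c → ¬ cm c c' → ¬ cm c0 c' →
      Eqv (c0 ◃ c').val ((c ◃ c').val * (c0 ◃ c).val) := fun h1 h2 h3 h4 h6 => by
    simpa using Tri (g := 1) hx0 h1 h2 h3 h4 h6 (one_smul _ _) (one_smul _ _)
  have Two0 : ∀ {c d d' : T.Pt}, cm x c → cm x d → cm x d' → ¬ cm c0 d → ¬ cm c0 d' → ¬ cm d c →
      ¬ cm d' c → ¬ cm d d' →
      Eqv ((d ◃ c).val * (c0 ◃ d).val) ((d' ◃ c).val * (c0 ◃ d').val) :=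
    fun h1 h2 h3 h4 h6 h7 h8 h9 => Etrans (Tri h2 h3 h1 h9 h8 h7 (hEx hx0 h2) (hE h4))
      (Emul _ (Esymm (Tri0 h2 h3 h4 h9 h6)))
  have Two : ∀ {c d d' : T.Pt}, cm x c → cm y c → cm c0 c → c ≠ c0 → cm x d → cm x d' →
      ¬ cm c0 d → ¬ cm c0 d' → ¬ cm d c → ¬ cm d' c →
      Eqv ((d ◃ c).val * (c0 ◃ d).val) ((d' ◃ c).val * (c0 ◃ d').val) := by
    intro c d d' h1 h1' h2 h3 h4 h6 h7 h8 h9 h10
    by_cases hdd : cm d d'
    swap
    · exact Two0 h1 h4 h6 h7 h8 h9 h10 hdd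
    have hL := isLn_Ln h3.symm h2
    obtain ⟨p, hp, hdp⟩ := h.exists_cm_ln hB hL d
    obtain ⟨p', hp', hdp'⟩ := h.exists_cm_ln hB hL d'
    obtain ⟨q, hq, q1, q2, q3, q4⟩ := exists_notMem_four h5 hL c0 c p p'
    have k1 : ¬ cm d q := fun e => q3 (h.eq_of_cm hL hq hp e hdp (left_mem_Ln _ _) (ncm_symm h7))
    have k2 : ¬ cm d' q := fun e =>
      q4 (h.eq_of_cm hL hq hp' e hdp' (left_mem_Ln _ _) (ncm_symm h8))
    have k3 : cm x (q ◃ d) := (hq x hx0.symm h1.symm).symm.rf_right h4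
    have k4 : ¬ cm c0 (q ◃ d) := ncm_rf_of_cm (hL.cm (left_mem_Ln _ _) hq) h7
    have k5 : ¬ cm (q ◃ d) c := ncm_symm (ncm_rf_of_cm (hL.cm (right_mem_Ln _ _) hq) (ncm_symm h9))
    exact Etrans (Two0 h1 h4 k3 h7 k4 h9 k5 (cm_rf_self_right (ncm_symm k1)))
      (Two0 h1 k3 h6 k4 h8 k5 h10 (ncm_symm (ncm_rf_of_cm' k2 hdd.symm (ncm_symm k1))))
  let Adm : T.Pt → G → Prop := fun c g => (c = c0 ∧ g = 1) ∨ (¬ cm c0 c ∧ g = (c0 ◃ c).val) ∨
    (cm c0 c ∧ c ≠ c0 ∧ ∃ d, cm x d ∧ ¬ cm c0 d ∧ ¬ cm d c ∧ g = (d ◃ c).val * (c0 ◃ d).val)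
  have hex : ∀ c, ∃ g, cm x c → cm y c → Adm c g := fun c => by
    by_cases h1 : cm x c ∧ cm y c
    swap
    · exact ⟨1, fun h2 h3 => absurd ⟨h2, h3⟩ h1⟩
    by_cases e : c = c0
    · exact ⟨1, fun _ _ => Or.inl ⟨e, rfl⟩⟩
    by_cases e' : cm c0 c
    · obtain ⟨d, d1, -, d3, d4⟩ := h.exists_ncm_ncm_perp hB hxy hx0 hy0 h1.1 h1.2
      exact ⟨_, fun _ _ => Or.inr (Or.inr ⟨e', e, d, d1, d3, ncm_symm d4, rfl⟩)⟩
    · exact ⟨_, fun _ _ => Or.inr (Or.inl ⟨e', rfl⟩)⟩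
  choose gc hgc using hex
  have hR : ∀ c, cm x c → cm y c → gc c • x = x ∧ gc c • c0 = c := fun c h1 h2 => by
    rcases hgc c h1 h2 with ⟨e1, e2⟩ | ⟨e1, e2⟩ | ⟨-, -, d, d1, d2, d3, e2⟩ <;> rw [e2]
    · simp [e1]
    · exact ⟨hEx hx0 h1, hE e1⟩
    · exact ⟨by rw [mul_smul, hEx hx0 d1, hEx d1 h1], by rw [mul_smul, hE d2, hE d3]⟩
  have Eflip : ∀ {c c' : T.Pt} {g g'}, ¬ cm c c' → Eqv g ((c' ◃ c).val * g') →
      Eqv g' ((c ◃ c').val * g) := fun {c c' g g'} h1 h2 => by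
    have := Esymm (Emul (c ◃ c').val h2)
    rwa [rf_comm (ncm_symm h1), ← mul_assoc, Pt.mul_self, one_mul] at this
  have hedge : ∀ c c', cm x c → cm y c → cm x c' → cm y c' → ¬ cm c c' →
      Eqv (gc c') ((c ◃ c').val * gc c) := by
    intro c c' h1 h2 h3 h4 hcc
    rcases hgc c h1 h2 with ⟨e1, e2⟩ | ⟨e1, e2⟩ | ⟨e1, e1', d, d1, d2, d3, e2⟩ <;>
    rcases hgc c' h3 h4 with ⟨f1, f2⟩ | ⟨f1, f2⟩ | ⟨f1, f1', d', d1', d2', d3', f2⟩ <;>
      rw [e2, f2]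
    · exact absurd (by rw [e1, f1]; exact cm_refl _) hcc
    · rw [e1, mul_one]; exact Erefl _
    · exact absurd (e1 ▸ f1) hcc
    · refine Eflip hcc ?_
      rw [f1, mul_one]; exact Erefl _
    · exact Tri0 h1 h3 e1 hcc f1
    · exact Two h3 h4 f1 f1' d1' h1 d2' e1 d3' hcc
    · exact absurd (f1 ▸ e1.symm) hcc
    · exact Eflip hcc (Two h1 h2 e1 e1' d1 h3 d2 f1 d3 (ncm_symm hcc))
    · obtain ⟨q, q1, q2, q3, q4⟩ : ∃ q, cm x q ∧ ¬ cm c0 q ∧ ¬ cm q c ∧ ¬ cm q c' := by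
        by_cases k : cm d c'
        swap
        · exact ⟨d, d1, d2, d3, k⟩
        have hL := isLn_Ln e1'.symm e1
        obtain ⟨p, hp, hdp⟩ := h.exists_cm_ln hB hL d
        obtain ⟨q, hq, q1, q2, q3, -⟩ := exists_notMem_four h5 hL c0 c p p
        have k1 : ¬ cm d q := fun e =>
          q3 (h.eq_of_cm hL hq hp e hdp (left_mem_Ln _ _) (ncm_symm d2))
        have k2 : ¬ cm c' q := fun e =>
          q1 (h.eq_of_cm hL hq (left_mem_Ln _ _) e f1.symm (right_mem_Ln _ _) (ncm_symm hcc))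
        exact ⟨q ◃ d, (hq x hx0.symm h1.symm).symm.rf_right d1,
          ncm_rf_of_cm (hL.cm (left_mem_Ln _ _) hq) d2,
          ncm_symm (ncm_rf_of_cm (hL.cm (right_mem_Ln _ _) hq) (ncm_symm d3)),
          ncm_symm (ncm_rf_of_cm' k2 k.symm (ncm_symm k1))⟩
      exact Etrans (Two h3 h4 f1 f1' d1' q1 d2' q2 d3' q4)
        (Etrans (Tri q1 h1 h3 q3 hcc q4 (hEx hx0 q1) (hE q2))
          (Emul _ (Two h1 h2 e1 e1' q1 d1 q2 d2 q3 d3)))
  have hback : ∀ c, cm x c → cm y c → ∀ a ∈ Fib x c, (gc c)⁻¹ • a ∈ Fib x c0 := fun c h1 h2 a ha => by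
    obtain ⟨e1, e2⟩ := hR c h1 h2
    have := smul_mem_Fib (g := (gc c)⁻¹) (by rw [inv_smul_eq_iff, e1]) ha
    rwa [show (gc c)⁻¹ • c = c0 by rw [inv_smul_eq_iff, e2]] at this
  refine ⟨fun c a => gc c • r0 ((gc c)⁻¹ • a), fun c h1 h2 a ha => ?_, fun c h1 h2 d d1 d2 a ha => ?_⟩
  · obtain ⟨e1, e2⟩ := hR c h1 h2
    obtain ⟨k1, k2, k3⟩ := hr0 _ (hback c h1 h2 a ha)
    refine ⟨?_, fun e => k2 ?_, fun e => k3 ?_⟩
    · have := smul_mem_Fib e1 k1
      rwa [e2] at this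
    · rw [eq_inv_smul_iff]; exact e
    · rw [eq_inv_smul_iff]; simpa using e
  · obtain ⟨e1, e2⟩ := hR c h1 h2
    by_cases hdc : cm d c
    · have k := smul_mem_Fib e1 (hr0 _ (hback c h1 h2 a ha)).1
      rw [e2] at k
      simp only
      rw [hdc.rf_eq, (ha.1 d d1 hdc.symm).rf_eq', (k.1 d d1 hdc.symm).rf_eq']
    · have k := hedge c (d ◃ c) h1 h2 (d1.rf_right h1) (d2.rf_right h2) (cm_rf_self_right hdc)
      rw [rf_rf_swap hdc] at k
      have k2 := k.2.2 _ (hback c h1 h2 a ha)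
      simp only [mul_smul, smul_inv_smul] at k2
      simp only [rf_def]
      rw [← rf_def d c, ← k2, smul_inv_smul]

theorem exists_orient (h : T.Std) (h5 : ∀ L : Set T.Pt, IsLn L → L.ncard = 5) {x y : T.Pt}
    (hxy : ¬ cm x y) : ∃ pt, Orient x y pt := by
  classical
  have hB := h.big_of_five h5
  obtain ⟨r, hr1, hr2⟩ := h.exists_rot h5 hxy
  have hex : ∀ a, ∃ c, a ≠ x → cm x a → c ∈ Ln x a ∧ cm y c := fun a => by
    by_cases h1 : a ≠ x ∧ cm x a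
    · obtain ⟨c, h2, h3⟩ := h.exists_cm_ln hB (isLn_Ln h1.1.symm h1.2) y
      exact ⟨c, fun _ _ => ⟨h2, h3⟩⟩
    · exact ⟨a, fun h2 h3 => absurd ⟨h2, h3⟩ h1⟩
  choose cp hcp using hex
  have hne : ∀ {c}, cm y c → x ≠ c := fun hc e => hxy (e ▸ hc.symm)
  have hbas : ∀ a, a ≠ x → cm x a → ¬ cm y a →
      cm x (cp a) ∧ cm y (cp a) ∧ Ln x (cp a) = Ln x a ∧ a ∈ Fib x (cp a) := fun a h1 h2 h3 => by
    obtain ⟨k1, k2⟩ := hcp a h1 h2
    have hL := isLn_Ln h1.symm h2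
    have e := h.ln_eq hL (left_mem_Ln _ _) k1 (hne k2)
    exact ⟨hL.cm (left_mem_Ln _ _) k1, k2, e, e ▸ right_mem_Ln _ _, h1, fun e' => h3 (e' ▸ k2)⟩
  have hfib : ∀ c, cm x c → cm y c → ∀ a ∈ Fib x c, cm x a ∧ ¬ cm y a ∧ cp a = c :=
    fun c h1 h2 a ha => by
    have hL := isLn_Ln (hne h2) h1
    have k1 := hL.cm (left_mem_Ln _ _) ha.1
    have k2 : ∀ q ∈ Ln x c, cm y q → q = c := fun q hq e =>
      h.eq_of_cm hL hq (right_mem_Ln _ _) e h2 (left_mem_Ln _ _) (ncm_symm hxy)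
    obtain ⟨k3, k4⟩ := hcp a ha.2.1 k1
    exact ⟨k1, fun e => ha.2.2 (k2 a ha.1 e), k2 _ (Ln_subset (left_mem_Ln _ _) ha.1 k3) k4⟩
  let pt : T.Pt → F4 → T.Pt := fun a l => match l with
    | .o => cp a
    | .i => a
    | .w => r (cp a) a
    | .v => r (cp a) (r (cp a) a)
  refine ⟨pt, fun _ _ _ _ => rfl, fun a h1 h2 h3 => (hbas a h1 h2 h3).2.1, fun a h1 h2 h3 l => ?_,
    fun a h1 h2 h3 l m e => ?_, fun a h1 h2 h3 q hq hqx => ?_, fun a h1 h2 h3 l m hl => ?_,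
    fun a h1 h2 h3 d d1 d2 l => ?_⟩
  all_goals obtain ⟨b1, b2, b3, b4⟩ := hbas a h1 h2 h3
  all_goals have k1 := hr1 _ b1 b2 a b4
  all_goals have k2 := hr1 _ b1 b2 _ k1.1
  all_goals have k3 := rot_three (ncard_Fib h5 (hne b2) b1) (hr1 _ b1 b2) b4
  · rw [← b3]
    cases l
    · exact ⟨right_mem_Ln _ _, (hne b2).symm⟩
    · exact ⟨b4.1, h1⟩
    · exact ⟨k1.1.1, k1.1.2.1⟩
    · exact ⟨k2.1.1, k2.1.2.1⟩
  · have := b4.2.2
    have := k1.1.2.2
    have := k2.1.2.2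
    have := k1.2.1
    have := k1.2.2
    have := k2.2.1
    cases l <;> cases m <;> first | rfl | (simp only [pt] at e; first | contradiction | exact absurd e.symm ‹_›)
  · by_cases e : q = cp a
    · exact ⟨.o, e.symm⟩
    rcases k3.1 q ⟨b3 ▸ hq, hqx, e⟩ with e | e | e
    exacts [⟨.i, e.symm⟩, ⟨.w, e.symm⟩, ⟨.v, e.symm⟩]
  · have e1 := (hfib _ b1 b2 _ k1.1).2.2
    have e2 := (hfib _ b1 b2 _ k2.1).2.2
    have e3 := k3.2
    cases l <;> cases m <;> first | exact absurd rfl hl | rfl | exact e1 | exact e2 | skip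
    all_goals simp only [pt, e1, e2]
    all_goals first | rfl | exact e3 | exact congrArg (r (cp a)) e3
  · have e1 : cp (d ◃ a) = d ◃ cp a := (hfib _ (d1.rf_right b1) (d2.rf_right b2) _
      (smul_mem_Fib d1.rf_eq' b4)).2.2
    cases l <;> simp only [pt, e1]
    · exact hr2 _ b1 b2 d d1 d2 a b4
    · rw [hr2 _ b1 b2 d d1 d2 _ k1.1, hr2 _ b1 b2 d d1 d2 a b4]

end Std

end TTC

end Cfsg.Agent.H3
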