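import Cfsg.Agent.H3.FischerBig
import Cfsg.Agent.S0439

/-! Local groups that are not solvable, and `Sp₄(2) ≅ S₆`. -/

set_option autoImplicit false

namespace Cfsg.Agent.H3

open Matrix Cfsg.Agent.H6
open scoped commutatorElement

theorem mul_mem_of_braid {H : Type*} [Group H] {N : Subgroup H} [hN : N.Normal] {x y z : H}
    (hx : x * x = 1) (hy : y * y = 1) (hz : z * z = 1) (hxy : (x * y) ^ 3 = 1) (hxz : Commute x z)
    (h : y * z ∈ N) : x * y ∈ N := by
  have h1 : x * (y * z) * x⁻¹ * (y * z)⁻¹ = (x * y) ^ 2 := by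
    rw [_root_.mul_inv_rev, inv_eq_of_mul_eq_one_left hx, inv_eq_of_mul_eq_one_left hy,
      inv_eq_of_mul_eq_one_left hz, pow_two]
    simp only [mul_assoc]
    rw [← mul_assoc z x, ← hxz.eq, mul_assoc x z, ← mul_assoc z z, hz, one_mul]
  have h2 : x * y = ((x * y) ^ 2) ^ 2 := by
    rw [← pow_mul, show 2 * 2 = 3 + 1 from rfl, pow_succ, hxy, one_mul]
  rw [h2, ← h1]
  exact pow_mem (mul_mem (hN.conj_mem _ h x) (inv_mem h)) 2

theorem not_isSolvable_of_A4 {H : Type*} [Group H] {a b c d : H} (ha : a * a = 1) (hb : b * b = 1)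
    (hc : c * c = 1) (hd : d * d = 1) (hab : (a * b) ^ 3 = 1) (hbc : (b * c) ^ 3 = 1)
    (hdc : (d * c) ^ 3 = 1) (hac : Commute a c) (had : Commute a d) (hbd : Commute b d)
    (hne : b * c ≠ 1) : ¬ Group.IsSolvable H := by
  refine not_isSolvable_of_mem_derivedSeries hne fun n => ?_
  induction n with
  | zero => exact Subgroup.mem_top _
  | succ n ih =>
    have ia := inv_eq_of_mul_eq_one_left ha
    have ib := inv_eq_of_mul_eq_one_left hb
    have ic := inv_eq_of_mul_eq_one_left hc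
    have id := inv_eq_of_mul_eq_one_left hd
    have h1 := mul_mem_of_braid ha hb hc hab hac ih
    have h2 := mul_mem_of_braid hd hc hb hdc hbd.symm (by
      have := inv_mem ih
      rwa [_root_.mul_inv_rev, ib, ic] at this)
    have h3 : ⁅(d * c)⁻¹, a * b⁆ ∈ derivedSeries H (n + 1) :=
      Subgroup.commutator_mem_commutator (inv_mem h2) h1
    have h4 := (derivedSeries_normal H (n + 1)).conj_mem _ h3 a
    convert h4 using 1
    have e1 : b * c = c * b * c * b := by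
      have : b * c * (b * c) * (b * c) = 1 := by rw [← hbc, pow_three, mul_assoc]
      rw [eq_inv_of_mul_eq_one_right this]
      simp only [_root_.mul_inv_rev, ib, ic, mul_assoc]
    rw [commutatorElement_def]
    simp only [_root_.mul_inv_rev, inv_inv, ia, ib, ic, id, mul_assoc, ha, mul_one]
    rw [← mul_assoc b d, hbd.eq, mul_assoc d b, ← mul_assoc a d, had.eq, mul_assoc d a,
      ← mul_assoc d d, hd, one_mul, ← mul_assoc c a, ← hac.eq, mul_assoc a c, ← mul_assoc a a, ha,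
      one_mul, e1]
    simp only [mul_assoc]

variable {G : Type*} [Group G]

namespace TTC

variable {T : TTC G}

theorem not_isSolvable_of_diagram (x : T.Pt) {y a b c d : T.Pt} (ha : cm y a) (hb : cm y b)
    (hc : cm y c) (hd : cm y d) (hab : ¬ cm a b) (hbc : ¬ cm b c) (hcd : ¬ cm c d) (hac : cm a c)
    (had : cm a d) (hbd : cm b d) : ¬ Group.IsSolvable
      ↥(Subgroup.closure {y : G | y ∈ T.D ∧ y ≠ x.val ∧ Commute x.val y}) := by
  obtain ⟨g, rfl⟩ := exists_smul_eq y x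
  rw [← cm_smul g] at ha hb hc hd hab hbc hcd hac had hbd
  generalize g • y = x at *
  generalize g • a = a at *
  generalize g • b = b at *
  generalize g • c = c at *
  generalize g • d = d at *
  have hmem : ∀ u v : T.Pt, cm x u → cm x v → ¬ cm u v →
      u.val ∈ Subgroup.closure {y : G | y ∈ T.D ∧ y ≠ x.val ∧ Commute x.val y} :=
    fun u v h1 h2 h3 => Subgroup.subset_closure ⟨u.mem, fun e => h3 (Pt.ext e ▸ h2), h1⟩
  refine not_isSolvable_of_A4 (a := ⟨_, hmem a b ha hb hab⟩) (b := ⟨_, hmem b c hb hc hbc⟩)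
    (c := ⟨_, hmem c d hc hd hcd⟩) (d := ⟨_, hmem d c hd hc (ncm_symm hcd)⟩)
    (Subtype.ext a.mul_self) (Subtype.ext b.mul_self) (Subtype.ext c.mul_self)
    (Subtype.ext d.mul_self) (Subtype.ext (tt_cube T.tt a.mem b.mem hab))
    (Subtype.ext (tt_cube T.tt b.mem c.mem hbc))
    (Subtype.ext (tt_cube T.tt d.mem c.mem (ncm_symm hcd))) (Subtype.ext hac) (Subtype.ext had)
    (Subtype.ext hbd) fun e => hbc ?_
  have : b.val * c.val = 1 := congrArg Subtype.val e
  rw [cm, eq_inv_of_mul_eq_one_left this]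
  exact (Commute.refl _).inv_left

variable {ι : Type*} [Fintype ι] [DecidableEq ι] {F : Type*} [Field F]

theorem UEmb.exists_pt {τ : F ≃+* F} {A : Matrix ι ι F} {ψ : T.Pt → ι → F} (E : T.UEmb τ A ψ)
    {κ : Type*} (v : κ → ι → F) (h0 : ∀ k, v k ≠ 0)
    (h1 : ∀ k, sf (τ : F →+* F) A (v k) (v k) = 0) :
    ∃ p : κ → T.Pt, ∀ k l, cm (p k) (p l) ↔ sf (τ : F →+* F) A (v k) (v l) = 0 := by
  choose p hp using fun k => E.surj (v k) (h0 k) (h1 k)
  refine ⟨p, fun k l => ?_⟩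
  obtain ⟨c, hc, e⟩ := hp k
  obtain ⟨c', hc', e'⟩ := hp l
  rw [E.cm_iff, e, e', sf_smul_left, sf_smul_right]
  simp [hc, hc']

theorem UEmb.not_isSolvable {τ : F ≃+* F} {A : Matrix ι ι F} {ψ : T.Pt → ι → F}
    (E : T.UEmb τ A ψ) (x : T.Pt) (v : Fin 5 → ι → F) (h0 : v 0 ≠ 0)
    (h : ∀ k l : Fin 5, sf (τ : F →+* F) A (v k) (v l) = 0 ↔
      (k = 0 ∨ l = 0 ∨ (k.val + 1 ≠ l.val ∧ l.val + 1 ≠ k.val))) : ¬ Group.IsSolvable
      ↥(Subgroup.closure {y : G | y ∈ T.D ∧ y ≠ x.val ∧ Commute x.val y}) := by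
  obtain ⟨p, hp⟩ := E.exists_pt v (fun k e => by
    have key : ∀ k : Fin 5, k = 0 ∨ ∃ l : Fin 5,
      ¬ (k = 0 ∨ l = 0 ∨ (k.val + 1 ≠ l.val ∧ l.val + 1 ≠ k.val)) := by decide
    rcases key k with rfl | ⟨l, hl⟩
    · exact h0 e
    · exact hl ((h k l).1 (by rw [e, sf_zero_left]))) (fun k => (h k k).2 (by omega))
  simp only [h] at hp
  exact not_isSolvable_of_diagram x (y := p 0) (a := p 1) (b := p 2) (c := p 3) (d := p 4)
    ((hp _ _).2 (by decide)) ((hp _ _).2 (by decide)) ((hp _ _).2 (by decide))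
    ((hp _ _).2 (by decide)) (mt (hp _ _).1 (by decide)) (mt (hp _ _).1 (by decide))
    (mt (hp _ _).1 (by decide)) ((hp _ _).2 (by decide)) ((hp _ _).2 (by decide))
    ((hp _ _).2 (by decide))

theorem UEmb.not_isSolvable_sp {n : ℕ} (hn : 3 ≤ n) {ψ : T.Pt → Fin n ⊕ Fin n → ZMod 2}
    (E : T.UEmb (RingEquiv.refl _) (J (Fin n) (ZMod 2)) ψ) (x : T.Pt) : ¬ Group.IsSolvable
      ↥(Subgroup.closure {y : G | y ∈ T.D ∧ y ≠ x.val ∧ Commute x.val y}) := by
  let e : Fin 3 → Fin n ⊕ Fin n → ZMod 2 := fun i => Pi.single (Sum.inl (i.castLE hn)) 1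
  let f : Fin 3 → Fin n ⊕ Fin n → ZMod 2 := fun i => Pi.single (Sum.inr (i.castLE hn)) 1
  refine E.not_isSolvable x ![e 0, e 1, f 1, e 1 + e 2, f 2] (by simp [e]) fun k l => ?_
  fin_cases k <;> fin_cases l <;>
    simp [e, f, sf_add_left, sf_add_right, sf_single, J, one_apply, Fin.ext_iff]

theorem UEmb.not_isSolvable_su {n : ℕ} (hn : 6 ≤ n) {ψ : T.Pt → Fin n → F4}
    (E : T.UEmb F4.τ 1 ψ) (x : T.Pt) : ¬ Group.IsSolvable
      ↥(Subgroup.closure {y : G | y ∈ T.D ∧ y ≠ x.val ∧ Commute x.val y}) := by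
  let e : Fin 6 → Fin n → F4 := fun i => Pi.single (i.castLE hn) 1
  refine E.not_isSolvable x ![e 0 + e 1, e 2 + e 3, e 3 + e 4, e 4 + e 5,
    e 2 + e 3 + e 4 + F4.w • e 5] (fun h => by
      simpa [e, Pi.single_apply, Fin.ext_iff] using congrFun h (Fin.castLE hn 0)) fun k l => ?_
  fin_cases k <;> fin_cases l <;>
    simp [e, sf_add_left, sf_add_right, sf_smul_left, sf_smul_right, sf_single, one_apply,
      Fin.ext_iff] <;> decide

set_option synthInstance.maxSize 1024 in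
theorem UEmb.two_le [Finite G] {n : ℕ} {ψ : T.Pt → Fin n ⊕ Fin n → ZMod 2}
    (E : T.UEmb (RingEquiv.refl _) (J (Fin n) (ZMod 2)) ψ) (h : T.Std) : 2 ≤ n := by
  obtain ⟨a, b, hab, hc⟩ := h.ex_cm
  obtain ⟨w, h1, h2⟩ := h.exists_cm_ncm hab
  have ha := E.ne a
  have hb := E.ne b
  rw [E.cm_iff] at hc h1 h2
  by_contra hn
  obtain rfl | rfl : n = 0 ∨ n = 1 := by omega
  · exact ha (Subsingleton.elim _ _)
  · revert ha hb hc h1 h2
    generalize ψ a = a
    generalize ψ b = b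
    generalize ψ w = w
    revert a b w
    decide +kernel

end TTC

/-- six vectors giving `Sp₄(2) ≅ S₆` -/
def w6 : Fin 6 → Fin 2 ⊕ Fin 2 → ZMod 2 :=
  ![Sum.elim ![1, 0] ![0, 0], Sum.elim ![0, 0] ![1, 0], Sum.elim ![1, 1] ![1, 0],
    Sum.elim ![1, 0] ![1, 1], Sum.elim ![1, 1] ![1, 1], 0]

/-- the vector of a transposition -/
def ψ6 (σ : Equiv.Perm (Fin 6)) : Fin 2 ⊕ Fin 2 → ZMod 2 := ∑ i, if σ i = i then 0 else w6 i

theorem ψ6_swap : ∀ i j : Fin 6, i ≠ j → ψ6 (Equiv.swap i j) = w6 i + w6 j := by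
  decide +kernel

theorem sp4_equiv_perm_six :
    Nonempty (symplecticGroup (Fin 2) (ZMod 2) ≃* Equiv.Perm (Fin 6)) := by
  let T := TTC.ofClass (S0439.result 6 (by norm_num))
  have hT : T.Std := TTC.std_of_simple
    (by rw [alternatingGroup.commutator_perm_eq (by simp)]
        exact alternatingGroup.isSimpleGroup (by simp))
    (by rw [alternatingGroup.commutator_perm_eq (by simp)]
        exact ⟨⟨Equiv.swap 0 1 * Equiv.swap 1 2, by simp⟩,
          ⟨Equiv.swap 1 2 * Equiv.swap 2 3, by simp⟩, by decide⟩)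
  have E : T.UEmb (RingEquiv.refl _) (J (Fin 2) (ZMod 2)) fun p => ψ6 p.val := by
    refine ⟨?_, ?_, ?_, fun v hv _ => ?_⟩
    · rintro ⟨_, i, j, hij, rfl⟩
      rw [ψ6_swap i j hij]
      revert i j; decide +kernel
    · rintro ⟨_, i, j, hij, rfl⟩ ⟨_, k, l, hkl, rfl⟩
      rw [ψ6_swap i j hij, ψ6_swap k l hkl]
      change Equiv.swap i j * Equiv.swap k l = Equiv.swap k l * Equiv.swap i j ↔ _
      revert i j k l; decide +kernel
    · rintro ⟨_, i, j, hij, rfl⟩ ⟨_, k, l, hkl, rfl⟩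
      refine ⟨1, one_ne_zero, ?_⟩
      rw [TTC.rf_def, TTC.smul_val, ← Equiv.swap_apply_apply, ψ6_swap i j hij, ψ6_swap k l hkl,
        ψ6_swap _ _ ((Equiv.injective _).ne hkl), one_smul]
      revert i j k l; decide +kernel
    · obtain ⟨i, j, hij, rfl⟩ : ∃ i j, i ≠ j ∧ w6 i + w6 j = v := by
        clear * - hv
        revert v; decide +kernel
      exact ⟨⟨Equiv.swap i j, i, j, hij, rfl⟩, by rw [ψ6_swap i j hij]; exact Par.refl _⟩
  obtain ⟨e⟩ := E.equiv_sp hT (by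
    rw [eq_bot_iff]
    intro z hz
    rw [Subgroup.mem_center_iff] at hz
    refine Equiv.ext fun i => ?_
    by_contra hi
    replace hi : z i ≠ i := hi
    have key : ∀ i j : Fin 6, ∃ k, k ≠ i ∧ k ≠ j := by decide
    obtain ⟨k, h1, h2⟩ := key i (z i)
    have := congrArg (· i) (hz (Equiv.swap (z i) k))
    simp only [Equiv.Perm.mul_apply, Equiv.swap_apply_left] at this
    rw [Equiv.swap_apply_of_ne_of_ne (Ne.symm hi) h1.symm] at this
    exact h2 this)
  exact ⟨e.symm⟩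

end Cfsg.Agent.H3
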