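import Cfsg.Agent.H3.FischerOri
import Cfsg.Agent.H3.FischerEmb

/-! Classes of 3-transpositions with lines of five points: the hermitian form. -/

set_option autoImplicit false

namespace Cfsg.Agent.H3

open Matrix Cfsg.Agent.H6 F4

variable {G : Type*} [Group G]

namespace TTC

variable {T : TTC G}

theorem Std.exists_rf_rf_eq [Finite G] (h : T.Std) (hB : T.Big) {L : Set T.Pt} (hL : IsLn L)
    {e a p q : T.Pt} (he : e ∈ L) (ha : a ∈ L) (hpe : cm p e) (hpa : ¬ cm p a) (hq : q ∈ Ln p e)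
    (hqe : q ≠ e) : ∃ d ∈ L, d ≠ e ∧ a ◃ d ◃ p = q := by
  have hp : ∀ q ∈ L, q ≠ e → ¬ cm p q := fun q hq hqe hc =>
    hqe (h.eq_of_cm hL hq he hc hpe ha hpa)
  have hpe' : p ≠ e := fun e' => hpa (e' ▸ hL.cm he ha)
  have hsurj := Set.surj_on_of_inj_on_of_ncard_le (s := L \ {e}) (t := Ln p e \ {e})
    (fun d _ => a ◃ d ◃ p) (fun d hd => by
      by_cases hda : d = a
      · rw [hda, rf_rf]; exact ⟨left_mem_Ln _ _, hpe'⟩
      · refine ⟨h.rf_rf_mem hB hL he ha hd.1 (Ne.symm hda) hpe hpa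
          (hp d hd.1 hd.2), fun e' => hpa (cm.symm ?_)⟩
        rw [Set.mem_singleton_iff] at e'
        have := hL.cm ha he
        rwa [← e', cm_rf_self_left, cm_rf_of_cm (hL.cm ha hd.1)] at this)
    (fun d d' hd hd' e' => rf_inj_left (ncm_symm (hp d hd.1 hd.2)) (ncm_symm (hp d' hd'.1 hd'.2))
      (rf_left_cancel e'))
    (by rw [Set.ncard_sdiff_singleton_of_mem he,
      Set.ncard_sdiff_singleton_of_mem (right_mem_Ln _ _), h.ncard_ln hL (isLn_Ln hpe' hpe)])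
  obtain ⟨d, hd, e'⟩ := hsurj q ⟨hq, hqe⟩
  exact ⟨d, hd.1, hd.2, e'.symm⟩

/-- The setting: lines with five points, a non-commuting pair and an orientation. -/
structure UCtx (T : TTC G) where
  x : T.Pt
  y : T.Pt
  pt : T.Pt → F4 → T.Pt
  std : T.Std
  five : ∀ L : Set T.Pt, IsLn L → L.ncard = 5
  hxy : ¬ cm x y
  ori : Orient x y pt

namespace UCtx

variable [Finite G] (C : UCtx T)

/-- the points commuting with `x` but not with `y` -/
def A (a : T.Pt) : Prop := a ≠ C.x ∧ cm C.x a ∧ ¬ cm C.y a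

/-- the third point on the hyperbolic line -/
def z : T.Pt := C.x ◃ C.y

theorem big (C : UCtx T) : T.Big := C.std.big_of_five C.five

omit [Finite G] in
theorem hxz : ¬ cm C.x C.z := by rw [z, cm_rf_self_left]; exact C.hxy

omit [Finite G] in
theorem hyz : ¬ cm C.y C.z := cm_rf_self_right C.hxy

omit [Finite G] in
theorem z_x : C.z ◃ C.x = C.y := rf_rf_self C.hxy

omit [Finite G] in
theorem x_z : C.x ◃ C.z = C.y := rf_rf _ _

omit [Finite G] in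
theorem y_x : C.y ◃ C.x = C.z := (rf_comm C.hxy).symm

omit [Finite G] in
theorem z_y : C.z ◃ C.y = C.x := by rw [← C.y_x]; exact rf_rf_self (ncm_symm C.hxy)

variable {C}

section
omit [Finite G]
variable {a b : T.Pt} (ha : C.A a)
include ha

theorem A.ln : IsLn (Ln C.x a) := isLn_Ln ha.1.symm ha.2.1
theorem A.one : C.pt a 1 = a := C.ori.one a ha.1 ha.2.1 ha.2.2
theorem A.y0 : cm C.y (C.pt a 0) := C.ori.zero a ha.1 ha.2.1 ha.2.2
theorem A.mem (l : F4) : C.pt a l ∈ Ln C.x a := (C.ori.mem a ha.1 ha.2.1 ha.2.2 l).1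
theorem A.ne (l : F4) : C.pt a l ≠ C.x := (C.ori.mem a ha.1 ha.2.1 ha.2.2 l).2
theorem A.xp (l : F4) : cm C.x (C.pt a l) := ha.ln.cm (left_mem_Ln _ _) (ha.mem l)
theorem A.inj : Function.Injective (C.pt a) := C.ori.inj a ha.1 ha.2.1 ha.2.2
theorem A.surj {q : T.Pt} (hq : q ∈ Ln C.x a) (hx : q ≠ C.x) : ∃ l, C.pt a l = q :=
  C.ori.surj a ha.1 ha.2.1 ha.2.2 q hq hx
theorem A.mul {l : F4} (hl : l ≠ 0) (m : F4) : C.pt (C.pt a l) m = C.pt a (l * m) :=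
  C.ori.mul a ha.1 ha.2.1 ha.2.2 l m hl
theorem A.rf_pt {d : T.Pt} (h1 : cm C.x d) (h2 : cm C.y d) (l : F4) :
    d ◃ C.pt a l = C.pt (d ◃ a) l := C.ori.rf a ha.1 ha.2.1 ha.2.2 d h1 h2 l
theorem A.rf {d : T.Pt} (h1 : cm C.x d) (h2 : cm C.y d) : C.A (d ◃ a) :=
  ⟨fun e => ha.1 (by rw [← rf_rf d a, e, h1.rf_eq']), h1.rf_right ha.2.1, ncm_rf_of_cm h2 ha.2.2⟩
theorem A.z0 : cm C.z (C.pt a 0) := ((ha.xp 0).symm.rf_right ha.y0.symm).symm
theorem A.nz : ¬ cm C.z a := by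
  rw [z, cm_rf_left, ha.2.1.rf_eq]; exact ha.2.2
theorem A.nxz : ¬ cm C.x (C.z ◃ a) := by
  rw [cm_rf_right, C.z_x]; exact ha.2.2
theorem A.nxy : ¬ cm C.x (C.y ◃ a) := by
  rw [cm_rf_right, C.y_x]; exact ha.nz
theorem A.cm_pt (l m : F4) : cm (C.pt a l) (C.pt a m) := ha.ln.cm (ha.mem l) (ha.mem m)
theorem A.y_eq : C.y ◃ a = C.x ◃ C.z ◃ a := by
  rw [rf_distrib C.x, C.x_z, ha.2.1.rf_eq]
end

theorem A.pt {a : T.Pt} (ha : C.A a) {l : F4} (hl : l ≠ 0) : C.A (C.pt a l) :=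
  ⟨ha.ne l, ha.xp l, fun e => hl (ha.inj (C.std.eq_of_cm ha.ln (ha.mem l) (ha.mem 0) e ha.y0
    (left_mem_Ln _ _) (ncm_symm C.hxy)))⟩

theorem A.cm_iff {a q : T.Pt} (ha : C.A a) (hq : cm C.x q) (l : F4) :
    cm (C.pt a l) q ↔ cm a q :=
  ⟨fun h => (C.std.cm_of_two ha.ln (left_mem_Ln _ _) (ha.mem l) (ha.ne l).symm hq.symm h.symm
    (right_mem_Ln _ _)).symm, fun h => ha.mem l q hq h⟩

theorem A.cm_iff2 {a b : T.Pt} (ha : C.A a) (hb : C.A b) (l m : F4) :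
    cm (C.pt a l) (C.pt b m) ↔ cm a b := by
  rw [ha.cm_iff (hb.xp m), cm_comm, hb.cm_iff ha.2.1, cm_comm]

theorem exists_pt {p : T.Pt} (h1 : p ≠ C.x) (h2 : cm C.x p) : ∃ a l, C.A a ∧ C.pt a l = p := by
  by_cases h3 : cm C.y p
  swap
  · exact ⟨p, 1, ⟨h1, h2, h3⟩, A.one ⟨h1, h2, h3⟩⟩
  have hL := isLn_Ln h1.symm h2
  obtain ⟨a, ha, ha1, ha2⟩ := C.std.exists_third C.big hL C.x p
  have ha' : C.A a := ⟨ha1, hL.cm (left_mem_Ln _ _) ha, fun e => ha2 (C.std.eq_of_cm hL ha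
    (right_mem_Ln _ _) e h3 (left_mem_Ln _ _) (ncm_symm C.hxy))⟩
  obtain ⟨l, hl⟩ := ha'.surj (q := p)
    (by rw [C.std.ln_eq hL (left_mem_Ln _ _) ha ha1.symm]; exact right_mem_Ln _ _) h1
  exact ⟨a, l, ha', hl⟩

theorem exists_pt0 {p : T.Pt} (h1 : cm C.x p) (h2 : cm C.y p) : ∃ a, C.A a ∧ C.pt a 0 = p := by
  obtain ⟨a, l, ha, rfl⟩ := exists_pt (fun e => C.hxy (e ▸ h2.symm)) h1
  by_cases hl : l = 0
  · exact ⟨a, ha, by rw [hl]⟩
  · exact absurd h2 (ha.pt hl).2.2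

variable (C) in
open Classical in
/-- the coordinate of the projection of `u` to the line through `x` and `a` -/
noncomputable def co (u a : T.Pt) : F4 := if h : ∃ l, cm u (C.pt a l) then h.choose else 0

theorem co_spec {u a : T.Pt} (hu : ¬ cm C.x u) (ha : C.A a) : cm u (C.pt a (C.co u a)) := by
  have : ∃ l, cm u (C.pt a l) := by
    obtain ⟨q, h1, h2⟩ := C.std.exists_cm_ln C.big ha.ln u
    obtain ⟨l, rfl⟩ := ha.surj h1 (fun e => hu (e ▸ h2.symm))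
    exact ⟨l, h2⟩
  rw [co, dif_pos this]
  exact this.choose_spec

theorem co_eq {u a : T.Pt} (hu : ¬ cm C.x u) (ha : C.A a) {l : F4} (h : cm u (C.pt a l)) :
    C.co u a = l :=
  ha.inj (C.std.eq_of_cm ha.ln (ha.mem _) (ha.mem _) (co_spec hu ha) h (left_mem_Ln _ _)
    (ncm_symm hu))

theorem co_eq_iff {u a : T.Pt} (hu : ¬ cm C.x u) (ha : C.A a) {l : F4} :
    C.co u a = l ↔ cm u (C.pt a l) := ⟨fun e => e ▸ co_spec hu ha, co_eq hu ha⟩

theorem co_pt {u a : T.Pt} (hu : ¬ cm C.x u) (ha : C.A a) {l : F4} (hl : l ≠ 0) :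
    C.co u (C.pt a l) = τ l * C.co u a :=
  co_eq hu (ha.pt hl) (by rw [ha.mul hl, ← mul_assoc, mul_τ_self hl, one_mul]; exact co_spec hu ha)

theorem co_x {u a : T.Pt} (hu : ¬ cm C.x u) (ha : C.A a) : C.co (C.x ◃ u) a = C.co u a :=
  co_eq (by rwa [cm_rf_self_left]) ha (by rw [cm_rf_left, (ha.xp _).rf_eq]; exact co_spec hu ha)

theorem co_C {u a d : T.Pt} (hu : ¬ cm C.x u) (ha : C.A a) (h1 : cm C.x d) (h2 : cm C.y d) :
    C.co (d ◃ u) a = C.co u (d ◃ a) :=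
  co_eq (ncm_rf_of_cm h1 hu) ha
    (by rw [cm_rf_left, ha.rf_pt h1 h2]; exact co_spec hu (ha.rf h1 h2))

theorem co_y {a : T.Pt} (ha : C.A a) : C.co C.y a = 0 := co_eq C.hxy ha ha.y0

theorem co_z {a : T.Pt} (ha : C.A a) : C.co C.z a = 0 := co_eq C.hxz ha ha.z0

variable (C) in
/-- the hermitian form -/
noncomputable def H (b a : T.Pt) : F4 := C.co (C.z ◃ b) a

theorem H_eq_zero {a b : T.Pt} (ha : C.A a) (hb : C.A b) : C.H b a = 0 ↔ cm a b := by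
  rw [H, co_eq_iff hb.nxz ha, cm_rf_left, ha.z0.rf_eq, cm_comm, ha.cm_iff hb.2.1]

theorem H_herm {a b : T.Pt} (ha : C.A a) (hb : C.A b) : C.H a b = τ (C.H b a) := by
  by_cases hab : cm a b
  · rw [(H_eq_zero ha hb).2 hab, (H_eq_zero hb ha).2 hab.symm, map_zero]
  have h1 : ¬ cm (C.pt a 0) (C.pt b 0) := by rwa [ha.cm_iff2 hb]
  set e := C.pt a 0 ◃ C.pt b 0 with he
  have ex : cm C.x e := (ha.xp 0).rf_right (hb.xp 0)
  have ey : cm C.y e := ha.y0.rf_right hb.y0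
  have ez : cm C.z e := ha.z0.rf_right hb.z0
  have k : ∀ {c : T.Pt}, C.A c → ¬ cm e c → cm (C.z ◃ c) (e ◃ c) := fun hc h2 => by
    rw [← cm_rf_right]; exact cm_rf_rf ez (ncm_symm hc.nz) (ncm_symm h2)
  have eb : ¬ cm e b := ncm_symm (ncm_rf_of_cm' (by rwa [cm_comm, ha.cm_iff hb.2.1])
    (hb.mem 0 b hb.2.1 (cm_refl b)).symm h1)
  have ea : ¬ cm e a := ncm_symm (ncm_rf_of_cm (ha.mem 0 a ha.2.1 (cm_refl a)).symm
    (by rw [cm_comm, hb.cm_iff ha.2.1]; exact ncm_symm hab))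
  have e1 : e ◃ C.pt b 0 = C.pt a 0 := by rw [he, rf_comm h1, rf_rf_self (ncm_symm h1)]
  have hmem : e ◃ b ∈ Ln C.x a := by
    have h2 : b ∈ Ln C.x (C.pt b 0) := by
      rw [C.std.ln_eq hb.ln (left_mem_Ln _ _) (hb.mem 0) (hb.ne 0).symm]; exact right_mem_Ln _ _
    have h3 := (smul_mem_Ln e.val).2 h2
    rw [← rf_def, ← rf_def, ← rf_def, ex.rf_eq', e1] at h3
    exact Ln_subset (left_mem_Ln _ _) (ha.mem 0) h3
  obtain ⟨l, hl⟩ := ha.surj hmem (hb.rf ex ey).1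
  have hl0 : l ≠ 0 := by
    rintro rfl
    exact (hb.rf ex ey).2.2 (hl ▸ ha.y0)
  have e2 : C.H b a = l := co_eq hb.nxz ha (hl ▸ k hb eb)
  have e3 : C.pt b (τ l) = e ◃ a := by
    rw [← rf_rf e b, ← hl, ha.rf_pt ex ey, (ha.rf ex ey).mul hl0, mul_τ_self hl0,
      (ha.rf ex ey).one]
  rw [e2]
  exact co_eq ha.nxz hb (e3 ▸ k ha ea)

theorem trans_pt {a d : T.Pt} (ha : C.A a) (hd : C.A d) (l : F4) :
    d ◃ C.pt d 0 ◃ C.pt a l = C.pt a (l + C.H d a) := by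
  by_cases had : cm a d
  · rw [(H_eq_zero ha hd).2 had, add_zero, ((hd.cm_iff2 ha 0 l).2 had.symm).rf_eq,
      ((ha.cm_iff hd.2.1 l).2 had).rf_eq']
  have hne : d ≠ C.pt d 0 := fun e => hd.2.2 (e ▸ hd.y0)
  have hc : cm d (C.pt d 0) := (hd.mem 0 d hd.2.1 (cm_refl d)).symm
  have k1 : ∀ l, ¬ cm (C.pt a l) d := fun l => by rwa [ha.cm_iff hd.2.1]
  have k2 : ∀ l, ¬ cm (C.pt a l) (C.pt d 0) := fun l => by rwa [ha.cm_iff2 hd]
  have hex : ∀ l, ∃ m, C.pt a m = d ◃ C.pt d 0 ◃ C.pt a l := fun l => by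
    have h1 := C.std.rf_rf_mem C.big hd.ln (left_mem_Ln _ _) (right_mem_Ln _ _) (hd.mem 0) hne
      (ha.xp l).symm (k1 l) (k2 l)
    refine ha.surj (Ln_subset (ha.mem l) (left_mem_Ln _ _) h1) fun e => k1 l ?_
    have := hd.2.1.symm
    rw [← e, cm_rf_self_left, cm_rf_of_cm hc] at this
    exact this.symm
  choose σ hσ using hex
  have h1 := translation σ (fun l e => rf_rf_ne hne (k1 l) (k2 l) (by rw [← hσ, e]))
    (fun l => ha.inj (by rw [hσ, hσ, hc.symm.rf_rf_comm, rf_rf, rf_rf]))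
  have h2 : σ 0 = C.H d a := by
    rw [H, ← co_x hd.nxz ha, ← hd.y_eq, eq_comm]
    refine co_eq hd.nxy ha ?_
    rw [hσ, rf_comm hd.2.2, cm_rf]
    exact hd.y0.rf_right ha.y0
  rw [← hσ, h1, h2]

theorem co_trans {u a d : T.Pt} (hu : ¬ cm C.x u) (ha : C.A a) (hd : C.A d) :
    C.co (d ◃ C.pt d 0 ◃ u) a = C.co u a + C.H d a :=
  co_eq (ncm_rf_of_cm hd.2.1 (ncm_rf_of_cm (hd.xp 0) hu)) ha
    (by rw [← trans_pt ha hd, cm_rf, cm_rf]; exact co_spec hu ha)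

theorem H_pt_left {a b : T.Pt} (ha : C.A a) (hb : C.A b) {l : F4} (hl : l ≠ 0) :
    C.H (C.pt a l) b = l * C.H a b := by
  rw [H_herm (ha.pt hl) hb, H, co_pt hb.nxz ha hl, map_mul, τ_τ, H_herm ha hb]; rfl

theorem H_rf {a b d : T.Pt} (ha : C.A a) (hb : C.A b) (hd : C.A d) :
    C.H (C.pt d 0 ◃ a) b = C.H a b + C.H a d * C.H d b := by
  by_cases had : cm d a
  · rw [(H_eq_zero hd ha).2 had, zero_mul, add_zero, ((hd.cm_iff ha.2.1 0).2 had).rf_eq]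
  have hl : C.H a d ≠ 0 := mt (H_eq_zero hd ha).1 had
  have h1 : cm (C.z ◃ a) (C.pt d (C.H a d)) := co_spec ha.nxz hd
  have h2 := co_trans ha.nxz hb (hd.pt hl)
  rw [hd.mul hl, mul_zero, (hd.cm_pt _ _).rf_rf_comm, h1.rf_eq', H_pt_left hd hb hl] at h2
  rw [H, hd.z0.rf_rf_comm, h2]; rfl

theorem exists_vec : ∃ (n : ℕ) (e f : Fin n → F4) (v : T.Pt → Fin n → F4),
    hf τ e e = 0 ∧ hf τ f f = 0 ∧ hf τ e f = 1 ∧
    (∀ a, C.A a → hf τ (v a) e = 0 ∧ hf τ (v a) f = 0) ∧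
    (∀ a b, C.A a → C.A b → hf τ (v a) (v b) = C.H a b) ∧
    ∀ w, w ∈ Submodule.span F4 ({e, f} ∪ v '' {a | C.A a}) := by
  classical
  haveI := Fintype.ofFinite T.Pt
  let M : Matrix T.Pt T.Pt F4 := Matrix.of fun p q => if C.A p ∧ C.A q then C.H p q else
    if (p = C.x ∧ q = C.y) ∨ (p = C.y ∧ q = C.x) then 1 else 0
  have nx : ¬ C.A C.x := fun h => h.1 rfl
  have ny : ¬ C.A C.y := fun h => h.2.2 (cm_refl _)
  have hne : C.x ≠ C.y := fun e => C.hxy (e ▸ cm_refl _)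
  obtain ⟨n, P, hP, e⟩ := exists_gram_herm orderOf_τ (A := M) (by
    ext p q
    simp only [M, transpose_apply, map_apply, of_apply]
    by_cases h1 : C.A p ∧ C.A q
    · rw [if_pos h1, if_pos h1.symm, H_herm h1.1 h1.2]; rfl
    · rw [if_neg h1, if_neg (fun h => h1 h.symm)]
      by_cases h2 : (p = C.x ∧ q = C.y) ∨ (p = C.y ∧ q = C.x)
      · rw [if_pos h2, if_pos (by tauto), map_one]
      · rw [if_neg h2, if_neg (by tauto), map_zero])
  have e1 : ∀ p q, hf τ (P (Pi.single p 1)) (P (Pi.single q 1)) = M p q := fun p q => by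
    rw [e, sf_single]
  have hspan := span_single_eq_top hP
  refine ⟨n, P (Pi.single C.x 1), P (Pi.single C.y 1), fun p => P (Pi.single p 1),
    by simp [e1, M, nx, hne], by simp [e1, M, ny, hne.symm], by simp [e1, M, nx, ny],
    fun a ha => ?_, fun a b ha hb => by simp [e1, M, ha, hb], fun w => ?_⟩
  · have h1 : a ≠ C.x := ha.1
    have h2 : a ≠ C.y := fun e => ny (e ▸ ha)
    simp [e1, M, nx, ny, h1, h2]
  · have hw : w ∈ Submodule.span F4 (Set.range fun p : T.Pt => P (Pi.single p 1)) :=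
      hspan ▸ Submodule.mem_top
    refine Submodule.span_le.2 ?_ hw
    rintro _ ⟨p, rfl⟩
    by_cases h1 : C.A p
    · exact Submodule.subset_span (Or.inr ⟨p, h1, rfl⟩)
    by_cases h2 : p = C.x
    · exact Submodule.subset_span (Or.inl (Or.inl (by rw [h2])))
    by_cases h3 : p = C.y
    · exact Submodule.subset_span (Or.inl (Or.inr (by rw [h3]; rfl)))
    have : P (Pi.single p 1) = 0 := eq_of_span_right (σ := (τ : F4 →+* F4)) (A := 1) (by simp)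
      hspan fun q => by
        rw [sf_zero_right, ← hf_def, e1]
        simp [M, h1, h2, h3]
    simp only [this]
    exact Submodule.zero_mem _

end UCtx

end TTC

end Cfsg.Agent.H3
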