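import Cfsg.Agent.H3.FischerU

/-! Classes of 3-transpositions with lines of five points: the embedding. -/

set_option autoImplicit false

namespace Cfsg.Agent.H3

open Matrix Cfsg.Agent.H6 F4

section tv4

variable {ι : Type*} [Fintype ι] [DecidableEq ι]

local notation "⟪" u ", " v "⟫" => hf τ u v

/-- the unitary transvection with centre `d` -/
def t4 (d v : ι → F4) : ι → F4 := v + ⟪v, d⟫ • d

theorem hf4_conj (u v : ι → F4) : τ ⟪u, v⟫ = ⟪v, u⟫ := hf_conj orderOf_τ u v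

theorem hf4_comm {u v : ι → F4} (h : ⟪u, v⟫ = 0) : ⟪v, u⟫ = 0 := hf_comm orderOf_τ h

theorem t4_adj (d u v : ι → F4) : ⟪t4 d u, v⟫ = ⟪u, t4 d v⟫ := by
  simp only [t4, hf_add_left, hf_add_right, hf_smul_left, hf_smul_right, hf4_conj]; ring

theorem t4_t4 {d : ι → F4} (hd : ⟪d, d⟫ = 0) (v : ι → F4) : t4 d (t4 d v) = v := by
  simp only [t4, hf_add_left, hf_smul_left, hd, mul_zero, add_zero, add_assoc, ← add_smul,
    F4.add_self, zero_smul]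

theorem t4_isom {d : ι → F4} (hd : ⟪d, d⟫ = 0) (u v : ι → F4) : ⟪t4 d u, t4 d v⟫ = ⟪u, v⟫ := by
  rw [t4_adj, t4_t4 hd]

theorem t4_smul (d v : ι → F4) (c : F4) : t4 d (c • v) = c • t4 d v := by
  simp only [t4, hf_smul_left, smul_add, smul_smul]

theorem t4_add (d u v : ι → F4) : t4 d (u + v) = t4 d u + t4 d v := by
  simp only [t4, hf_add_left, add_smul]; abel

theorem t4_par {u v : ι → F4} (d : ι → F4) (h : Par u v) : Par (t4 d u) (t4 d v) := by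
  obtain ⟨c, hc, rfl⟩ := h
  exact ⟨c, hc, t4_smul _ _ _⟩

theorem t4_of_par {d d' : ι → F4} (h : Par d d') (v : ι → F4) : t4 d' v = t4 d v := by
  obtain ⟨c, hc, rfl⟩ := h
  simp only [t4, hf_smul_right, smul_smul]
  rw [mul_right_comm, τ_mul_self hc, one_mul]

theorem t4_conj {d : ι → F4} (hd : ⟪d, d⟫ = 0) (a v : ι → F4) :
    t4 (t4 d a) v = t4 d (t4 a (t4 d v)) := by
  rw [t4, ← t4_adj, t4.eq_1 a, t4_add, t4_t4 hd, t4_smul]

theorem t4_of_perp {d v : ι → F4} (h : ⟪v, d⟫ = 0) : t4 d v = v := by simp [t4, h]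

theorem par_hf_left {u u' : ι → F4} (h : Par u u') (v : ι → F4) : ⟪u, v⟫ = 0 ↔ ⟪u', v⟫ = 0 :=
  ⟨h.hf_left, h.symm.hf_left⟩

theorem par_hf_right {v v' : ι → F4} (h : Par v v') (u : ι → F4) : ⟪u, v⟫ = 0 ↔ ⟪u, v'⟫ = 0 :=
  ⟨h.hf_right, h.symm.hf_right⟩

end tv4

variable {G : Type*} [Group G]

namespace TTC

variable {T : TTC G}

/-- The setting with vectors. -/
structure UVec (T : TTC G) extends UCtx T where
  n : ℕ
  e : Fin n → F4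
  f : Fin n → F4
  v : T.Pt → Fin n → F4
  ee : hf τ e e = 0
  ff : hf τ f f = 0
  ef : hf τ e f = 1
  ve : ∀ a, toUCtx.A a → hf τ (v a) e = 0 ∧ hf τ (v a) f = 0
  vv : ∀ a b, toUCtx.A a → toUCtx.A b → hf τ (v a) (v b) = toUCtx.H a b
  span : ∀ w, w ∈ Submodule.span F4 ({e, f} ∪ v '' {a | toUCtx.A a})

namespace UVec

open UCtx

variable [Finite G] {C : UVec T}

local notation "⟪" u ", " v "⟫" => hf τ u v

omit [Finite G] in
theorem fe : ⟪C.f, C.e⟫ = 1 := by rw [← hf4_conj, C.ef, map_one]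

omit [Finite G] in
theorem sep {w w' : Fin C.n → F4} (h1 : ⟪w, C.e⟫ = ⟪w', C.e⟫) (h2 : ⟪w, C.f⟫ = ⟪w', C.f⟫)
    (h3 : ∀ a, C.A a → ⟪w, C.v a⟫ = ⟪w', C.v a⟫) : w = w' := by
  rw [← sub_eq_zero]
  refine sf_nondeg_left (σ := τ) (A := 1) (by simp) fun u => ?_
  have hu := C.span u
  induction hu using Submodule.span_induction with
  | mem x hx =>
    rw [← hf_def, hf_sub_left, sub_eq_zero]
    rcases hx with (rfl | rfl) | ⟨a, ha, rfl⟩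
    exacts [h1, h2, h3 a ha]
  | zero => exact sf_zero_right _ _ _
  | add x y _ _ h1 h2 => rw [sf_add_right, h1, h2, add_zero]
  | smul c x _ h1 => rw [sf_smul_right, h1, mul_zero]

theorem vv_self {a : T.Pt} (ha : C.A a) : ⟪C.v a, C.v a⟫ = 0 := by
  rw [C.vv a a ha ha, H_eq_zero ha ha]; exact cm_refl a

theorem v_pt {a : T.Pt} (ha : C.A a) {l : F4} (hl : l ≠ 0) : C.v (C.pt a l) = l • C.v a :=
  sep (by rw [hf_smul_left, (C.ve _ (ha.pt hl)).1, (C.ve _ ha).1, mul_zero])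
    (by rw [hf_smul_left, (C.ve _ (ha.pt hl)).2, (C.ve _ ha).2, mul_zero])
    fun b hb => by rw [hf_smul_left, C.vv _ _ (ha.pt hl) hb, C.vv _ _ ha hb, H_pt_left ha hb hl]

theorem v_rf {a d : T.Pt} (ha : C.A a) (hd : C.A d) :
    C.v (C.pt d 0 ◃ a) = t4 (C.v d) (C.v a) := by
  have h1 := ha.rf (hd.xp 0) hd.y0
  refine sep ?_ ?_ fun b hb => ?_ <;> rw [t4, hf_add_left, hf_smul_left]
  · rw [(C.ve _ h1).1, (C.ve _ ha).1, (C.ve _ hd).1, mul_zero, add_zero]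
  · rw [(C.ve _ h1).2, (C.ve _ ha).2, (C.ve _ hd).2, mul_zero, add_zero]
  · rw [C.vv _ _ h1 hb, C.vv _ _ ha hb, C.vv _ _ ha hd, C.vv _ _ hd hb, H_rf ha hb hd]

variable (C) in
/-- `w` is the component of `u` orthogonal to the hyperbolic pair -/
def IsF (u : T.Pt) (w : Fin C.n → F4) : Prop :=
  ⟪w, C.e⟫ = 0 ∧ ⟪w, C.f⟫ = 0 ∧ ∀ a, C.A a → ⟪w, C.v a⟫ = C.co u a

omit [Finite G] in
theorem IsF.unique {u : T.Pt} {w w' : Fin C.n → F4} (h : C.IsF u w) (h' : C.IsF u w') : w = w' :=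
  sep (h.1.trans h'.1.symm) (h.2.1.trans h'.2.1.symm) fun a ha =>
    (h.2.2 a ha).trans (h'.2.2 a ha).symm

theorem isF_y : C.IsF C.y 0 :=
  ⟨hf_zero_left _, hf_zero_left _, fun a ha => by rw [hf_zero_left, co_y ha]⟩

theorem isF_z : C.IsF C.z 0 :=
  ⟨hf_zero_left _, hf_zero_left _, fun a ha => by rw [hf_zero_left, co_z ha]⟩

omit [Finite G] in
theorem isF_za {b : T.Pt} (hb : C.A b) : C.IsF (C.z ◃ b) (C.v b) :=
  ⟨(C.ve b hb).1, (C.ve b hb).2, fun a ha => C.vv b a hb ha⟩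

theorem IsF.x {u : T.Pt} {w : Fin C.n → F4} (h : C.IsF u w) (hu : ¬ cm C.x u) :
    C.IsF (C.x ◃ u) w := ⟨h.1, h.2.1, fun a ha => by rw [co_x hu ha, h.2.2 a ha]⟩

theorem IsF.c {u d : T.Pt} {w : Fin C.n → F4} (h : C.IsF u w) (hu : ¬ cm C.x u) (hd : C.A d) :
    C.IsF (C.pt d 0 ◃ u) (t4 (C.v d) w) := by
  refine ⟨?_, ?_, fun a ha => ?_⟩
  · rw [t4, hf_add_left, hf_smul_left, h.1, (C.ve d hd).1, mul_zero, add_zero]
  · rw [t4, hf_add_left, hf_smul_left, h.2.1, (C.ve d hd).2, mul_zero, add_zero]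
  · rw [t4_adj, ← v_rf ha hd, h.2.2 _ (ha.rf (hd.xp 0) hd.y0), co_C hu ha (hd.xp 0) hd.y0]

theorem IsF.trans {u d : T.Pt} {w : Fin C.n → F4} (h : C.IsF u w) (hu : ¬ cm C.x u)
    (hd : C.A d) : C.IsF (d ◃ C.pt d 0 ◃ u) (w + C.v d) :=
  ⟨by rw [hf_add_left, h.1, (C.ve d hd).1, add_zero],
    by rw [hf_add_left, h.2.1, (C.ve d hd).2, add_zero],
    fun a ha => by rw [hf_add_left, h.2.2 a ha, C.vv d a hd ha, co_trans hu ha hd]⟩

theorem IsF.a {u d : T.Pt} {w : Fin C.n → F4} (h : C.IsF u w) (hu : ¬ cm C.x u) (hd : C.A d) :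
    C.IsF (d ◃ u) (t4 (C.v d) w + C.v d) := by
  have := (h.c hu hd).trans (ncm_rf_of_cm (hd.xp 0) hu) hd
  rwa [rf_rf] at this

theorem exists_isF {u : T.Pt} (hu : ¬ cm C.x u) : ∃ w, C.IsF u w := by
  refine C.std.ncm_induction C.big (S := {u | ∃ w, C.IsF u w}) C.hxy ⟨0, isF_y⟩ ?_ hu
  rintro u ⟨w, hw⟩ d h1 h2
  by_cases e : d = C.x
  · exact ⟨w, e ▸ hw.x h1⟩
  by_cases h3 : cm C.y d
  · obtain ⟨a, ha, rfl⟩ := exists_pt0 h2 h3
    exact ⟨_, hw.c h1 ha⟩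
  · exact ⟨_, hw.a h1 ⟨e, h2, h3⟩⟩

theorem IsF.eq_or {u u' : T.Pt} {w : Fin C.n → F4} (h : C.IsF u w) (h' : C.IsF u' w)
    (hu : ¬ cm C.x u) (hu' : ¬ cm C.x u') : u' = u ∨ u' = C.x ◃ u := by
  refine (C.std.mem_hyp C.big hu fun p h1 h2 => ?_).resolve_left fun e => hu' (e ▸ cm_refl _)
  obtain ⟨a, l, ha, rfl⟩ := exists_pt (fun e => hu (e ▸ h2.symm)) h1
  rw [← co_eq_iff hu' ha, ← h'.2.2 a ha, h.2.2 a ha, co_eq_iff hu ha]
  exact h2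

theorem dich_aux {g g' : Fin C.n → F4} (h : ∀ a, C.A a → ⟪g, C.v a⟫ = 0 ∨ ⟪g', C.v a⟫ = 0)
    {a a' : T.Pt} (ha : C.A a) (ha' : C.A a') (h1 : ⟪g, C.v a⟫ ≠ 0) (h2 : ⟪g', C.v a'⟫ ≠ 0) :
    cm a a' := by
  by_contra hn
  have h3 := (h a ha).resolve_left h1
  have h4 := (h a' ha').resolve_right h2
  have h5 : C.H a a' ≠ 0 := mt (H_eq_zero ha' ha).1 (ncm_symm hn)
  rcases h _ (ha.rf (ha'.xp 0) ha'.y0) with h6 | h6 <;>
    rw [v_rf ha ha', t4, hf_add_right, hf_smul_right, C.vv _ _ ha ha'] at h6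
  · rw [h4, mul_zero, add_zero] at h6; exact h1 h6
  · rw [h3, zero_add] at h6; exact mul_ne_zero (τ_ne_zero h5) h2 h6

theorem dich {g g' : Fin C.n → F4} (h : ∀ a, C.A a → ⟪g, C.v a⟫ = 0 ∨ ⟪g', C.v a⟫ = 0) :
    (∀ a, C.A a → ⟪g, C.v a⟫ = 0) ∨ ∀ a, C.A a → ⟪g', C.v a⟫ = 0 := by
  by_contra hn
  push Not at hn
  obtain ⟨⟨a, ha, h1⟩, a', ha', h2⟩ := hn
  obtain ⟨c, c1, c2, c3, c4⟩ := C.std.exists_ncm_ncm_perp C.big C.hxy (ha.xp 0) ha.y0 (ha'.xp 0)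
    ha'.y0
  obtain ⟨d, hd, rfl⟩ := exists_pt0 c1 c2
  rw [ha.cm_iff (hd.xp 0)] at c3
  rw [ha'.cm_iff (hd.xp 0)] at c4
  by_cases k1 : ⟪g, C.v d⟫ = 0
  swap
  · exact c4 ((hd.cm_iff ha'.2.1 0).2 (dich_aux h hd ha' k1 h2)).symm
  have := dich_aux h (ha.rf (hd.xp 0) hd.y0) ha' (by
    rwa [v_rf ha hd, t4, hf_add_right, hf_smul_right, k1, mul_zero, add_zero]) h2
  exact ncm_rf_of_cm' c4 (dich_aux h ha ha' h1 h2).symm (ncm_symm c3) this.symm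

variable (C) in
open Classical in
/-- the component of `u` orthogonal to the hyperbolic pair -/
noncomputable def fu (u : T.Pt) : Fin C.n → F4 := if h : ∃ w, C.IsF u w then h.choose else 0

theorem isF_fu {u : T.Pt} (hu : ¬ cm C.x u) : C.IsF u (C.fu u) := by
  rw [fu, dif_pos (exists_isF hu)]; exact (exists_isF hu).choose_spec

theorem IsF.fu_eq {u : T.Pt} {w : Fin C.n → F4} (h : C.IsF u w) (hu : ¬ cm C.x u) :
    C.fu u = w := (isF_fu hu).unique h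

variable (C) in
/-- points commuting with no point of the hyperbolic line -/
def Gen (u : T.Pt) : Prop := ¬ cm C.x u ∧ ¬ cm C.y u ∧ ¬ cm C.z u

omit [Finite G] in
theorem Gen.x {u : T.Pt} (h : C.Gen u) : C.Gen (C.x ◃ u) :=
  ⟨by rw [cm_rf_self_left]; exact h.1, by rw [cm_rf_right]; exact h.2.2,
    by rw [cm_rf_right, C.x_z]; exact h.2.1⟩

omit [Finite G] in
theorem Gen.z {u : T.Pt} (h : C.Gen u) : C.Gen (C.z ◃ u) :=
  ⟨by rw [cm_rf_right, C.z_x]; exact h.2.1, by rw [cm_rf_right, C.z_y]; exact h.1,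
    by rw [cm_rf_self_left]; exact h.2.2⟩

theorem Gen.fu_ne {u : T.Pt} (h : C.Gen u) : C.fu u ≠ 0 := fun e => by
  rcases isF_y.eq_or (e ▸ isF_fu h.1) C.hxy h.1 with e' | e'
  · exact h.2.1 (e' ▸ cm_refl _)
  · exact h.2.2 (e' ▸ cm_refl _)

theorem Gen.exists_nu {u : T.Pt} (h : C.Gen u) :
    ∃ ν : F4, ν ≠ 0 ∧ ν ≠ 1 ∧ C.fu u = ν • C.fu (C.z ◃ u) := by
  have h1 := isF_fu h.1
  have h2 := isF_fu h.z.1
  have key : ∀ α β : F4, (α = 0 ↔ β = 0) → (α = β → α = 0) →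
      α + F4.w * β = 0 ∨ α + F4.v * β = 0 := by decide
  have := dich (g := C.fu u + F4.w • C.fu (C.z ◃ u)) (g' := C.fu u + F4.v • C.fu (C.z ◃ u))
    (fun a ha => by
      simp only [hf_add_left, hf_smul_left, h1.2.2 a ha, h2.2.2 a ha]
      refine key _ _ ((co_eq_iff h.1 ha).trans (Iff.trans (by rw [cm_rf_left, ha.z0.rf_eq])
        (co_eq_iff h.z.1 ha).symm)) fun e => ?_
      by_contra h0
      have k1 := co_spec h.1 ha
      have k2 := co_spec h.z.1 ha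
      rw [← e] at k2
      have k3 := k1.symm.rf_right k2.symm
      rw [rf_rf_swap h.2.2] at k3
      exact (ha.pt h0).nz k3.symm)
  have fin : ∀ ν : F4, (∀ a, C.A a → ⟪C.fu u + ν • C.fu (C.z ◃ u), C.v a⟫ = 0) →
      C.fu u = ν • C.fu (C.z ◃ u) := fun ν hν =>
    sep (by rw [hf_smul_left, h1.1, h2.1, mul_zero]) (by rw [hf_smul_left, h1.2.1, h2.2.1, mul_zero])
      fun a ha => by
        have := hν a ha
        rwa [hf_add_left, CharTwo.add_eq_zero] at this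
  exact this.elim (fun k => ⟨F4.w, by decide, by decide, fin F4.w k⟩)
    (fun k => ⟨F4.v, by decide, by decide, fin F4.v k⟩)

variable (C) in
open Classical in
/-- the first coordinate of `u` -/
noncomputable def nu (u : T.Pt) : F4 :=
  if cm C.y u then 0 else if cm C.z u then 1 else
    if h : ∃ ν : F4, ν ≠ 0 ∧ ν ≠ 1 ∧ C.fu u = ν • C.fu (C.z ◃ u) then h.choose else 0

omit [Finite G] in
theorem nu_y {u : T.Pt} (h : cm C.y u) : C.nu u = 0 := if_pos h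

omit [Finite G] in
theorem nu_z {u : T.Pt} (hu : ¬ cm C.x u) (h : cm C.z u) : C.nu u = 1 := by
  rw [nu, if_neg, if_pos h]
  intro h'
  have := h.symm.rf_right h'.symm
  rw [C.z_y] at this
  exact hu this.symm

theorem Gen.nu_spec {u : T.Pt} (h : C.Gen u) :
    C.nu u ≠ 0 ∧ C.nu u ≠ 1 ∧ C.fu u = C.nu u • C.fu (C.z ◃ u) := by
  rw [nu, if_neg h.2.1, if_neg h.2.2, dif_pos h.exists_nu]
  exact h.exists_nu.choose_spec

theorem Gen.nu_eq {u : T.Pt} (h : C.Gen u) {ν : F4} (e : C.fu u = ν • C.fu (C.z ◃ u)) :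
    C.nu u = ν := smul_left_injective F4 h.z.fu_ne (h.nu_spec.2.2.symm.trans e)

theorem nu_eq_zero {u : T.Pt} (hu : ¬ cm C.x u) : C.nu u = 0 ↔ cm C.y u := by
  refine ⟨fun e => ?_, nu_y⟩
  by_contra h1
  by_cases h2 : cm C.z u
  · rw [nu_z hu h2] at e; exact one_ne_zero e
  · exact (Gen.nu_spec ⟨hu, h1, h2⟩).1 e

theorem nu_eq_one {u : T.Pt} (hu : ¬ cm C.x u) : C.nu u = 1 ↔ cm C.z u := by
  refine ⟨fun e => ?_, nu_z hu⟩
  by_contra h2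
  by_cases h1 : cm C.y u
  · rw [nu_y h1] at e; exact zero_ne_one e
  · exact (Gen.nu_spec ⟨hu, h1, h2⟩).2.1 e

theorem gen_of_nu {u : T.Pt} (hu : ¬ cm C.x u) (h0 : C.nu u ≠ 0) (h1 : C.nu u ≠ 1) : C.Gen u :=
  ⟨hu, mt (nu_eq_zero hu).2 h0, mt (nu_eq_one hu).2 h1⟩

theorem fu_x {u : T.Pt} (hu : ¬ cm C.x u) : C.fu (C.x ◃ u) = C.fu u :=
  ((isF_fu hu).x hu).fu_eq (by rwa [cm_rf_self_left])

theorem nu_x {u : T.Pt} (hu : ¬ cm C.x u) : C.nu (C.x ◃ u) = C.nu u + 1 := by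
  have hu' : ¬ cm C.x (C.x ◃ u) := by rwa [cm_rf_self_left]
  by_cases h1 : cm C.y u
  · rw [nu_y h1, nu_z hu' (by rw [UCtx.z, cm_rf]; exact h1), zero_add]
  by_cases h2 : cm C.z u
  · rw [nu_z hu h2, nu_y (by rw [cm_rf_right]; exact h2), F4.add_self]
  have h : C.Gen u := ⟨hu, h1, h2⟩
  have k1 := h.nu_spec
  have k2 := h.x.nu_spec
  have key : ∀ α β : F4, α ≠ 0 → α ≠ 1 → β ≠ 0 → β ≠ 1 → α ≠ β → α = β + 1 := by decide
  refine key _ _ k2.1 k2.2.1 k1.1 k1.2.1 fun e => ?_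
  have e1 : C.fu (C.z ◃ C.x ◃ u) = C.fu (C.z ◃ u) :=
    smul_right_injective _ k1.1 (by
      simp only
      rw [← k1.2.2, ← e, ← k2.2.2, fu_x hu])
  rcases (isF_fu h.z.1).eq_or (e1 ▸ isF_fu h.x.z.1) h.z.1 h.x.z.1 with e2 | e2
  · exact rf_ne_right hu (rf_left_cancel e2)
  · have e3 : C.x ◃ C.z ◃ C.x ◃ u = C.z ◃ C.x ◃ C.z ◃ u := by
      rw [← rf_rf_left, ← rf_rf_left, rf_comm C.hxz]
    rw [← e2, rf_rf, e2, rf_rf] at e3
    exact C.hxz (rf_inj_left h2 hu e3 ▸ cm_refl _)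

theorem fu_c {u d : T.Pt} (hu : ¬ cm C.x u) (hd : C.A d) :
    C.fu (C.pt d 0 ◃ u) = t4 (C.v d) (C.fu u) :=
  ((isF_fu hu).c hu hd).fu_eq (ncm_rf_of_cm (hd.xp 0) hu)

theorem fu_a {u d : T.Pt} (hu : ¬ cm C.x u) (hd : C.A d) :
    C.fu (d ◃ u) = t4 (C.v d) (C.fu u) + C.v d :=
  ((isF_fu hu).a hu hd).fu_eq (ncm_rf_of_cm hd.2.1 hu)

theorem fu_za {a : T.Pt} (ha : C.A a) : C.fu (C.z ◃ a) = C.v a := (isF_za ha).fu_eq ha.nxz

theorem fu_ya {a : T.Pt} (ha : C.A a) : C.fu (C.y ◃ a) = C.v a := by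
  rw [ha.y_eq, fu_x ha.nxz, fu_za ha]

theorem nu_c {u d : T.Pt} (hu : ¬ cm C.x u) (hd : C.A d) : C.nu (C.pt d 0 ◃ u) = C.nu u := by
  have hu' := ncm_rf_of_cm (hd.xp 0) hu
  by_cases h1 : cm C.y u
  · rw [nu_y h1, nu_y (hd.y0.rf_right h1)]
  by_cases h2 : cm C.z u
  · rw [nu_z hu h2, nu_z hu' (hd.z0.rf_right h2)]
  have h : C.Gen u := ⟨hu, h1, h2⟩
  refine Gen.nu_eq ⟨hu', ncm_rf_of_cm hd.y0 h1, ncm_rf_of_cm hd.z0 h2⟩ ?_
  rw [hd.z0.rf_rf_comm, fu_c hu hd, fu_c h.z.1 hd, ← t4_smul, ← h.nu_spec.2.2]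

theorem Gen.nu_z {u : T.Pt} (h : C.Gen u) : C.nu (C.z ◃ u) = τ (C.nu u) := by
  refine h.z.nu_eq ?_
  rw [rf_rf, h.nu_spec.2.2, smul_smul, τ_mul_self h.nu_spec.1, one_smul]

variable (C) in
open Classical in
/-- the embedding -/
noncomputable def ψ (p : T.Pt) : Fin C.n → F4 :=
  if cm C.x p then
    if p = C.x then C.e else
      if h : ∃ a, C.A a ∧ C.pt a 0 = p then C.v h.choose else C.e + C.v p
  else C.nu p • C.e + C.fu p + C.f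

omit [Finite G] in
theorem ψ_x : C.ψ C.x = C.e := by simp [ψ]

omit [Finite G] in
theorem ψ_A {a : T.Pt} (ha : C.A a) : C.ψ a = C.e + C.v a := by
  rw [ψ, if_pos ha.2.1, if_neg ha.1, dif_neg]
  rintro ⟨b, hb, rfl⟩
  exact ha.2.2 hb.y0

omit [Finite G] in
theorem ψ_N {u : T.Pt} (hu : ¬ cm C.x u) : C.ψ u = C.nu u • C.e + C.fu u + C.f := if_neg hu

theorem ψ_pt {a : T.Pt} (ha : C.A a) (l : F4) : Par (C.v a + τ l • C.e) (C.ψ (C.pt a l)) := by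
  by_cases hl : l = 0
  · subst hl
    have h : ∃ b, C.A b ∧ C.pt b 0 = C.pt a 0 := ⟨a, ha, rfl⟩
    rw [ψ, if_pos (ha.xp 0), if_neg (ha.ne 0), dif_pos h, map_zero, zero_smul, add_zero]
    obtain ⟨hb, e⟩ := h.choose_spec
    set b := h.choose
    obtain ⟨m, hm⟩ := ha.surj (q := b) (by
      rw [← C.std.ln_eq ha.ln (left_mem_Ln _ _) (ha.mem 0) (ha.ne 0).symm, ← e,
        C.std.ln_eq hb.ln (left_mem_Ln _ _) (hb.mem 0) (hb.ne 0).symm]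
      exact right_mem_Ln _ _) hb.1
    have hm0 : m ≠ 0 := by
      rintro rfl
      exact hb.2.2 (hm ▸ ha.y0)
    exact ⟨m, hm0, by rw [← hm, v_pt ha hm0]⟩
  · refine ⟨l, hl, ?_⟩
    rw [ψ_A (ha.pt hl), v_pt ha hl, smul_add, smul_smul, mul_τ_self hl, one_smul, add_comm]

theorem ψ_pt0 {a : T.Pt} (ha : C.A a) : Par (C.v a) (C.ψ (C.pt a 0)) := by
  simpa using ψ_pt ha 0

theorem ψ_y : C.ψ C.y = C.f := by
  rw [ψ_N C.hxy, nu_y (cm_refl _), isF_y.fu_eq C.hxy]; simp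

theorem ψ_z : C.ψ C.z = C.e + C.f := by
  rw [ψ_N C.hxz, nu_z C.hxz (cm_refl _), isF_z.fu_eq C.hxz]; simp

theorem ψ_ya {a : T.Pt} (ha : C.A a) : C.ψ (C.y ◃ a) = C.e + C.v a + C.f := by
  rw [ψ_N ha.nxy, fu_ya ha, nu_z ha.nxy (by rw [← C.y_x, cm_rf]; exact ha.2.1), one_smul]

theorem ψ_za {a : T.Pt} (ha : C.A a) : C.ψ (C.z ◃ a) = C.v a + C.f := by
  rw [ψ_N ha.nxz, fu_za ha, nu_y (by rw [cm_rf_right, C.z_y]; exact ha.2.1), zero_smul, zero_add]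

theorem ψN_e {u : T.Pt} (hu : ¬ cm C.x u) : ⟪C.ψ u, C.e⟫ = 1 := by
  simp only [ψ_N hu, hf_add_left, hf_smul_left, C.ee, (isF_fu hu).1, fe]; simp

theorem ψN_f {u : T.Pt} (hu : ¬ cm C.x u) : ⟪C.ψ u, C.f⟫ = C.nu u := by
  simp only [ψ_N hu, hf_add_left, hf_smul_left, C.ef, (isF_fu hu).2.1, C.ff]; simp

theorem ψN_v {u a : T.Pt} (hu : ¬ cm C.x u) (ha : C.A a) : ⟪C.ψ u, C.v a⟫ = C.co u a := by
  simp only [ψ_N hu, hf_add_left, hf_smul_left, hf4_comm (C.ve a ha).1, (isF_fu hu).2.2 a ha,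
    hf4_comm (C.ve a ha).2]; simp

variable (C) in
/-- orthogonality to `q` is commuting with `q` -/
def Perp (q : T.Pt) : Prop := ∀ p, cm p q ↔ ⟪C.ψ p, C.ψ q⟫ = 0

variable (C) in
/-- compatibility of the reflection in `d` -/
def Cmp (d p : T.Pt) : Prop := Par (t4 (C.ψ d) (C.ψ p)) (C.ψ (d ◃ p))

theorem perp_x : C.Perp C.x := fun p => by
  rw [ψ_x]
  by_cases h : cm C.x p
  · refine iff_of_true h.symm ?_
    by_cases e : p = C.x
    · rw [e, ψ_x, C.ee]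
    obtain ⟨a, l, ha, rfl⟩ := exists_pt e h
    rw [← par_hf_left (ψ_pt ha l), hf_add_left, hf_smul_left, C.ee, (C.ve a ha).1]; simp
  · rw [ψN_e h]; exact iff_of_false (ncm_symm h) one_ne_zero

theorem perp_of_cm {q : T.Pt} (hq : cm C.x q) : C.Perp q := fun p => by
  by_cases e : q = C.x
  · rw [e]; exact perp_x p
  obtain ⟨b, m, hb, rfl⟩ := exists_pt e hq
  rw [← par_hf_right (ψ_pt hb m), hf_add_right, hf_smul_right, τ_τ]
  by_cases h : cm C.x p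
  · have h1 := (perp_x p).1 h.symm
    rw [ψ_x] at h1
    rw [h1, mul_zero, add_zero]
    by_cases e' : p = C.x
    · rw [e', ψ_x, hf4_comm (C.ve b hb).1]; exact iff_of_true hq rfl
    obtain ⟨a, l, ha, rfl⟩ := exists_pt e' h
    rw [← par_hf_left (ψ_pt ha l), hf_add_left, hf_smul_left, hf4_comm (C.ve b hb).1, mul_zero,
      add_zero, C.vv a b ha hb, H_eq_zero hb ha, ha.cm_iff2 hb, cm_comm]
  · rw [ψN_e h, ψN_v h hb, mul_one, CharTwo.add_eq_zero, co_eq_iff h hb]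

theorem perp_y : C.Perp C.y := fun p => by
  rw [ψ_y]
  by_cases h : cm C.x p
  · by_cases e : p = C.x
    · rw [e, ψ_x, C.ef]; exact iff_of_false C.hxy one_ne_zero
    obtain ⟨a, l, ha, rfl⟩ := exists_pt e h
    rw [← par_hf_left (ψ_pt ha l), hf_add_left, hf_smul_left, C.ef, (C.ve a ha).2, zero_add,
      mul_one, map_eq_zero]
    exact ⟨fun k => by_contra fun hl => (ha.pt hl).2.2 k.symm, fun k => k ▸ ha.y0.symm⟩
  · rw [ψN_f h, nu_eq_zero h, cm_comm]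

omit [Finite G] in
theorem Perp.iso {d : T.Pt} (h : C.Perp d) : ⟪C.ψ d, C.ψ d⟫ = 0 := (h d).1 (cm_refl d)

omit [Finite G] in
theorem Perp.cmp {d p : T.Pt} (h : C.Perp d) (hc : cm d p) : C.Cmp d p := by
  rw [Cmp, t4_of_perp ((h p).1 hc.symm), hc.rf_eq]; exact Par.refl _

omit [Finite G] in
theorem Perp.cmp_rf {d p : T.Pt} (h : C.Perp d) (hc : C.Cmp d p) : C.Cmp d (d ◃ p) := by
  have := (t4_par (C.ψ d) hc).symm
  rwa [t4_t4 h.iso, ← rf_rf d p, rf_rf d (d ◃ p)] at this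

omit [Finite G] in
theorem Perp.rf {d a : T.Pt} (hd : C.Perp d) (hc : ∀ p, C.Cmp d p) (ha : C.Perp a) :
    C.Perp (d ◃ a) := fun p => by
  rw [cm_rf_right, ha, ← par_hf_left (hc p), ← par_hf_right (hc a), t4_adj]

omit [Finite G] in
theorem cmp_rf {d a : T.Pt} (hd : C.Perp d) (hc : ∀ p, C.Cmp d p) (ha : ∀ p, C.Cmp a p)
    (p : T.Pt) : C.Cmp (d ◃ a) p := by
  rw [Cmp, t4_of_par (hc a), t4_conj hd.iso, rf_rf_left]
  exact ((t4_par _ (t4_par _ (hc p))).trans (t4_par _ (ha _))).trans (hc _)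

theorem cmp_x (p : T.Pt) : C.Cmp C.x p := by
  by_cases h : cm C.x p
  · exact perp_x.cmp h
  rw [Cmp, ψ_x, t4, ψN_e h, ψ_N (u := C.x ◃ p) (by rwa [cm_rf_self_left]), fu_x h, nu_x h, ψ_N h]
  exact ⟨1, one_ne_zero, by module⟩

theorem cmp_c {d : T.Pt} (hd : C.A d) (p : T.Pt) : C.Cmp (C.pt d 0) p := by
  rw [Cmp, t4_of_par (ψ_pt0 hd)]
  by_cases h : cm C.x p
  · by_cases e : p = C.x
    · rw [e, (hd.xp 0).rf_eq', ψ_x, t4_of_perp (hf4_comm (C.ve d hd).1)]; exact Par.refl _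
    obtain ⟨a, l, ha, rfl⟩ := exists_pt e h
    rw [ha.rf_pt (hd.xp 0) hd.y0]
    refine (t4_par _ (ψ_pt ha l).symm).trans ?_
    rw [t4_add, t4_smul, t4_of_perp (hf4_comm (C.ve d hd).1), ← v_rf ha hd]
    exact ψ_pt (ha.rf (hd.xp 0) hd.y0) l
  · rw [ψ_N (ncm_rf_of_cm (hd.xp 0) h), ψ_N h, fu_c h hd, nu_c h hd, t4_add, t4_add, t4_smul,
      t4_of_perp (hf4_comm (C.ve d hd).1), t4_of_perp (hf4_comm (C.ve d hd).2)]
    exact Par.refl _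

theorem cmp_y_of_cm {p : T.Pt} (h : cm C.x p) : C.Cmp C.y p := by
  by_cases h1 : cm C.y p
  · exact perp_y.cmp h1
  rw [Cmp, ψ_y]
  by_cases e : p = C.x
  · rw [e, C.y_x, ψ_z, ψ_x, t4, C.ef, one_smul]; exact Par.refl _
  have ha : C.A p := ⟨e, h, h1⟩
  rw [ψ_ya ha, ψ_A ha, t4, hf_add_left, C.ef, (C.ve p ha).2, add_zero, one_smul]
  exact Par.refl _

theorem cmp_y (p : T.Pt) : C.Cmp C.y p := by
  by_cases h : cm C.x p
  · exact cmp_y_of_cm h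
  by_cases h1 : cm C.y p
  · exact perp_y.cmp h1
  by_cases h2 : cm C.z p
  · have := perp_y.cmp_rf (cmp_y_of_cm (p := C.y ◃ p) (by rw [cm_rf_right, C.y_x]; exact h2))
    rwa [rf_rf] at this
  have hg : C.Gen p := ⟨h, h1, h2⟩
  have e : C.y ◃ p = C.x ◃ C.z ◃ C.x ◃ p := by rw [← rf_rf_left, C.x_z]
  have k1 := hg.x.nu_spec
  rw [fu_x h, nu_x h] at k1
  rw [Cmp, ψ_y, t4, ψN_f h, e, ψ_N hg.x.z.x.1, fu_x hg.x.z.1, nu_x hg.x.z.1, hg.x.nu_z, nu_x h,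
    ψ_N h, k1.2.2]
  refine Par.symm ⟨C.nu p + 1, k1.1, ?_⟩
  have key : ∀ ν : F4, ν + 1 ≠ 0 → ν = (ν + 1) * (τ (ν + 1) + 1) := by decide
  rw [smul_add, smul_add, smul_smul, ← key _ k1.1]
  module

theorem perp_z : C.Perp C.z := perp_x.rf cmp_x perp_y

theorem cmp_z (p : T.Pt) : C.Cmp C.z p := cmp_rf perp_x cmp_x cmp_y p

theorem rf_z_pt {d : T.Pt} (hd : C.A d) {β : F4} (h0 : β ≠ 0) (h1 : β ≠ 1) :
    d ◃ C.z ◃ C.pt d β = C.y ◃ C.pt d (τ β) := by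
  have h2 := hd.pt h0
  have h3 := hd.pt (τ_ne_zero h0)
  have hne : C.pt d β ≠ C.pt d (τ β) := fun e => by
    have key : ∀ β : F4, β ≠ 0 → β ≠ 1 → β ≠ τ β := by decide
    exact key β h0 h1 (hd.inj e)
  have hq := C.std.rf_rf_mem C.big hd.ln (hd.mem 0) (hd.mem β) (hd.mem (τ β)) hne hd.y0 h2.2.2
    h3.2.2
  obtain ⟨b, hb, hb0, e⟩ := C.std.exists_rf_rf_eq C.big hd.ln (hd.mem 0) (left_mem_Ln _ _) hd.y0
    (ncm_symm C.hxy) hq (fun e => h2.2.2 (by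
      have := hd.cm_pt β 0
      rw [← e, cm_rf_self_left, cm_rf_of_cm (hd.cm_pt _ _)] at this
      exact this.symm))
  have hbd : b = d := by
    by_cases hbx : b = C.x
    · rw [hbx, rf_rf] at e
      exact absurd e.symm (rf_rf_ne hne h2.2.2 h3.2.2)
    obtain ⟨m, rfl⟩ := hd.surj hb hbx
    have key : ∀ β m : F4, β ≠ 0 → β ≠ 1 → m ≠ 0 → m = 1 ∨ m = β ∨ m = τ β := by decide
    rcases key β m h0 h1 (fun e' => hb0 (by rw [e'])) with rfl | rfl | rfl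
    · exact hd.one
    · rw [(hd.xp _).rf_rf_comm] at e
      exact absurd (rf_inj_left C.hxy (ncm_symm h3.2.2) (rf_left_cancel e)).symm h3.1
    · rw [(hd.xp _).rf_rf_comm, (hd.cm_pt β _).rf_rf_comm] at e
      exact absurd (rf_inj_left C.hxy (ncm_symm h2.2.2) (rf_left_cancel e)).symm h2.1
  rw [hbd] at e
  have e1 : C.z ◃ C.pt d β = C.x ◃ C.pt d β ◃ C.y := by
    rw [← rf_comm h2.2.2, h2.y_eq, rf_rf]
  have hc : cm d (C.pt d β) := (hd.mem β d hd.2.1 (cm_refl d)).symm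
  rw [e1, rf_comm h3.2.2, hd.2.1.symm.rf_rf_comm, hc.rf_rf_comm, h2.2.1.rf_rf_comm, e, rf_rf]

theorem nu_line {u d : T.Pt} (hd : C.A d) (hu : C.Gen u) (hc : cm u (C.pt d 0))
    (hv : C.Gen (C.x ◃ d ◃ u)) : C.nu (C.x ◃ d ◃ u) = C.nu u := by
  have h0 : C.co u d = 0 := co_eq hu.1 hd hc
  have hud : ¬ cm u d := fun e => by
    rw [co_eq hu.1 hd (hd.one.symm ▸ e)] at h0; exact one_ne_zero h0
  have h1 := C.std.rf_rf_mem C.big hd.ln (hd.mem 0) (left_mem_Ln _ _) (right_mem_Ln _ _) hd.1.symm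
    hc (ncm_symm hu.1) hud
  have h2 := (smul_mem_Ln C.z.val).2 h1
  rw [← rf_def, ← rf_def, ← rf_def, hd.z0.rf_eq] at h2
  have hc' : cm (C.z ◃ u) (C.pt d 0) := (hd.z0.symm.rf_right hc.symm).symm
  obtain ⟨b, hb, hb0, e⟩ := C.std.exists_rf_rf_eq C.big hd.ln (hd.mem 0) (left_mem_Ln _ _) hc'
    (ncm_symm hu.z.1) h2 (fun e => hv.z.1 (e ▸ hd.xp 0))
  obtain ⟨μ, hμ⟩ : ∃ μ : F4, C.fu (C.z ◃ C.x ◃ d ◃ u) = C.fu (C.z ◃ u) + μ • C.v d := by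
    by_cases hbx : b = C.x
    · exact ⟨0, by rw [← e, hbx, rf_rf, zero_smul, add_zero]⟩
    obtain ⟨m, rfl⟩ := hd.surj hb hbx
    have hm : m ≠ 0 := fun e' => hb0 (by rw [e'])
    refine ⟨m, ?_⟩
    rw [← e, fu_x (ncm_rf_of_cm (hd.xp m) hu.z.1), fu_a hu.z.1 (hd.pt hm), t4_of_perp, v_pt hd hm]
    rw [(isF_fu hu.z.1).2.2 _ (hd.pt hm), co_pt hu.z.1 hd hm, co_eq hu.z.1 hd hc', mul_zero]
  have k1 := hu.nu_spec
  have k2 := hv.nu_spec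
  rw [hμ, fu_x (ncm_rf_of_cm hd.2.1 hu.1), fu_a hu.1 hd,
    t4_of_perp (by rw [(isF_fu hu.1).2.2 d hd, h0]), k1.2.2] at k2
  by_contra hn
  have key : ∀ α β : F4, α ≠ 0 → α ≠ 1 → β ≠ 0 → β ≠ 1 → α ≠ β → α = β + 1 := by decide
  have k3 := k2.2.2
  rw [key _ _ k2.1 k2.2.1 k1.1 k1.2.1 hn] at k3
  have k4 : C.fu (C.z ◃ u) = (1 - (C.nu u + 1) * μ) • C.v d := by
    rw [← sub_eq_zero] at k3 ⊢
    rw [← neg_eq_zero, ← k3]; module
  have k5 : 1 - (C.nu u + 1) * μ ≠ 0 := fun e' => hu.z.fu_ne (by rw [k4, e', zero_smul])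
  rw [← v_pt hd k5] at k4
  have h3 := hd.pt k5
  rcases (isF_za h3).eq_or (k4 ▸ isF_fu hu.z.1) h3.nxz hu.z.1 with e2 | e2
  · exact hu.1 (rf_left_cancel e2 ▸ h3.2.1)
  · rw [← h3.y_eq] at e2
    apply hu.z.2.2
    rw [e2, ← C.y_x, cm_rf]; exact h3.2.1

theorem nu_a {u d : T.Pt} (hu : ¬ cm C.x u) (hd : C.A d) :
    C.nu (d ◃ u) = C.nu u + C.co u d + 1 := by
  have hv := ncm_rf_of_cm hd.2.1 hu
  have py : ∀ {a}, C.A a → (cm u (C.y ◃ a) ↔ C.nu u + C.co u a + 1 = 0) := fun ha => by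
    rw [perp_y.rf cmp_y (perp_of_cm ha.2.1), ψ_ya ha, hf_add_right, hf_add_right, ψN_e hu,
      ψN_f hu, ψN_v hu ha]
    constructor <;> intro h <;> linear_combination h
  have a0 : C.nu (d ◃ u) = 0 ↔ C.nu u + C.co u d + 1 = 0 := by
    rw [nu_eq_zero hv, cm_rf_right, ← rf_comm hd.2.2, cm_comm, py hd]
  have a1 : C.nu (d ◃ u) = 1 ↔ C.nu u + C.co u d + 1 = 1 := by
    rw [nu_eq_one hv, cm_rf_right, ← rf_comm hd.nz, cm_comm,
      perp_z.rf cmp_z (perp_of_cm hd.2.1), ψ_za hd, hf_add_right, ψN_f hu, ψN_v hu hd]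
    constructor <;> intro h <;> linear_combination h
  by_cases b0 : C.nu (d ◃ u) = 0
  · rw [b0, a0.1 b0]
  by_cases b1 : C.nu (d ◃ u) = 1
  · rw [b1, a1.1 b1]
  have hg := gen_of_nu hv b0 b1
  by_cases c0 : C.co u d = 0
  · rw [c0, add_zero] at a0 a1 ⊢
    have hgu : C.Gen u := gen_of_nu hu (fun e => b1 (a1.2 (by rw [e, zero_add])))
      (fun e => b0 (a0.2 (by rw [e, F4.add_self])))
    rw [← nu_line hd hgu ((co_eq_iff hu hd).1 c0) hg.x, nu_x hv, add_assoc, F4.add_self, add_zero]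
  by_cases c1 : C.co u d = 1
  · have := (co_eq_iff hu hd).1 c1
    rw [hd.one] at this
    rw [this.rf_eq', c1, add_assoc, F4.add_self, add_zero]
  have e1 : C.co u d = C.nu (d ◃ u) * C.co (C.z ◃ d ◃ u) d := by
    rw [← (isF_fu hg.z.1).2.2 d hd, ← hf_smul_left, ← hg.nu_spec.2.2, fu_a hu hd, hf_add_left,
      t4_adj, t4_of_perp (vv_self hd), vv_self hd, add_zero, (isF_fu hu).2.2 d hd]
  have e2 := co_spec hg.z.1 hd
  rw [cm_rf_left, cm_rf_left] at e2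
  set β := C.co (C.z ◃ d ◃ u) d
  have β0 : β ≠ 0 := fun e => c0 (by rw [e1, e, mul_zero])
  by_cases β1 : β = 1
  · rw [β1, hd.one, rf_rf_swap hd.nz] at e2
    rw [β1, mul_one] at e1
    rw [nu_z hu e2.symm, e1, add_right_comm, F4.add_self, zero_add]
  · rw [rf_z_pt hd β0 β1, py (hd.pt (τ_ne_zero β0)), co_pt hu hd (τ_ne_zero β0), τ_τ] at e2
    have key : ∀ ν ν' β : F4, β ≠ 0 → β ≠ 1 → ν + β * (ν' * β) + 1 = 0 → ν' = ν + ν' * β + 1 := by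
      decide
    rw [e1] at e2 ⊢
    exact key _ _ _ β0 β1 e2

theorem cmp_a {d : T.Pt} (hd : C.A d) (p : T.Pt) : C.Cmp d p := by
  by_cases h : cm C.x p
  · by_cases e : p = C.x
    · exact (perp_of_cm hd.2.1).cmp (e ▸ hd.2.1.symm)
    obtain ⟨a, l, ha, rfl⟩ := exists_pt e h
    have ha' := ha.rf (hd.xp 0) hd.y0
    have e1 := trans_pt ha' hd l
    rw [← ha.rf_pt (hd.xp 0) hd.y0, rf_rf] at e1
    rw [Cmp, e1, ψ_A hd]
    refine (t4_par _ (ψ_pt ha l).symm).trans ?_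
    convert ψ_pt ha' _ using 1
    rw [← C.vv _ _ hd ha', map_add, hf4_conj, v_rf ha hd, t4_adj, t4_of_perp (vv_self hd), t4, t4]
    simp only [hf_add_left, hf_add_right, hf_smul_left, C.ee, (C.ve a ha).1,
      hf4_comm (C.ve d hd).1]
    module
  · rw [Cmp, ψ_N (ncm_rf_of_cm hd.2.1 h), fu_a h hd, nu_a h hd, ψ_A hd, t4, hf_add_right, ψN_e h,
      ψN_v h hd, ψ_N h, t4, (isF_fu h).2.2 d hd]
    exact ⟨1, one_ne_zero, by module⟩

theorem cmp_of_cm {d : T.Pt} (hd : cm C.x d) (p : T.Pt) : C.Cmp d p := by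
  by_cases e : d = C.x
  · rw [e]; exact cmp_x p
  by_cases h : cm C.y d
  · obtain ⟨a, ha, rfl⟩ := exists_pt0 hd h
    exact cmp_c ha p
  · exact cmp_a ⟨e, hd, h⟩ p

theorem good (d : T.Pt) : C.Perp d ∧ ∀ p, C.Cmp d p := by
  by_cases h : cm C.x d
  · exact ⟨perp_of_cm h, cmp_of_cm h⟩
  exact C.std.ncm_induction C.big (S := {d | C.Perp d ∧ ∀ p, C.Cmp d p}) C.hxy ⟨perp_y, cmp_y⟩
    (fun u hu d _ hd => ⟨(perp_of_cm hd).rf (cmp_of_cm hd) hu.1,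
      cmp_rf (perp_of_cm hd) (cmp_of_cm hd) hu.2⟩) h

theorem exists_fu_eq {w : Fin C.n → F4} (h1 : ⟪w, C.e⟫ = 0) (h2 : ⟪w, C.f⟫ = 0) :
    ∃ u, ¬ cm C.x u ∧ C.fu u = w := by
  have key : ∀ w ∈ Submodule.span F4 ({C.e, C.f} ∪ C.v '' {a | C.A a}), ∀ c : F4, ∀ u,
      ¬ cm C.x u → ∃ u', ¬ cm C.x u' ∧
        C.fu u' = C.fu u + c • (w - ⟪w, C.f⟫ • C.e - ⟪w, C.e⟫ • C.f) := by
    intro w hw
    induction hw using Submodule.span_induction with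
    | mem x hx =>
      intro c u hu
      rcases hx with (rfl | rfl) | ⟨a, ha, rfl⟩
      · exact ⟨u, hu, by rw [C.ee, C.ef]; module⟩
      · exact ⟨u, hu, by rw [C.ff, fe]; module⟩
      · rw [(C.ve a ha).1, (C.ve a ha).2]
        by_cases hc : c = 0
        · exact ⟨u, hu, by rw [hc]; module⟩
        · have ha' := A.pt ha hc
          have hu' := ncm_rf_of_cm ha'.2.1 (ncm_rf_of_cm (ha'.xp 0) hu)
          exact ⟨_, hu', by rw [((isF_fu hu).trans hu ha').fu_eq hu', v_pt ha hc]; module⟩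
    | zero => exact fun c u hu => ⟨u, hu, by simp [hf_zero_left]⟩
    | add x y _ _ h1 h2 =>
      intro c u hu
      obtain ⟨u1, hu1, e1⟩ := h1 c u hu
      obtain ⟨u2, hu2, e2⟩ := h2 c u1 hu1
      exact ⟨u2, hu2, by rw [e2, e1, hf_add_left, hf_add_left]; module⟩
    | smul c' x _ h1 =>
      intro c u hu
      obtain ⟨u1, hu1, e1⟩ := h1 (c * c') u hu
      exact ⟨u1, hu1, by rw [e1, hf_smul_left, hf_smul_left]; module⟩
  obtain ⟨u, hu, e⟩ := key w (C.span w) 1 C.y C.hxy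
  exact ⟨u, hu, by rw [e, isF_y.fu_eq C.hxy, h1, h2]; module⟩

theorem surj_aux {w : Fin C.n → F4} (h0 : ⟪w, w⟫ = 0) (h1 : ⟪w, C.e⟫ = 1) : ∃ p, C.ψ p = w := by
  obtain ⟨u, hu, e⟩ := exists_fu_eq (w := w - ⟪w, C.f⟫ • C.e - C.f)
    (by simp only [hf_sub_left, hf_smul_left, h1, C.ee, fe]; ring)
    (by simp only [hf_sub_left, hf_smul_left, C.ef, C.ff]; ring)
  have e1 : w = C.ψ u + (⟪w, C.f⟫ - C.nu u) • C.e := by rw [ψ_N hu, e]; module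
  have h2 := (good (C := C) u).1.iso
  set l := ⟪w, C.f⟫ - C.nu u
  have h3 : ⟪C.e, C.ψ u⟫ = 1 := by rw [← hf4_conj, ψN_e hu, map_one]
  rw [e1] at h0
  simp only [hf_add_left, hf_add_right, hf_smul_left, hf_smul_right, h2, h3, ψN_e hu, C.ee] at h0
  have key : ∀ l : F4, 0 + l * 1 + τ l * (1 + l * 0) = 0 → l = 0 ∨ l = 1 := by decide
  rcases key l h0 with h4 | h4
  · exact ⟨u, by rw [e1, h4]; simp⟩
  · refine ⟨C.x ◃ u, ?_⟩
    rw [e1, h4, ψ_N (u := C.x ◃ u) (by rwa [cm_rf_self_left]), fu_x hu, nu_x hu, ψ_N hu]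
    module

theorem uemb : T.UEmb τ 1 C.ψ where
  ne p h0 := by
    obtain ⟨q, hq⟩ := C.std.exists_ncm p
    exact hq (((good (C := C) q).1 p).2 (by rw [h0, hf_zero_left]))
  cm_iff p q := (good q).1 p
  rf d p := (good d).2 p
  surj w hw h0 := by
    have key : ∀ w : Fin C.n → F4, ⟪w, w⟫ = 0 → ⟪w, C.e⟫ ≠ 0 → ∃ p, Par (C.ψ p) w := by
      intro w h0 h1
      obtain ⟨p, hp⟩ := surj_aux (C := C) (w := τ ⟪w, C.e⟫ • w)
        (by rw [hf_smul_left, hf_smul_right, h0]; simp) (by rw [hf_smul_left, τ_mul_self h1])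
      exact ⟨p, Par.symm ⟨_, τ_ne_zero h1, hp⟩⟩
    by_cases h1 : ⟪w, C.e⟫ = 0
    swap
    · exact key w h0 h1
    obtain ⟨d, hd, hwd⟩ : ∃ d, ¬ cm C.x d ∧ ⟪w, C.ψ d⟫ ≠ 0 := by
      by_contra hn
      push Not at hn
      have h2 := hn _ C.hxy
      rw [ψ_y] at h2
      refine hw (sep (by rw [h1, hf_zero_left]) (by rw [h2, hf_zero_left]) fun a ha => ?_)
      have := hn _ ha.nxz
      rw [ψ_za ha, hf_add_right, h2, add_zero] at this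
      rw [this, hf_zero_left]
    have h2 := (good (C := C) d).1.iso
    obtain ⟨p, hp⟩ := key (t4 (C.ψ d) w) (by rw [t4_isom h2]; exact h0)
      (by rwa [t4, hf_add_left, hf_smul_left, h1, ψN_e hd, zero_add, mul_one])
    have := t4_par (C.ψ d) hp
    rw [t4_t4 h2] at this
    exact ⟨d ◃ p, ((good d).2 p).symm.trans this⟩

theorem four_le : 4 ≤ C.n := by
  obtain ⟨c, hc1, hc2⟩ := C.std.exists_cm_cm C.x C.y
  obtain ⟨c', h1, h2, h3⟩ := C.std.exists_ncm_perp C.big C.hxy hc1 hc2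
  obtain ⟨a, ha, rfl⟩ := exists_pt0 hc1 hc2
  obtain ⟨b, hb, rfl⟩ := exists_pt0 h1 h2
  rw [ha.cm_iff2 hb] at h3
  have h4 : C.H a b ≠ 0 := mt (H_eq_zero hb ha).1 (ncm_symm h3)
  have h5 : C.H b a ≠ 0 := mt (H_eq_zero ha hb).1 h3
  have := card_le_of_gram (σ := (τ : F4 →+* F4)) (A := 1)
    (e := Sum.elim ![C.e, C.f] ![C.v a, C.v b])
    (G := fromBlocks !![0, 1; 1, 0] 0 0 !![0, C.H a b; C.H b a, 0])
    (by rw [det_fromBlocks_zero₂₁]; simp [det_fin_two, h4, h5]) (by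
      intro i j
      rw [← hf_def]
      rcases i with i | i <;> rcases j with j | j <;> fin_cases i <;> fin_cases j <;>
        simp [C.ee, C.ff, C.ef, fe, (C.ve a ha).1, (C.ve a ha).2, (C.ve b hb).1, (C.ve b hb).2,
          hf4_comm (C.ve a ha).1, hf4_comm (C.ve a ha).2, hf4_comm (C.ve b hb).1,
          hf4_comm (C.ve b hb).2, vv_self ha, vv_self hb, C.vv a b ha hb, C.vv b a hb ha])
  simpa using this

end UVec

theorem Std.exists_uemb_su [Finite G] (h : T.Std) (h5 : ∀ L : Set T.Pt, IsLn L → L.ncard = 5) :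
    ∃ (n : ℕ) (ψ : T.Pt → Fin n → F4), 4 ≤ n ∧ T.UEmb τ 1 ψ := by
  obtain ⟨x, y, hxy⟩ := h.ex_ncm
  obtain ⟨pt, hpt⟩ := h.exists_orient h5 hxy
  let C : UCtx T := ⟨x, y, pt, h, h5, hxy, hpt⟩
  obtain ⟨n, e, f, v, h1, h2, h3, h4, h6, h7⟩ := C.exists_vec
  let V : UVec T := ⟨C, n, e, f, v, h1, h2, h3, h4, h6, h7⟩
  exact ⟨n, V.ψ, V.four_le, V.uemb⟩

end TTC

end Cfsg.Agent.H3
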