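import Cfsg.Agent.H3.FischerOdd

/-! Classes of involutions whose products have order 1, 2 or p: basic lemmas. -/

namespace Cfsg.Agent.H3

variable {G : Type*} [Group G]

/-- A normal set of elements of order at most two, two of which commute or have a product of
order dividing `p`. -/
structure PT (p : ℕ) (D : Set G) : Prop where
  sq : ∀ d ∈ D, d * d = 1
  cj : ∀ g : G, ∀ d ∈ D, g * d * g⁻¹ ∈ D
  pr : ∀ a ∈ D, ∀ b ∈ D, Commute a b ∨ (a * b) ^ p = 1

/-- every path of length two in the non-commuting graph with commuting ends is of the first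
type -/
def PTI (D : Set G) : Prop :=
  ∀ a ∈ D, ∀ b ∈ D, ∀ c ∈ D, Commute a c → ¬ Commute a b → ¬ Commute c b →
    Commute b (a * c * b * (a * c)⁻¹)

theorem eq_of_sq_eq_of_odd {p : ℕ} (hp : Odd p) {r s : G} (hr : r ^ p = 1) (hs : s ^ p = 1)
    (h : r * r = s * s) : r = s := by
  obtain ⟨k, rfl⟩ := hp
  have h1 : ∀ t : G, t ^ (2 * k + 1) = 1 → t = (t * t) ^ (k + 1) := by
    intro t ht
    rw [← pow_two, ← pow_mul, show 2 * (k + 1) = (2 * k + 1) + 1 by ring, pow_succ, ht, one_mul]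
  rw [h1 r hr, h1 s hs, h]

theorem commute_of_sq_of_odd {p : ℕ} (hp : Odd p) {r t : G} (hr : r ^ p = 1)
    (h : Commute (r * r) t) : Commute r t := by
  obtain ⟨k, rfl⟩ := hp
  have h1 : r = (r * r) ^ (k + 1) := by
    rw [← pow_two, ← pow_mul, show 2 * (k + 1) = (2 * k + 1) + 1 by ring, pow_succ, hr, one_mul]
  rw [h1]
  exact h.pow_left _

theorem commute_of_mul_sq {a b : G} (ha : a * a = 1) (hb : b * b = 1)
    (h : a * b * (a * b) = 1) : Commute a b := by
  have h1 : (a * b)⁻¹ = a * b := inv_eq_of_mul_eq_one_right h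
  rw [mul_inv_rev, inv_eq_of_mul_eq_one_right ha, inv_eq_of_mul_eq_one_right hb] at h1
  exact h1.symm

theorem mul_sq_of_commute {a b : G} (ha : a * a = 1) (hb : b * b = 1) (h : Commute a b) :
    a * b * (a * b) = 1 := by
  rw [mul_assoc, ← mul_assoc b, ← h.eq, mul_assoc, hb, mul_one, ha]

theorem commute_iff_conj_eq {g x : G} : Commute g x ↔ g * x * g⁻¹ = x := by
  rw [mul_inv_eq_iff_eq_mul]; rfl

namespace PT

variable {p : ℕ} {D : Set G}

theorem inv (h : PT p D) {d : G} (hd : d ∈ D) : d⁻¹ = d :=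
  inv_eq_of_mul_eq_one_right (h.sq d hd)

theorem pow (h : PT p D) {a b : G} (ha : a ∈ D) (hb : b ∈ D) (hab : ¬ Commute a b) :
    (a * b) ^ p = 1 := (h.pr a ha b hb).resolve_left hab

theorem conj_mem_iff (h : PT p D) (g d : G) : g * d * g⁻¹ ∈ D ↔ d ∈ D := by
  refine ⟨fun h1 => ?_, h.cj g d⟩
  have := h.cj g⁻¹ _ h1
  simpa [mul_assoc] using this

theorem mem_of_isConj (h : PT p D) {d e : G} (hd : d ∈ D) (he : IsConj d e) : e ∈ D := by
  obtain ⟨g, rfl⟩ := isConj_iff.1 he
  exact h.cj g d hd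

theorem mid_unique (h : PT p D) (hp : Odd p) {m m' x : G} (hm : m ∈ D) (hm' : m' ∈ D)
    (hx : x ∈ D) (hmx : ¬ Commute m x) (he : m * x * m⁻¹ = m' * x * m'⁻¹) : m = m' := by
  have hm'x : ¬ Commute m' x := fun hc =>
    hmx (commute_iff_conj_eq.2 (he.trans (commute_iff_conj_eq.1 hc)))
  have := eq_of_sq_eq_of_odd hp (h.pow hm hx hmx) (h.pow hm' hx hm'x) (by
    rw [h.inv hm, h.inv hm'] at he
    rw [← mul_assoc, ← mul_assoc, he])
  exact mul_right_cancel this

theorem comm_of_comm_conj (h : PT p D) (hp : Odd p) {y d : G} (hy : y ∈ D) (hd : d ∈ D)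
    (hc : Commute y (d * y * d⁻¹)) : Commute d y := by
  by_contra hn
  have h1 := h.pow hd hy hn
  have h2 : d * y * (d * y) = d * y * d⁻¹ * y := by rw [h.inv hd]; group
  have h3 : d * y * (d * y) * (d * y * (d * y)) = 1 * 1 := by
    rw [h2, one_mul]
    exact mul_sq_of_commute (h.sq _ (h.cj d y hy)) (h.sq y hy) hc.symm
  have h4 := eq_of_sq_eq_of_odd hp (r := d * y * (d * y)) (s := 1)
    (by rw [← pow_two, ← pow_mul, mul_comm, pow_mul, h1, one_pow]) (one_pow _) h3
  exact hn (commute_of_mul_sq (h.sq d hd) (h.sq y hy) h4)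

theorem exists_mid (h : PT p D) (hp : Odd p) {x y : G} (hx : x ∈ D) (hy : y ∈ D)
    (hxy : ¬ Commute x y) : ∃ m ∈ D, m * x * m⁻¹ = y := by
  obtain ⟨k, hk⟩ := hp
  have h1 := h.pow hx hy hxy
  refine ⟨x * (x * y) ^ (k + 1), ?_, ?_⟩
  · rcases isConj_mul_pow (h.sq x hx) (h.sq y hy) (k + 1) with h2 | h2
    · exact h.mem_of_isConj hx h2
    · exact h.mem_of_isConj hy h2
  · have := refl_conj_refl (h.sq x hx) (left_inverts (h.sq x hx) (h.sq y hy)) ((k + 1 : ℕ) : ℤ)
    rw [zpow_natCast] at this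
    rw [this, show (2 * ((k + 1 : ℕ) : ℤ)) = ((p + 1 : ℕ) : ℤ) by rw [hk]; push_cast; ring,
      zpow_natCast, pow_succ, h1, one_mul, ← mul_assoc, h.sq x hx, one_mul]

theorem isConj (h : PT p D) (hp : Odd p) {x y : G} (hx : x ∈ D) (hy : y ∈ D)
    (hxy : ¬ Commute x y) : IsConj x y := by
  obtain ⟨m, -, hm⟩ := h.exists_mid hp hx hy hxy
  exact isConj_iff.2 ⟨m, hm⟩

theorem comm_mid (h : PT p D) (hp : Odd p) {v x g : G} (hv : v ∈ D) (hx : x ∈ D)
    (hvx : ¬ Commute v x) (h1 : Commute g x) (h2 : Commute g (v * x * v⁻¹)) : Commute g v := by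
  refine commute_iff_conj_eq.2 (h.mid_unique hp hv (h.cj g v hv) hx hvx ?_).symm
  have e1 := commute_iff_conj_eq.1 h1
  have e2 := commute_iff_conj_eq.1 h2
  calc v * x * v⁻¹ = g * (v * x * v⁻¹) * g⁻¹ := e2.symm
    _ = g * v * g⁻¹ * (g * x * g⁻¹) * (g * v * g⁻¹)⁻¹ := by group
    _ = _ := by rw [e1]

theorem mul_ne_one (h : PT p D) {x y : G} (hx : x ∈ D) (hxy : ¬ Commute x y) : x * y ≠ 1 := by
  intro h1
  have : y = x := by rw [← h.inv hx]; exact (eq_inv_of_mul_eq_one_right h1)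
  exact hxy (this ▸ Commute.refl _)

theorem comm_of_comm_mul (h : PT p D) (hp : Odd p) {z x y : G} (hz : z ∈ D) (hx : x ∈ D)
    (hy : y ∈ D) (hxy : ¬ Commute x y) (hc : Commute z (x * y)) : Commute z x := by
  by_contra hn
  have hi := left_inverts (h.sq x hx) (h.sq y hy)
  have h1 : z * x * (x * y) * (z * x)⁻¹ = (x * y)⁻¹ := by
    calc z * x * (x * y) * (z * x)⁻¹ = z * (x * (x * y) * x⁻¹) * z⁻¹ := by group
      _ = _ := by rw [hi]; exact commute_iff_conj_eq.1 hc.inv_right
  have h2 : Commute (z * x * (z * x)) (x * y) := by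
    rw [commute_iff_conj_eq]
    calc z * x * (z * x) * (x * y) * (z * x * (z * x))⁻¹
        = z * x * (z * x * (x * y) * (z * x)⁻¹) * (z * x)⁻¹ := by group
      _ = z * x * (x * y)⁻¹ * (z * x)⁻¹ := by rw [h1]
      _ = (z * x * (x * y) * (z * x)⁻¹)⁻¹ := by group
      _ = _ := by rw [h1, inv_inv]
  have h3 := commute_iff_conj_eq.1 (commute_of_sq_of_odd hp (h.pow hz hx hn) h2)
  rw [h1] at h3
  exact hxy (commute_of_mul_sq (h.sq x hx) (h.sq y hy) (by
    nth_rewrite 1 [← h3]; exact inv_mul_cancel _))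

theorem comap (h : PT p D) (H : Subgroup G) : PT p (H.subtype ⁻¹' D) where
  sq d hd := Subtype.ext (h.sq d hd)
  cj g d hd := h.cj g d hd
  pr a ha b hb := (h.pr a ha b hb).imp (fun hc => Subtype.ext hc) (fun hc => Subtype.ext hc)

theorem map (h : PT p D) {G' : Type*} [Group G'] (f : G →* G') (hf : Function.Surjective f) :
    PT p (f '' D) where
  sq := by rintro _ ⟨d, hd, rfl⟩; rw [← map_mul, h.sq d hd, map_one]
  cj := by
    rintro g _ ⟨d, hd, rfl⟩
    obtain ⟨g, rfl⟩ := hf g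
    exact ⟨_, h.cj g d hd, by simp⟩
  pr := by
    rintro _ ⟨a, ha, rfl⟩ _ ⟨b, hb, rfl⟩
    exact (h.pr a ha b hb).imp (fun hc => hc.map f)
      (fun hc => by rw [← map_mul, ← map_pow, hc, map_one])

theorem inter_class (h : PT p D) (a : G) : PT p (D ∩ conjugatesOf a) where
  sq d hd := h.sq d hd.1
  cj g d hd := ⟨h.cj g d hd.1, IsConj.trans hd.2 (isConj_iff.2 ⟨g, rfl⟩)⟩
  pr a ha b hb := h.pr a ha.1 b hb.1

theorem commute_of_map (h : PT p D) (hp : Odd p) {G' : Type*} [Group G'] (f : G →* G')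
    (hf : ∀ z, f z = 1 → z ^ p = 1 → ∀ g, Commute z g) {a b : G} (ha : a ∈ D) (hb : b ∈ D)
    (hc : Commute (f a) (f b)) : Commute a b := by
  by_contra hn
  have h1 := h.pow ha hb hn
  have h2 : f (a * b) = 1 := by
    refine eq_of_sq_eq_of_odd hp (by rw [← map_pow, h1, map_one]) (one_pow _) ?_
    rw [map_mul, one_mul]
    exact mul_sq_of_commute (by rw [← map_mul, h.sq a ha, map_one])
      (by rw [← map_mul, h.sq b hb, map_one]) hc
  have h3 := hf _ h2 h1 a
  have h4 := (Commute.refl a).inv_right.mul_right h3.symm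
  rw [inv_mul_cancel_left] at h4
  exact hn h4

end PT

/-- A closed set of involutions all of whose products are `p`-elements has `p`-power size. -/
theorem ncard_of_closed [Finite G] {p : ℕ} (hp : p.Prime) (hodd : p ≠ 2) {X : Set G}
    (hne : X.Nonempty) (hsq : ∀ d ∈ X, d * d = 1) (hcl : ∀ d ∈ X, ∀ e ∈ X, d * e * d⁻¹ ∈ X)
    (hpr : ∀ d ∈ X, ∀ e ∈ X, (d * e) ^ p = 1) : ∃ j, X.ncard = p ^ j := by
  haveI := Fact.mk hp
  obtain ⟨x, hx⟩ := hne
  set H := Subgroup.closure X with hH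
  have hinv : ∀ g ∈ H, ∀ e ∈ X, g * e * g⁻¹ ∈ X := by
    intro g hg
    induction hg using Subgroup.closure_induction'' with
    | mem d hd => exact hcl d hd
    | inv_mem d hd =>
      rw [inv_eq_of_mul_eq_one_right (hsq d hd)]
      exact hcl d hd
    | one => intro e he; simpa using he
    | mul a b _ _ ha hb =>
      intro e he
      have := ha _ (hb e he)
      simpa [mul_assoc] using this
  let x' : H := ⟨x, Subgroup.subset_closure hx⟩
  have hx' : x' * x' = 1 := Subtype.ext (hsq x hx)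
  have hcls : conjugatesOf x' = H.subtype ⁻¹' X := by
    ext y
    constructor
    · intro hy
      obtain ⟨g, rfl⟩ := isConj_iff.1 hy
      exact hinv g g.2 x hx
    · intro hy
      refine isConj_of_odd hx' (Subtype.ext (hsq y hy)) ?_
      have : (x' * y) ^ p = 1 := Subtype.ext (hpr x hx y hy)
      exact (hp.odd_of_ne_two hodd).of_dvd_nat (orderOf_dvd_of_pow_eq_one this)
  obtain ⟨P, -, hP, -, hPx⟩ := exists_pgroup_of_prods hp hodd hx'
    (by rw [hcls]; exact Subgroup.closure_preimage_eq_top X)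
    (fun g => ⟨1, Subtype.ext (by
      rw [pow_one]
      exact hpr x hx _ (hinv g g.2 x hx))⟩)
  have hP' : IsPGroup p (P.map (ConjAct.toConjAct (G := H)).toMonoidHom) := hP.map _
  obtain ⟨j, hj⟩ := hP'.card_orbit x'
  refine ⟨j, ?_⟩
  have horb : MulAction.orbit (P.map (ConjAct.toConjAct (G := H)).toMonoidHom) x'
      = H.subtype ⁻¹' X := by
    rw [← hcls]
    ext y
    constructor
    · rintro ⟨⟨_, g, hg, rfl⟩, rfl⟩
      exact isConj_iff.2 ⟨g, rfl⟩
    · intro hy
      obtain ⟨g, rfl⟩ := isConj_iff.1 hy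
      rcases hPx g with hg | hg
      · exact ⟨⟨_, g, hg, rfl⟩, rfl⟩
      · refine ⟨⟨_, g * x', hg, rfl⟩, ?_⟩
        change g * x' * x' * (g * x')⁻¹ = _
        group
  rw [horb, Nat.card_coe_set_eq] at hj
  rw [← hj, Set.ncard_preimage_of_injective_subset_range H.subtype_injective]
  intro y hy
  exact ⟨⟨y, Subgroup.subset_closure hy⟩, rfl⟩

theorem eq_of_pow_add_one_eq_two_pow {p j k : ℕ} (hp : p.Prime) (hodd : p ≠ 2) (hk : 2 ≤ k)
    (h : p ^ j + 1 = 2 ^ k) : p ^ j = p := by
  have hpo : Odd p := hp.odd_of_ne_two hodd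
  have h4 : 4 ∣ 2 ^ k := by
    obtain ⟨m, rfl⟩ := Nat.exists_eq_add_of_le hk
    exact ⟨2 ^ m, by ring⟩
  obtain ⟨q, rfl⟩ := hpo
  have hsq : ∀ i, ∃ c, ((2 * q + 1) ^ 2) ^ i = 1 + c * (2 * (2 * q + 2)) := by
    intro i
    induction i with
    | zero => exact ⟨0, by simp⟩
    | succ i ih =>
      obtain ⟨c, hc⟩ := ih
      refine ⟨c + q + c * q * (2 * (2 * q + 2)), ?_⟩
      rw [pow_succ, hc]; ring
  rcases Nat.even_or_odd' j with ⟨i, rfl | rfl⟩
  · exfalso
    obtain ⟨c, hc⟩ := hsq i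
    rw [pow_mul, hc] at h
    rw [← h] at h4
    have : 1 + c * (2 * (2 * q + 2)) + 1 = 4 * (c * (q + 1)) + 2 := by ring
    omega
  · obtain ⟨c, hc⟩ := hsq i
    have h1 : 2 ^ k = (2 * q + 2) * (1 + 2 * (c * (2 * q + 1))) := by
      rw [← h, pow_succ, pow_mul, hc]; ring
    have h2 : (1 + 2 * (c * (2 * q + 1))) ∣ 2 ^ k := ⟨_, by rw [h1, mul_comm]⟩
    have h3 : (1 + 2 * (c * (2 * q + 1))) = 1 := by
      refine Nat.Coprime.eq_one_of_dvd (Nat.Coprime.pow_right k ?_) h2
      rw [Nat.coprime_two_right]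
      exact ⟨c * (2 * q + 1), by ring⟩
    rw [h3, mul_one] at h1
    omega

theorem fix_all [Finite G] {p : ℕ} (hp : p.Prime) {k : G} (hk : k ^ p = 1) {S : Set G}
    (hS : S.ncard = p) (hinv : ∀ s ∈ S, k * s * k⁻¹ ∈ S) {s₀ : G} (hs₀ : s₀ ∈ S)
    (hc : Commute k s₀) : ∀ s ∈ S, Commute k s := by
  haveI := Fact.mk hp
  intro s hs
  by_contra hn
  let f : G → G := fun y => k * y * k⁻¹
  have hit : ∀ n y, f^[n] y = k ^ n * y * (k ^ n)⁻¹ := by
    intro n y
    induction n with
    | zero => simp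
    | succ n ih => rw [Function.iterate_succ_apply', ih, pow_succ']; simp [f, mul_assoc]
  have hper : Function.minimalPeriod f s = p :=
    Function.minimalPeriod_eq_prime (by rw [Function.IsPeriodicPt, Function.IsFixedPt, hit, hk]; simp)
      (fun h => hn (commute_iff_conj_eq.2 h))
  have hinj := Function.iterate_injOn_Iio_minimalPeriod (f := f) (x := s)
  rw [hper] at hinj
  have hmem : ∀ n, f^[n] s ∈ S \ {s₀} := by
    intro n
    refine ⟨?_, fun h => ?_⟩
    · induction n with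
      | zero => exact hs
      | succ n ih => rw [Function.iterate_succ_apply']; exact hinv _ ih
    · rw [hit, Set.mem_singleton_iff] at h
      have h1 : s = s₀ := by
        have h2 := commute_iff_conj_eq.1 (hc.pow_left n)
        rw [← h2] at h
        simpa using h
      exact hn (h1 ▸ hc)
  have hle := Set.ncard_le_ncard_of_injOn (s := Set.Iio p) (t := S \ {s₀}) (fun n => f^[n] s)
    (fun n _ => hmem n) hinj (Set.toFinite _)
  rw [Set.ncard_sdiff_singleton_of_mem hs₀, hS] at hle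
  have : (Set.Iio p).ncard = p := by simp
  have := hp.pos
  omega

theorem card_modEq_sq {α : Type*} [Finite α] {r : α → α → Prop} (hr : Equivalence r) {p : ℕ}
    (hp : p.Prime) (hcl : ∀ a, {b | r a b}.ncard = p) (f : α → α)
    (hf : ∀ a b, r a b → r (f a) (f b)) (hfp : ∀ a, f^[p] a = a) :
    Nat.card α ≡ {a | r a (f a)}.ncard [MOD p ^ 2] := by
  classical
  haveI := Fact.mk hp
  haveI := Fintype.ofFinite α
  let s : Setoid α := ⟨r, hr⟩
  let F : Function.End (Quotient s) := Quotient.map f hf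
  have hF : ∀ n a, (F ^ n) (Quotient.mk s a) = Quotient.mk s (f^[n] a) := by
    intro n
    induction n with
    | zero => intro a; rfl
    | succ n ih =>
      intro a
      rw [pow_succ, Function.iterate_succ_apply, ← ih]
      rfl
  have hFp : F ^ p ^ 1 = 1 := by
    funext q
    induction q using Quotient.inductionOn with
    | h a => rw [pow_one, hF, hfp]; rfl
  have h1 := Equiv.Perm.card_fixedPoints_modEq hFp
  have hfib : ∀ (A : Finset α), (∀ a b, r a b → a ∈ A → b ∈ A) →
      A.card = p * (A.image (Quotient.mk s)).card := by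
    intro A hA
    rw [Finset.card_eq_sum_card_image (Quotient.mk s) A, mul_comm, ← smul_eq_mul]
    refine Finset.sum_eq_card_nsmul ?_
    intro q hq
    obtain ⟨a, ha, rfl⟩ := Finset.mem_image.1 hq
    rw [← hcl a, ← Set.ncard_coe_finset]
    congr 1
    ext b
    simp only [Finset.coe_filter, Set.mem_ofPred_eq]
    exact ⟨fun h => hr.symm (Quotient.exact h.2), fun h => ⟨hA a b h ha, Quotient.sound (hr.symm h)⟩⟩
  have e1 := hfib Finset.univ (fun _ _ _ _ => Finset.mem_univ _)
  have e2 := hfib (Finset.univ.filter fun a => r a (f a)) (by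
    intro a b hab ha
    simp only [Finset.mem_filter, Finset.mem_univ, true_and] at ha ⊢
    exact hr.trans (hr.symm hab) (hr.trans ha (hf _ _ hab)))
  have e3 : (Finset.univ.image (Quotient.mk s)).card = Fintype.card (Quotient s) := by
    rw [Finset.image_univ_of_surjective Quotient.mk_surjective, Finset.card_univ]
  have e4 : ((Finset.univ.filter fun a => r a (f a)).image (Quotient.mk s)).card
      = Fintype.card (Function.fixedPoints F) := by
    rw [Fintype.card_subtype]
    congr 1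
    ext q
    induction q using Quotient.inductionOn with
    | h a =>
      simp only [Finset.mem_image, Finset.mem_filter, Finset.mem_univ, true_and]
      constructor
      · rintro ⟨b, hb, hba⟩
        rw [← hba]
        exact Quotient.sound (hr.symm hb)
      · intro ha
        exact ⟨a, hr.symm (Quotient.exact ha), rfl⟩
  have e5 : {a | r a (f a)}.ncard = (Finset.univ.filter fun a => r a (f a)).card := by
    rw [← Set.ncard_coe_finset]; congr 1; ext a; simp
  rw [Nat.card_eq_fintype_card, ← Finset.card_univ, e1, e5, e2, e3, e4, pow_two]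
  exact Nat.ModEq.mul_left' p h1

end Cfsg.Agent.H3
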