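import Cfsg.Agent.H3.PTransT

/-! Classes of involutions whose products have order 1, 2 or p for a prime p > 3. -/

namespace Cfsg.Agent.H3

variable {G : Type*} [Group G]

namespace PT

variable {p : ℕ} {D : Set G}

theorem eq_of_comm_mul (h : PT p D) (hp : Odd p) {x z v : G} (hx : x ∈ D) (hz : z ∈ D)
    (hv : v ∈ D) (hxz : Commute x z) (hvx : ¬ Commute x v) (hvz : ¬ Commute z v)
    (hc : Commute v (x * z)) : x * z = 1 := by
  have hw : x * z * (x * z) = 1 := mul_sq_of_commute (h.sq x hx) (h.sq z hz) hxz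
  have h1 := h.pow hx hv hvx
  have h2 := h.pow hz hv hvz
  have e1 : z * v = x * z * (x * v) := by
    rw [← mul_assoc, mul_assoc x z x, ← hxz.eq, ← mul_assoc x x, h.sq x hx, one_mul]
  have hcm : Commute (x * z) (x * v) :=
    (((Commute.refl x).mul_left hxz.symm).mul_right hc.symm)
  rw [e1, hcm.mul_pow, h1, mul_one] at h2
  exact eq_of_sq_eq_of_odd hp h2 (one_pow p) (by rw [hw, one_mul])

theorem comm_conj_mul [Finite G] (h : PT p D) (hp : p.Prime) (hodd : p ≠ 2) {x z v : G}
    (hx : x ∈ D) (hz : z ∈ D) (hv : v ∈ D) (hxz : Commute x z) (hvx : ¬ Commute x v)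
    (hvz : ¬ Commute z v) : Commute (x * z) (v * (x * z) * v⁻¹) := by
  have h1 := h.pti hp hodd x hx v hv z hz hxz hvx hvz
  have hw : x * z * (x * z) = 1 := mul_sq_of_commute (h.sq x hx) (h.sq z hz) hxz
  have hwi : (x * z)⁻¹ = x * z := inv_eq_of_mul_eq_one_right hw
  have hv2 := h.sq v hv
  rw [hwi] at h1
  rw [h.inv hv]
  generalize x * z = w at *
  have h2 : v * (w * v * w) * (v * (w * v * w)) = 1 := mul_sq_of_commute hv2 (by
    calc w * v * w * (w * v * w) = w * v * (w * w) * v * w := by group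
      _ = 1 := by rw [hw, mul_one, mul_assoc w v v, hv2, mul_one, hw]) h1
  refine (commute_of_mul_sq (by
    calc v * w * v * (v * w * v) = v * w * (v * v) * w * v := by group
      _ = 1 := by rw [hv2, mul_one, mul_assoc v w w, hw, mul_one, hv2]) hw ?_).symm
  rw [← h2]; group

theorem comm_conj_mul' [Finite G] (h : PT p D) (hp : p.Prime) (hodd : p ≠ 2) {x z v : G}
    (hx : x ∈ D) (hz : z ∈ D) (hv : v ∈ D) (hxz : Commute x z) (hvx : ¬ Commute x v)
    (hvz : ¬ Commute z v) :
    Commute (v * (x * z) * v⁻¹) (x * (v * (x * z) * v⁻¹) * x⁻¹) := by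
  have hpo := hp.odd_of_ne_two hodd
  have h1 : ¬ Commute x (v * x * v⁻¹) := fun hc => hvx (h.comm_of_comm_conj hpo hx hv hc).symm
  have h2 : ¬ Commute z (v * x * v⁻¹) := fun hc =>
    hvz (h.comm_mid hpo hv hx (fun hc' => hvx hc'.symm) hxz.symm hc)
  have h3 := (h.comm_conj_mul hp hodd hx hz (h.cj v x hx) hxz h1 h2).conj v⁻¹
  have e1 : v⁻¹ * (x * z) * v⁻¹⁻¹ = v * (x * z) * v⁻¹ := by rw [inv_inv, h.inv hv]
  have e2 : v⁻¹ * (v * x * v⁻¹ * (x * z) * (v * x * v⁻¹)⁻¹) * v⁻¹⁻¹
      = x * (v⁻¹ * (x * z) * v⁻¹⁻¹) * x⁻¹ := by group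
  rwa [e2, e1] at h3

theorem comm_of_config [Finite G] (h : PT p D) (hp : p.Prime) (hodd : p ≠ 2) {x y z m : G}
    (hx : x ∈ D) (hy : y ∈ D) (hz : z ∈ D) (hxy : ¬ Commute x y) (hzx : Commute z x)
    (hzy : Commute z y) (hxm : x * m ∈ D) (hzm : z * m ∈ D) (hcx : Commute x m)
    (hcz : Commute z m) (hm : m ≠ 1) : Commute y (x * m) := by
  have hpo := hp.odd_of_ne_two hodd
  by_contra hn
  have hmm : x * (x * m) = m := by rw [← mul_assoc, h.sq x hx, one_mul]
  have hxz' : Commute x (x * m) := (Commute.refl x).mul_right hcx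
  have hn' : ¬ Commute (x * m) y := fun hc => hn hc.symm
  have h1 := h.comm_conj_mul' hp hodd hx hxm hy hxz' hxy hn'
  rw [hmm] at h1
  have hm2 : m * m = 1 := by
    rw [← hmm]; exact mul_sq_of_commute (h.sq x hx) (h.sq _ hxm) hxz'
  set k := y * m * y⁻¹ with hk
  have hk2 : k * k = 1 := by rw [hk, conj_mul, hm2]; simp
  have hzk : Commute z k := (hzy.mul_right hcz).mul_right hzy.inv_right
  have hd : z * k ∈ D := by
    have := h.cj y _ hzm
    rwa [← conj_mul, commute_iff_conj_eq.1 hzy.symm] at this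
  have hxd : Commute x (z * k) := by
    by_contra hn2
    have h2 := h.pow hx hd hn2
    have h3 : x * (z * k) * (x * (z * k)) = x * k * x⁻¹ * k := by
      rw [h.inv hx]
      calc x * (z * k) * (x * (z * k)) = x * (z * (k * x)) * z * k := by group
        _ = x * (k * x) * (z * z) * k := by rw [(hzk.mul_right hzx).eq]; group
        _ = _ := by rw [h.sq z hz]; group
    have h4 : x * (z * k) * (x * (z * k)) = 1 := by
      refine eq_of_sq_eq_of_odd hpo (by rw [← pow_two, ← pow_mul, mul_comm, pow_mul, h2, one_pow])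
        (one_pow p) ?_
      rw [h3, one_mul]
      exact mul_sq_of_commute (by rw [conj_mul, hk2]; simp) hk2 h1.symm
    exact hn2 (commute_of_mul_sq (h.sq x hx) (h.sq _ hd) h4)
  have hxk : Commute x k := by
    have := hzx.symm.inv_right.mul_right hxd
    rwa [inv_mul_cancel_left] at this
  have hmy : Commute m y := by
    refine h.comm_mid hpo hy hx (fun hc => hxy hc.symm) hcx.symm ?_
    have := (hxk.conj y).symm
    rwa [hk, show y * (y * m * y⁻¹) * y⁻¹ = (y * y) * m * (y * y)⁻¹ by group, h.sq y hy, one_mul,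
      inv_one, mul_one] at this
  have := h.eq_of_comm_mul hpo hx hxm hy hxz' hxy hn' (by rw [hmm]; exact hmy.symm)
  exact hm (hmm ▸ this)

theorem false_of_config [Finite G] (h : PT p D) (hp : p.Prime) (hodd : p ≠ 2) (h3 : p ≠ 3)
    {x y z v : G} (hx : x ∈ D) (hy : y ∈ D) (hz : z ∈ D) (hv : v ∈ D) (hxy : ¬ Commute x y)
    (hzx : Commute z x) (hzy : Commute z y) (hvx : ¬ Commute x v) (hvz : ¬ Commute z v) :
    False := by
  have hpo := hp.odd_of_ne_two hodd
  have hxz := hzx.symm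
  have hw1 : x * z ≠ 1 := by
    intro h1
    rw [eq_inv_of_mul_eq_one_left h1] at hxy
    exact hxy hzy.inv_left
  have hvw : ¬ Commute v (x * z) := fun hc =>
    hw1 (h.eq_of_comm_mul hpo hx hz hv hxz hvx hvz hc)
  have c1 := h.comm_conj_mul hp hodd hx hz hv hxz hvx hvz
  have c2 := h.comm_conj_mul' hp hodd hx hz hv hxz hvx hvz
  have hw : x * z * (x * z) = 1 := mul_sq_of_commute (h.sq x hx) (h.sq z hz) hxz
  have hxw : Commute x (x * z) := (Commute.refl x).mul_right hxz
  have hzw : z = x * (x * z) := by rw [← mul_assoc, h.sq x hx, one_mul]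
  have hx2 := h.sq x hx
  have hv2 := h.sq v hv
  have hxi := h.inv hx
  have hvi := h.inv hv
  generalize x * z = w at *
  set n := v * w * v⁻¹ with hn
  set n' := x * n * x⁻¹ with hn'
  have c3 : Commute w n' := by
    have := c1.conj x
    rwa [commute_iff_conj_eq.1 hxw] at this
  have hn2 : n * n = 1 := by rw [hn, conj_mul, hw]; simp
  have hn2' : n' * n' = 1 := by rw [hn', conj_mul, hn2]; simp
  have hni : n⁻¹ = n := inv_eq_of_mul_eq_one_right hn2
  have hxn' : x * n' * x⁻¹ = n := by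
    rw [hn', show x * (x * n * x⁻¹) * x⁻¹ = (x * x) * n * (x * x)⁻¹ by group, hx2]; simp
  have hxm : Commute x (n' * n) := by
    rw [commute_iff_conj_eq, ← conj_mul, hxn', ← hn', c2.eq]
  have hwm : Commute w (n' * n) := c3.mul_right c1
  have e1 : n * x * n⁻¹ = x * (n' * n) := by
    rw [hni, hn', hxi]
    calc n * x * n = (x * x) * n * x * n := by rw [hx2, one_mul]
      _ = _ := by group
  have e2 : n * z * n⁻¹ = x * (n' * n * w) := by
    rw [hzw, ← conj_mul, e1, commute_iff_conj_eq.1 c1.symm, mul_assoc]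
  have d1 : x * (n' * n) ∈ D := e1 ▸ h.cj n x hx
  have d2 : x * (n' * n * w) ∈ D := e2 ▸ h.cj n z hz
  have hm1 : n' * n ≠ 1 := by
    intro h1
    have h2 : Commute x n := by
      rw [commute_iff_conj_eq, ← hn', eq_inv_of_mul_eq_one_left h1, hni]
    refine hvw (h.comm_mid hpo hv hx (fun hc => hvx hc.symm) hxw.symm ?_).symm
    have := (h2.conj v).symm
    rwa [hn, show v * (v * w * v⁻¹) * v⁻¹ = (v * v) * w * (v * v)⁻¹ by group, hv2, one_mul,
      inv_one, mul_one] at this
  have hm2 : n' * n * w ≠ 1 := by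
    intro h1
    have h2 : n' = w * n := by
      rw [mul_assoc] at h1
      rw [eq_inv_of_mul_eq_one_left h1, mul_inv_rev, hni, inv_eq_of_mul_eq_one_right hw]
    have hvn : v * n * v⁻¹ = w := by
      rw [hn, show v * (v * w * v⁻¹) * v⁻¹ = (v * v) * w * (v * v)⁻¹ by group, hv2]; simp
    have hvn' : v * n' * v⁻¹ = n' := by
      rw [h2, ← conj_mul, hvn, ← hn, c1.eq]
    have h4 : Commute ((v * x) ^ 3) w := by
      rw [commute_iff_conj_eq]
      calc (v * x) ^ 3 * w * ((v * x) ^ 3)⁻¹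
          = v * (x * (v * (x * (v * (x * w * x⁻¹) * v⁻¹) * x⁻¹) * v⁻¹) * x⁻¹) * v⁻¹ := by
            simp only [pow_succ, pow_zero]; group
        _ = w := by rw [commute_iff_conj_eq.1 hxw, ← hn, ← hn', hvn', hxn', hvn]
    have h5 := h.pow hv hx (fun hc => hvx hc.symm)
    have h6 : Commute (v * x) w := by
      obtain ⟨a, -, ha⟩ := Nat.exists_mul_mod_eq_one_of_coprime
        ((Nat.coprime_primes Nat.prime_three hp).2 (Ne.symm h3)) hp.one_lt
      have h7 : v * x = ((v * x) ^ 3) ^ a := by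
        rw [← pow_mul, ← Nat.div_add_mod (3 * a) p, ha, pow_succ, pow_mul, h5]; simp
      rw [h7]
      exact h4.pow_left a
    have h7 := h6.mul_left hxw.inv_left
    rw [mul_inv_cancel_right] at h7
    exact hvw h7
  have hzm : Commute z (n' * n) := by rw [hzw]; exact hxm.mul_left hwm
  have hzw' : Commute z w := by rw [hzw]; exact hxw.mul_left (Commute.refl w)
  have y1 := h.comm_of_config hp hodd hx hy hz hxy hzx hzy d1
    (by rw [hzw, mul_assoc, hwm.eq]; exact d2) hxm hzm hm1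
  have y2 := h.comm_of_config hp hodd hx hy hz hxy hzx hzy d2
    (by rw [hzw, mul_assoc, ← mul_assoc w, hwm.eq, mul_assoc (n' * n), hw, mul_one]; exact d1)
    (hxm.mul_right hxw) (hzm.mul_right hzw') hm2
  have y3 := (hzy.symm.mul_right y2.inv_right).mul_right y1
  have e3 : z * (x * (n' * n * w))⁻¹ * (x * (n' * n)) = x := by rw [hzw]; group
  rw [e3] at y3
  exact hxy y3.symm

theorem trans_of_three_lt [Finite G] (h : PT p D) (hp : p.Prime) (hodd : p ≠ 2) (h3 : p ≠ 3)
    (hcls : ∀ x ∈ D, ∀ y ∈ D, IsConj x y) (hgen : Subgroup.closure D = ⊤) {x y z : G}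
    (hx : x ∈ D) (hy : y ∈ D) (hz : z ∈ D) (hzx : Commute z x) (hzy : Commute z y) :
    Commute x y := by
  by_contra hxy
  let S : Set G := {e | e ∈ D ∧ Commute z e ∧ ∃ e' ∈ D, Commute z e' ∧ ¬ Commute e e'}
  have h1 : ∀ d ∈ D, ∀ e ∈ S, d * e * d⁻¹ ∈ S := by
    rintro d hd e ⟨he, hze, e', he', hze', hee⟩
    by_cases hc : Commute z d
    · have h2 := commute_iff_conj_eq.1 hc.symm
      exact ⟨h.cj d e he, h2 ▸ hze.conj d, _, h.cj d e' he', h2 ▸ hze'.conj d,
        fun hc' => hee ((Commute.conj_iff d).1 hc')⟩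
    · have h2 : Commute e d := by
        by_contra hn
        exact h.false_of_config hp hodd h3 he he' hz hd hee hze hze' hn hc
      rw [commute_iff_conj_eq.1 h2.symm]
      exact ⟨he, hze, e', he', hze', hee⟩
  have h2 : ∀ g : G, ∀ e ∈ S, g * e * g⁻¹ ∈ S := by
    intro g
    have hg : g ∈ Subgroup.closure D := hgen ▸ Subgroup.mem_top g
    induction hg using Subgroup.closure_induction'' with
    | mem d hd => exact h1 d hd
    | inv_mem d hd => rw [h.inv hd]; exact h1 d hd
    | one => intro e he; simpa using he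
    | mul a b _ _ ha hb =>
      intro e he
      have := ha _ (hb e he)
      simpa [mul_assoc] using this
  have h4 : ∀ d ∈ D, Commute z d := by
    intro d hd
    obtain ⟨g, rfl⟩ := isConj_iff.1 (hcls x hx d hd)
    exact (h2 g x ⟨hx, hzx, y, hy, hzy, hxy⟩).2.1
  have h5 : ∀ g, Commute z g := by
    intro g
    have hg : g ∈ Subgroup.closure D := hgen ▸ Subgroup.mem_top g
    have : Subgroup.closure D ≤ Subgroup.centralizer {z} := by
      rw [Subgroup.closure_le]
      intro d hd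
      exact Subgroup.mem_centralizer_singleton_iff.2 (h4 d hd).symm
    exact (Subgroup.mem_centralizer_singleton_iff.1 (this hg)).symm
  obtain ⟨g, rfl⟩ := isConj_iff.1 (hcls z hz x hx)
  rw [commute_iff_conj_eq.1 (h5 g).symm] at hxy
  exact hxy hzy

theorem exists_normal_two [Finite G] (h : PT p D) (hp : p.Prime) (hodd : p ≠ 2) (h3 : p ≠ 3)
    (hcls : ∀ x ∈ D, ∀ y ∈ D, IsConj x y) (hgen : Subgroup.closure D = ⊤) {x w : G}
    (hx : x ∈ D) (hw : w ∈ D) (hxw : Commute x w) :
    ∃ N : Subgroup G, N.Normal ∧ IsPGroup 2 N ∧ x * w ∈ N := by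
  haveI : Fact (Nat.Prime 2) := ⟨Nat.prime_two⟩
  have htr : ∀ {a b c : G}, a ∈ D → b ∈ D → c ∈ D → Commute a b → Commute b c → Commute a c :=
    fun ha hb hc h1 h2 => h.trans_of_three_lt hp hodd h3 hcls hgen ha hc hb h1.symm h2
  have hs : x * w * (x * w) = 1 := mul_sq_of_commute (h.sq x hx) (h.sq w hw) hxw
  have hfix : ∀ b ∈ D, Commute b (x * w * b * (x * w)⁻¹) := by
    intro b hb
    by_cases hxb : Commute x b
    · rw [commute_iff_conj_eq.1 (hxb.mul_left (htr hw hx hb hxw.symm hxb))]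
    · exact h.pti hp hodd x hx b hb w hw hxw hxb (fun hc => hxb (htr hx hw hb hxw hc))
  refine baer_suzuki_elem fun g => ?_
  have hs' : g * (x * w) * g⁻¹ * (g * (x * w) * g⁻¹) = 1 := by rw [conj_mul, hs]; simp
  refine isPGroup_closure_pair_of_pow hs hs' (k := 2) ?_
  have hx' := h.cj g x hx
  have hw' := h.cj g w hw
  have hxw' := hxw.conj g
  have hcm : Commute (x * w * (g * (x * w) * g⁻¹) * (x * w)⁻¹) (g * (x * w) * g⁻¹) := by
    rw [← conj_mul (b := g), ← conj_mul (b := x * w)]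
    have a1 := (hfix _ hx').symm
    have a2 := (hfix _ hw').symm
    exact (a1.mul_right (htr (h.cj _ _ hx') hx' hw' a1 hxw')).mul_left
      ((htr (h.cj _ _ hw') hw' hx' a2 hxw'.symm).mul_right a2)
  have := mul_sq_of_commute (by rw [conj_mul, hs']; simp) hs' hcm
  rw [inv_eq_of_mul_eq_one_right hs] at this
  rw [← this]
  generalize x * w = a
  generalize g * a * g⁻¹ = b
  rw [show 2 ^ 2 = 4 by rfl]
  simp only [pow_succ, pow_zero, mul_assoc, one_mul]

end PT

end Cfsg.Agent.H3
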