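import Cfsg.Agent.H3.PTrans
import Cfsg.Agent.H3.BaerSuzuki

/-! Classes of involutions whose products have order 1, 2 or p: paths of length two. -/

namespace Cfsg.Agent.H3

universe u

open scoped commutatorElement

variable {G : Type*} [Group G]

theorem conj_inv_of_inverts {d s : G} (h : d * s * d⁻¹ = s⁻¹) : d * s⁻¹ * d⁻¹ = s := by
  rw [show d * s⁻¹ * d⁻¹ = (d * s * d⁻¹)⁻¹ by group, h, inv_inv]

/-- the configuration of a minimal counterexample -/
structure PCore (p : ℕ) (D : Set G) : Prop extends PT p D where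
  cls : ∀ x ∈ D, ∀ y ∈ D, IsConj x y
  noE : ∀ w : G, w * w = 1 → (∀ g, Commute w (g * w * g⁻¹)) → w = 1
  gen2 : ∀ a ∈ D, ∀ b ∈ D, ∀ c ∈ D, Commute a c → ¬ Commute a b → ¬ Commute c b →
    ¬ Commute b (a * c * b * (a * c)⁻¹) → ∀ s, Commute s a → Commute s b → Commute s c → s = 1
  ex2 : ∃ a ∈ D, ∃ b ∈ D, ∃ c ∈ D, Commute a c ∧ ¬ Commute a b ∧ ¬ Commute c b ∧
    ¬ Commute b (a * c * b * (a * c)⁻¹)

/-- the block of `x` -/
def pBlk (D : Set G) (x : G) : Set G := {y | y ∈ D ∧ Commute x y}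

/-- the members of `D` swapping the blocks of `u` and `v` -/
def pSwap (D : Set G) (u v : G) : Set G := {d | d ∈ D ∧ Commute v (d * u * d⁻¹)}

/-- the union of the blocks fixed by `t` -/
def pFix (D : Set G) (t : G) : Set G := {e | e ∈ D ∧ Commute e (t * e * t⁻¹)}

namespace PCore

variable {p : ℕ} {D : Set G}

theorem exists_ncomm (h : PCore p D) {x : G} (hx : x ∈ D) : ∃ y ∈ D, ¬ Commute x y := by
  obtain ⟨a, ha, b, hb, -, -, -, hab, -⟩ := h.ex2
  obtain ⟨g, rfl⟩ := isConj_iff.1 (h.cls a ha x hx)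
  exact ⟨_, h.cj g b hb, fun hc => hab ((Commute.conj_iff g).1 hc)⟩

theorem ne_one (h : PCore p D) {x : G} (hx : x ∈ D) : x ≠ 1 := by
  obtain ⟨y, -, hy⟩ := h.exists_ncomm hx
  rintro rfl
  exact hy (Commute.one_left _)

theorem mul_mem_of_two (h : PCore p D) (hp : Odd p) {a b c : G} (ha : a ∈ D) (hb : b ∈ D)
    (hc : c ∈ D) (hac : Commute a c) (hab : ¬ Commute a b) (hcb : ¬ Commute c b)
    (h2 : ¬ Commute b (a * c * b * (a * c)⁻¹)) : a * c ∈ D := by
  have hw : a * c * (a * c) = 1 := mul_sq_of_commute (h.sq a ha) (h.sq c hc) hac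
  have hwi : (a * c)⁻¹ = a * c := inv_eq_of_mul_eq_one_right hw
  obtain ⟨u, hu, hub⟩ := h.exists_mid hp hb (h.cj (a * c) b hb) h2
  have hnu : ¬ Commute u b := fun hc' => h2 (by
    rw [← hub, commute_iff_conj_eq.1 hc'])
  have hs : Commute (a * c * u) b := by
    rw [commute_iff_conj_eq]
    calc a * c * u * b * (a * c * u)⁻¹ = a * c * (u * b * u⁻¹) * (a * c)⁻¹ := by group
      _ = (a * c * (a * c)) * b * (a * c * (a * c))⁻¹ := by rw [hub]; group
      _ = b := by rw [hw]; simp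
  have hwu : Commute (a * c) u := by
    rw [commute_iff_conj_eq]
    refine (h.mid_unique hp hu (h.cj _ u hu) hb hnu ?_).symm
    have e1 := commute_iff_conj_eq.1 hs
    have e2 : u * (a * c * b * (a * c)⁻¹) * u⁻¹ = b := by
      rw [← hub]
      calc u * (u * b * u⁻¹) * u⁻¹ = (u * u) * b * (u * u)⁻¹ := by group
        _ = b := by rw [h.sq u hu]; simp
    calc u * b * u⁻¹ = a * c * (u * (a * c * b * (a * c)⁻¹) * u⁻¹) * (a * c)⁻¹ := by
          rw [e2, hub]
      _ = a * c * u * (a * c)⁻¹ * b * (a * c * u * (a * c)⁻¹)⁻¹ := by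
          rw [hwi]; group
          rw [show c ^ (-1 : ℤ) = c by rw [zpow_neg_one, h.inv hc],
            show a ^ (-1 : ℤ) = a by rw [zpow_neg_one, h.inv ha]]
          simp only [mul_assoc]
          rw [← mul_assoc a c (u ^ (-1 : ℤ) * _), hac.eq]
          simp only [mul_assoc]
  have hau : Commute a u := by
    by_contra hn
    have e1 := commute_iff_conj_eq.1 hwu
    have : a = c := h.mid_unique hp ha hc hu hn (by
      calc a * u * a⁻¹ = a * (a * c * u * (a * c)⁻¹) * a⁻¹ := by rw [e1]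
        _ = (a * a) * (c * u * c⁻¹) * (a * a)⁻¹ := by group
        _ = _ := by rw [h.sq a ha]; simp)
    apply h2
    rw [this, h.sq c hc]
    simp
  have hcu : Commute c u := by
    have := hau.inv_left.mul_left hwu
    rwa [inv_mul_cancel_left] at this
  have hs1 := h.gen2 a ha b hb c hc hac hab hcb h2 (a * c * u)
    (((Commute.refl a).mul_left hac.symm).mul_left hau.symm) hs
    ((hac.mul_left (Commute.refl c)).mul_left hcu.symm)
  rw [eq_inv_of_mul_eq_one_left hs1, h.inv hu]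
  exact hu

theorem comm_of_twin (h : PCore p D) (hp : Odd p) {x y z : G} (hx : x ∈ D) (hy : y ∈ D)
    (hxy : Commute x y) (hm : x * y ∈ D) (hz : z ∈ D) (hxz : Commute x z) : Commute y z := by
  by_contra hn
  have := h.mid_unique hp hy hm hz hn (by
    have e1 := commute_iff_conj_eq.1 ((hxy.mul_right hxz).mul_right hxy.inv_right)
    rw [← e1]; group)
  exact h.ne_one hx (by simpa using this.symm)

theorem exists_twin (h : PCore p D) (hp : Odd p) {x : G} (hx : x ∈ D) :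
    ∃ x' ∈ D, Commute x x' ∧ x * x' ∈ D := by
  obtain ⟨a, ha, b, hb, c, hc, hac, hab, hcb, h2⟩ := h.ex2
  have := h.mul_mem_of_two hp ha hb hc hac hab hcb h2
  obtain ⟨g, rfl⟩ := isConj_iff.1 (h.cls a ha x hx)
  exact ⟨_, h.cj g c hc, hac.conj g, by rw [conj_mul]; exact h.cj g _ this⟩

theorem twin_gen (h : PCore p D) (hp : Odd p) {x x' y : G} (hx : x ∈ D) (hx' : x' ∈ D)
    (hxx : Commute x x') (hm : x * x' ∈ D) (hy : y ∈ D) (hxy : ¬ Commute x y) {s : G}
    (h1 : Commute s x) (h2 : Commute s x') (h3 : Commute s y) : s = 1 := by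
  refine h.gen2 x hx y hy x' hx' hxx hxy (fun hc => hxy ?_) (fun hc => hxy ?_) s h1 h3 h2
  · exact h.comm_of_twin hp hx' hx hxx.symm (hxx.eq ▸ hm) hy hc
  · refine h.comm_of_twin hp hm hx ((Commute.refl x).mul_left hxx.symm) ?_ hy
      (h.comm_of_comm_conj hp hy hm hc)
    rw [hxx.eq, mul_assoc, h.sq x hx, mul_one]
    exact hx'

theorem trans (h : PCore p D) (hp : Odd p) {x y z : G} (hx : x ∈ D) (hy : y ∈ D) (hz : z ∈ D)
    (hxy : Commute x y) (hyz : Commute y z) : Commute x z := by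
  by_contra hn
  obtain ⟨x', hx', hxx, hm⟩ := h.exists_twin hp hx
  exact h.ne_one hy (h.twin_gen hp hx hx' hxx hm hz hn hxy.symm
    (h.comm_of_twin hp hx hx' hxx hm hy hxy).symm hyz)

theorem gen (h : PCore p D) (hp : Odd p) {x y : G} (hx : x ∈ D) (hy : y ∈ D)
    (hxy : ¬ Commute x y) {s : G} (h1 : ∀ e ∈ pBlk D x, Commute s e) (h2 : Commute s y) :
    s = 1 := by
  obtain ⟨x', hx', hxx, hm⟩ := h.exists_twin hp hx
  exact h.twin_gen hp hx hx' hxx hm hy hxy (h1 x ⟨hx, Commute.refl _⟩) (h1 x' ⟨hx', hxx⟩) h2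

theorem mul_mem (h : PCore p D) (hp : Odd p) {x y : G} (hx : x ∈ D) (hy : y ∈ D)
    (hxy : Commute x y) (hne : x ≠ y) : x * y ∈ D := by
  by_contra hn
  have hfix : ∀ b ∈ D, Commute b (x * y * b * (x * y)⁻¹) := by
    intro b hb
    by_cases hxb : Commute x b
    · rw [commute_iff_conj_eq.1 (hxb.mul_left (h.trans hp hy hx hb hxy.symm hxb))]
    · by_contra h2
      exact hn (h.mul_mem_of_two hp hx hb hy hxy hxb
        (fun hc => hxb (h.trans hp hx hy hb hxy hc)) h2)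
  have hw : x * y * (x * y) = 1 := mul_sq_of_commute (h.sq x hx) (h.sq y hy) hxy
  refine hne ?_
  suffices hs : x * y = 1 by
    rw [← h.inv hy]; exact eq_inv_of_mul_eq_one_left hs
  refine h.noE _ hw fun g => ?_
  have hfix' : ∀ b ∈ D, Commute b (g * (x * y) * g⁻¹ * b * (g * (x * y) * g⁻¹)⁻¹) := by
    intro b hb
    have := (hfix _ (h.cj g⁻¹ b hb)).conj g
    convert this using 1 <;> group
  have hx' := h.cj g x hx
  have hy' := h.cj g y hy
  have hxy' := hxy.conj g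
  rw [← conj_mul] at hfix' ⊢
  set x' := g * x * g⁻¹
  set y' := g * y * g⁻¹
  by_cases hc : Commute x x'
  · have hc2 := h.trans hp hx hx' hy' hc hxy'
    exact (hc.mul_right hc2).mul_left ((h.trans hp hy hx hx' hxy.symm hc).mul_right
      (h.trans hp hy hx hy' hxy.symm hc2))
  · rw [← commutatorElement_eq_one_iff_commute]
    refine h.gen hp hx' hx (fun hc' => hc hc'.symm) (fun e he => ?_) ?_
    · have e1 : ⁅x * y, x' * y'⁆ = (x * y * x' * (x * y)⁻¹) * (x * y * y' * (x * y)⁻¹) *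
          y'⁻¹ * x'⁻¹ := by rw [commutatorElement_def]; group
      rw [e1]
      have hye := h.trans hp hy' hx' he.1 hxy'.symm he.2
      exact (((h.trans hp (h.cj _ _ hx') hx' he.1 (hfix x' hx').symm he.2).mul_left
        (h.trans hp (h.cj _ _ hy') hy' he.1 (hfix y' hy').symm hye)).mul_left
        hye.inv_left).mul_left he.2.inv_left
    · have e1 : ⁅x * y, x' * y'⁆ = x * y * (x' * y' * y * (x' * y')⁻¹)⁻¹ *
          (x' * y' * x * (x' * y')⁻¹)⁻¹ := by rw [commutatorElement_def]; group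
      rw [e1]
      exact (((Commute.refl x).mul_left hxy.symm).mul_left
        (h.trans hp (h.cj _ _ hy) hy hx (hfix' y hy).symm hxy.symm).inv_left).mul_left
        (hfix' x hx).symm.inv_left

theorem ncard_blk_pow [Finite G] (h : PCore p D) (hp : Odd p) {x : G} (hx : x ∈ D) :
    ∃ k, 2 ≤ k ∧ (pBlk D x).ncard + 1 = 2 ^ k := by
  let V : Subgroup G :=
    { carrier := insert 1 (pBlk D x)
      one_mem' := Or.inl rfl
      mul_mem' := by
        rintro a b (rfl | ha) (rfl | hb)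
        · simp
        · rw [one_mul]; exact Or.inr hb
        · rw [mul_one]; exact Or.inr ha
        · by_cases hab : a = b
          · left; rw [hab, h.sq b hb.1]
          · exact Or.inr ⟨h.mul_mem hp ha.1 hb.1 (h.trans hp ha.1 hx hb.1 ha.2.symm hb.2) hab,
              ha.2.mul_right hb.2⟩
      inv_mem' := by
        rintro a (rfl | ha)
        · simp
        · rw [h.inv ha.1]; exact Or.inr ha }
  have hV : IsPGroup 2 V := by
    rintro ⟨a, ha⟩
    refine ⟨1, Subtype.ext ?_⟩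
    change a ^ 2 ^ 1 = 1
    rcases ha with rfl | ha
    · simp
    · rw [pow_one, pow_two, h.sq a ha.1]
  obtain ⟨k, hk⟩ := hV.exists_card_eq
  have h1 : Nat.card V = (pBlk D x).ncard + 1 := by
    change Nat.card (insert 1 (pBlk D x) : Set G) = _
    rw [Nat.card_coe_set_eq, Set.ncard_insert_of_notMem (fun h1 => h.ne_one h1.1 rfl)]
  obtain ⟨x', hx', hxx, hm⟩ := h.exists_twin hp hx
  have h2 : 1 < (pBlk D x).ncard := by
    rw [Set.one_lt_ncard]
    refine ⟨x, ⟨hx, Commute.refl _⟩, x', ⟨hx', hxx⟩, ?_⟩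
    rintro rfl
    exact h.ne_one hm (h.sq x hx)
  refine ⟨k, ?_, by rw [← h1, hk]⟩
  by_contra hlt
  have : k = 0 ∨ k = 1 := by omega
  rcases this with rfl | rfl <;> omega

theorem swap_ncomm (h : PCore p D) {u v d : G} (huv : ¬ Commute u v) (hd : d ∈ pSwap D u v) :
    ¬ Commute d u := fun hc => huv (by
  have := hd.2
  rw [commute_iff_conj_eq.1 hc] at this
  exact this.symm)

theorem swap_left (h : PCore p D) (hp : Odd p) {u v d e : G} (hu : u ∈ D) (hv : v ∈ D)
    (hd : d ∈ pSwap D u v) (he : e ∈ D) (hue : Commute u e) : Commute v (d * e * d⁻¹) :=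
  h.trans hp hv (h.cj d u hu) (h.cj d e he) hd.2 (hue.conj d)

theorem swap_right (h : PCore p D) (hp : Odd p) {u v d e : G} (hu : u ∈ D) (hv : v ∈ D)
    (hd : d ∈ pSwap D u v) (he : e ∈ D) (hve : Commute v e) : Commute u (d * e * d⁻¹) := by
  have := (h.trans hp (h.cj d u hu) hv he hd.2.symm hve).conj d
  rwa [show d * (d * u * d⁻¹) * d⁻¹ = (d * d) * u * (d * d)⁻¹ by group, h.sq d hd.1, one_mul,
    inv_one, mul_one] at this

theorem swap_fix (h : PCore p D) (hp : Odd p) {u v d e : G} (hu : u ∈ D) (hv : v ∈ D)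
    (hd : d ∈ pSwap D u v) (he : e ∈ pSwap D u v) : u ∈ pFix D (d * e) := by
  refine ⟨hu, ?_⟩
  have := h.swap_right hp hu hv hd (h.cj e u hu) he.2
  convert this using 1; group

theorem swap_closed (h : PCore p D) (hp : Odd p) {u v d e : G} (hu : u ∈ D) (hv : v ∈ D)
    (hd : d ∈ pSwap D u v) (he : e ∈ pSwap D u v) : d * e * d⁻¹ ∈ pSwap D u v := by
  refine ⟨h.cj d e he.1, ?_⟩
  have := h.swap_left hp hu hv hd (h.cj _ u hu) (h.swap_fix hp hu hv he hd).2
  convert this using 1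
  rw [h.inv hd.1]; group
  rw [zpow_neg_one d, h.inv hd.1]

theorem swap_ncomm_of_ne (h : PCore p D) (hp : Odd p) {u v d e : G} (hu : u ∈ D) (hv : v ∈ D)
    (huv : ¬ Commute u v) (hd : d ∈ pSwap D u v) (he : e ∈ pSwap D u v) (hne : d ≠ e) :
    ¬ Commute d e := by
  intro hc
  have hm := h.mul_mem hp hd.1 he.1 hc hne
  exact h.swap_ncomm huv hd (h.trans hp hd.1 hm hu ((Commute.refl d).mul_right hc)
    (h.comm_of_comm_conj hp hu hm (h.swap_fix hp hu hv hd he).2))

theorem swap_pow (h : PCore p D) (hp : Odd p) {u v d e : G} (hu : u ∈ D) (hv : v ∈ D)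
    (huv : ¬ Commute u v) (hd : d ∈ pSwap D u v) (he : e ∈ pSwap D u v) : (d * e) ^ p = 1 := by
  by_cases hne : d = e
  · rw [hne, h.sq e he.1, one_pow]
  · exact h.pow hd.1 he.1 (h.swap_ncomm_of_ne hp hu hv huv hd he hne)

theorem ncard_swap_eq (h : PCore p D) (hp : Odd p) {u v : G} (hu : u ∈ D) (hv : v ∈ D)
    (huv : ¬ Commute u v) : (pSwap D u v).ncard = (pBlk D v).ncard := by
  refine Set.ncard_congr (fun d _ => d * u * d⁻¹) (fun d hd => ⟨h.cj d u hu, hd.2⟩)
    (fun d e hd he hde => h.mid_unique hp hd.1 he.1 hu (h.swap_ncomm huv hd) hde) ?_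
  intro w hw
  obtain ⟨m, hm, hmu⟩ := h.exists_mid hp hu hw.1
    (fun hc => huv (h.trans hp hu hw.1 hv hc hw.2.symm))
  exact ⟨m, ⟨hm, hmu ▸ hw.2⟩, hmu⟩

theorem ncard_blk [Finite G] (h : PCore p D) (hp : p.Prime) (hodd : p ≠ 2) {v : G} (hv : v ∈ D) :
    (pBlk D v).ncard = p := by
  have hpo := hp.odd_of_ne_two hodd
  obtain ⟨u, hu, huv⟩ := h.exists_ncomm hv
  have huv' : ¬ Commute u v := fun hc => huv hc.symm
  obtain ⟨m, hm, hmu⟩ := h.exists_mid hpo hu hv huv'
  obtain ⟨j, hj⟩ := ncard_of_closed hp hodd (X := pSwap D u v) ⟨m, hm, hmu ▸ Commute.refl _⟩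
    (fun d hd => h.sq d hd.1) (fun d hd e he => h.swap_closed hpo hu hv hd he)
    (fun d hd e he => h.swap_pow hpo hu hv huv' hd he)
  obtain ⟨k, hk, hk'⟩ := h.ncard_blk_pow hpo hv
  rw [← h.ncard_swap_eq hpo hu hv huv', hj] at hk' ⊢
  exact eq_of_pow_add_one_eq_two_pow hp hodd hk hk'

theorem ncard_swap [Finite G] (h : PCore p D) (hp : p.Prime) (hodd : p ≠ 2) {u v : G}
    (hu : u ∈ D) (hv : v ∈ D) (huv : ¬ Commute u v) : (pSwap D u v).ncard = p := by
  rw [h.ncard_swap_eq (hp.odd_of_ne_two hodd) hu hv huv, h.ncard_blk hp hodd hv]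

theorem swap_zpowers [Finite G] (h : PCore p D) (hp : Odd p) {u v d e : G} (hu : u ∈ D)
    (hv : v ∈ D) (hd : d ∈ pSwap D u v) (he : e ∈ pSwap D u v) {r : G}
    (hr : r ∈ Subgroup.zpowers (d * e)) : ∀ f ∈ pSwap D u v, r * f * r⁻¹ ∈ pSwap D u v := by
  obtain ⟨n, rfl⟩ := (mem_powers_iff_mem_zpowers).2 hr
  simp only
  clear hr
  induction n with
  | zero => intro f hf; simpa using hf
  | succ n ih =>
    intro f hf
    have := ih _ (h.swap_closed hp hu hv hd (h.swap_closed hp hu hv he hf))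
    convert this using 1
    rw [pow_succ]; group

theorem swap_line [Finite G] (h : PCore p D) (hp : p.Prime) (hodd : p ≠ 2) {u v d e : G}
    (hu : u ∈ D) (hv : v ∈ D) (huv : ¬ Commute u v) (hd : d ∈ pSwap D u v)
    (he : e ∈ pSwap D u v) (hne : d ≠ e) :
    ((Subgroup.zpowers (d * e) : Subgroup G) : Set G).ncard = p ∧
    (∀ r ∈ Subgroup.zpowers (d * e), r ^ p = 1 ∧ d * r * d⁻¹ = r⁻¹) ∧
    ∀ f ∈ pSwap D u v, ∃ r ∈ Subgroup.zpowers (d * e), r * d * r⁻¹ = f := by
  haveI := Fact.mk hp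
  have hpo := hp.odd_of_ne_two hodd
  have hde := h.swap_ncomm_of_ne hpo hu hv huv hd he hne
  have hcard : ((Subgroup.zpowers (d * e) : Subgroup G) : Set G).ncard = p := by
    rw [← Nat.card_coe_set_eq]
    change Nat.card (Subgroup.zpowers (d * e)) = p
    rw [Nat.card_zpowers]
    exact orderOf_eq_prime (h.pow hd.1 he.1 hde) (h.mul_ne_one hd.1 hde)
  have hr : ∀ r ∈ Subgroup.zpowers (d * e), r ^ p = 1 ∧ d * r * d⁻¹ = r⁻¹ := by
    rintro _ ⟨n, rfl⟩
    refine ⟨?_, ?_⟩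
    · simp only
      rw [← zpow_natCast, ← zpow_mul, mul_comm, zpow_mul, zpow_natCast, h.pow hd.1 he.1 hde,
        one_zpow]
    · simp only
      rw [conj_zpow_of_inverts (left_inverts (h.sq d hd.1) (h.sq e he.1)), zpow_neg]
  refine ⟨hcard, hr, ?_⟩
  have hsurj := Set.surj_on_of_inj_on_of_ncard_le (s := (Subgroup.zpowers (d * e) : Set G))
    (t := pSwap D u v) (fun r _ => r * d * r⁻¹)
    (fun r hr' => h.swap_zpowers hpo hu hv hd he hr' d hd)
    (fun r r' hr1 hr2 hrr => by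
      obtain ⟨h1, h2⟩ := hr r hr1
      obtain ⟨h3, h4⟩ := hr r' hr2
      refine eq_of_sq_eq_of_odd hpo h1 h3 ?_
      have e1 : ∀ s : G, d * s * d⁻¹ = s⁻¹ → s * s = s * d * s⁻¹ * d⁻¹ := by
        intro s hs
        have : d * s⁻¹ * d⁻¹ = s := conj_inv_of_inverts hs
        rw [mul_assoc s, mul_assoc s, this]
      rw [e1 r h2, e1 r' h4]
      exact congrArg (· * d⁻¹) hrr)
    (by rw [hcard, h.ncard_swap hp hodd hu hv huv])
  intro f hf
  obtain ⟨r, hr', hrf⟩ := hsurj f hf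
  exact ⟨r, hr', hrf.symm⟩

theorem fix_blk (h : PCore p D) (hp : Odd p) {t u e : G} (hu : u ∈ pFix D t)
    (he : e ∈ pBlk D u) : e ∈ pFix D t :=
  ⟨he.1, h.trans hp he.1 hu.1 (h.cj t e he.1) he.2.symm
    (h.trans hp hu.1 (h.cj t u hu.1) (h.cj t e he.1) hu.2 (he.2.conj t))⟩

theorem fix_swap (h : PCore p D) (hp : Odd p) {t u v f : G} (hu : u ∈ pFix D t)
    (hv : v ∈ pFix D t) (hf : f ∈ pSwap D u v) : t * f * t⁻¹ ∈ pSwap D u v := by
  refine ⟨h.cj t f hf.1, ?_⟩
  have h1 : Commute u (t⁻¹ * u * t⁻¹⁻¹) := by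
    have := (hu.2.conj t⁻¹).symm
    convert this using 1; group
  have h2 := (h.swap_left hp hu.1 hv.1 hf (h.cj _ u hu.1) h1).conj t
  have h3 := h.trans hp hv.1 (h.cj t v hv.1) (h.cj t _ (h.cj f _ (h.cj _ u hu.1))) hv.2 h2
  convert h3 using 1; group

theorem inverts_of_fix [Finite G] (h : PCore p D) (hp : p.Prime) (hodd : p ≠ 2) {t u v d : G}
    (ht : t ^ p = 1) (hu : u ∈ pFix D t) (hv : v ∈ pFix D t) (huv : ¬ Commute u v)
    (hd : d ∈ pSwap D u v) : d * t * d⁻¹ = t⁻¹ := by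
  have hpo := hp.odd_of_ne_two hodd
  have hX := h.ncard_swap hp hodd hu.1 hv.1 huv
  obtain ⟨e, he, hne⟩ := Set.exists_ne_of_one_lt_ncard (hX ▸ hp.one_lt) d
  obtain ⟨hc, hr, hl⟩ := h.swap_line hp hodd hu.1 hv.1 huv hd he hne.symm
  obtain ⟨r, hr1, hr2⟩ := hl _ (h.fix_swap hpo hu hv hd)
  obtain ⟨r', hr1', hr2'⟩ := hl _ (h.fix_swap hpo hu hv he)
  have hnorm : t * (d * e) * t⁻¹ ∈ Subgroup.zpowers (d * e) := by
    have e1 : t * (d * e) * t⁻¹ = r * (d * (r⁻¹ * r') * d⁻¹) * r'⁻¹ := by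
      rw [← conj_mul, ← hr2, ← hr2', h.inv hd.1]; group
    have hm := Subgroup.mul_mem _ (Subgroup.inv_mem _ hr1) hr1'
    rw [e1, (hr _ hm).2]
    exact Subgroup.mul_mem _ (Subgroup.mul_mem _ hr1 (Subgroup.inv_mem _ hm))
      (Subgroup.inv_mem _ hr1')
  have htr : Commute t r := fix_all hp ht hc (by
    rintro _ ⟨n, rfl⟩
    simp only
    rw [← conj_zpow]
    exact Subgroup.zpow_mem _ hnorm n) (Subgroup.one_mem _) (Commute.one_right t) r hr1
  have hk : (r⁻¹ * t) ^ p = 1 := by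
    rw [htr.symm.inv_left.mul_pow, inv_pow, (hr r hr1).1, ht]; simp
  have hkd : Commute (r⁻¹ * t) d := by
    rw [commute_iff_conj_eq]
    calc r⁻¹ * t * d * (r⁻¹ * t)⁻¹ = r⁻¹ * (t * d * t⁻¹) * r := by group
      _ = d := by rw [← hr2]; group
  have hke : Commute (r⁻¹ * t) e := fix_all hp hk hX (fun f hf => by
    have := h.swap_zpowers hpo hu.1 hv.1 hd he (Subgroup.inv_mem _ hr1) _ (h.fix_swap hpo hu hv hf)
    convert this using 1; group) hd hkd e he
  have hkB := fix_all hp hk (h.ncard_blk hp hodd hd.1) (fun f hf => ⟨h.cj _ f hf.1, by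
    have := hf.2.conj (r⁻¹ * t)
    rwa [commute_iff_conj_eq.1 hkd] at this⟩) ⟨hd.1, Commute.refl d⟩ hkd
  have hk1 := h.gen hpo hd.1 he.1 (h.swap_ncomm_of_ne hpo hu.1 hv.1 huv hd he hne.symm) hkB hke
  rw [← inv_mul_eq_one.1 hk1]
  exact (hr r hr1).2

theorem ncard_modEq [Finite G] (h : PCore p D) (hp : p.Prime) (hodd : p ≠ 2) {t : G}
    (ht : t ^ p = 1) : D.ncard ≡ (pFix D t).ncard [MOD p ^ 2] := by
  have hpo := hp.odd_of_ne_two hodd
  let f : D → D := fun e => ⟨t * e * t⁻¹, h.cj t e e.2⟩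
  have hit : ∀ n (e : D), (f^[n] e : G) = t ^ n * e * (t ^ n)⁻¹ := by
    intro n e
    induction n with
    | zero => simp
    | succ n ih =>
      rw [Function.iterate_succ_apply']
      change t * (f^[n] e : G) * t⁻¹ = _
      rw [ih, pow_succ']; group
  have := card_modEq_sq (α := D) (r := fun a b => Commute (a : G) b)
    ⟨fun a => Commute.refl _, fun h1 => h1.symm,
      fun {a b c} h1 h2 => h.trans hpo a.2 b.2 c.2 h1 h2⟩ hp
    (fun a => by
      rw [← h.ncard_blk hp hodd a.2, ← Set.ncard_image_of_injective _ Subtype.val_injective]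
      congr 1
      ext y
      exact ⟨fun ⟨b, hb, hby⟩ => hby ▸ ⟨b.2, hb⟩, fun hy => ⟨⟨y, hy.1⟩, hy.2, rfl⟩⟩)
    f (fun a b hab => hab.conj t) (fun a => Subtype.ext (by rw [hit, ht]; simp))
  rw [Nat.card_coe_set_eq, ← Set.ncard_image_of_injective _ Subtype.val_injective] at this
  convert this using 2
  ext y
  exact ⟨fun hy => ⟨⟨y, hy.1⟩, hy.2, rfl⟩, fun ⟨b, hb, hby⟩ => hby ▸ ⟨b.2, hb⟩⟩

theorem exists_fix_empty [Finite G] (h : PCore p D) (hp : p.Prime) (hodd : p ≠ 2) :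
    ∃ x ∈ D, ∃ y ∈ D, ¬ Commute x y ∧ pFix D (x * y) = ∅ := by
  classical
  have hpo := hp.odd_of_ne_two hodd
  obtain ⟨x, hx, y₀, hy₀, -, -, -, hxy₀, -⟩ := h.ex2
  by_contra hn
  push Not at hn
  let s : Finset G := (Set.toFinite {y | y ∈ D ∧ ¬ Commute x y}).toFinset
  have hs : ∀ y, y ∈ s ↔ y ∈ D ∧ ¬ Commute x y := by intro y; simp [s]
  have hconj : ∀ y u, u ∈ pFix D (x * y) → Commute (x * u * x⁻¹) (y * u * y⁻¹) := by
    intro y u hu
    have := hu.2.conj x
    rwa [show x * (x * y * u * (x * y)⁻¹) * x⁻¹ = (x * x) * (y * u * y⁻¹) * (x * x)⁻¹ by group,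
      h.sq x hx, one_mul, inv_one, mul_one] at this
  have key := Finset.card_mul_le_card_mul (s := s) (t := s) (fun y u => u ∈ pFix D (x * y))
    (m := p) (n := p - 1) (by
      intro y hy
      rw [hs] at hy
      obtain ⟨u, hu⟩ := hn x hx y hy.1 hy.2
      rw [← h.ncard_blk hp hodd hu.1, ← Set.ncard_coe_finset]
      refine Set.ncard_le_ncard ?_ (Set.toFinite _)
      intro e he
      have he' := h.fix_blk hpo hu he
      simp only [Finset.bipartiteAbove, Finset.coe_filter, Set.mem_ofPred_eq]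
      refine ⟨(hs e).2 ⟨he.1, fun hc => hy.2 ?_⟩, he'⟩
      have h1 := hconj y e he'
      rw [commute_iff_conj_eq.1 hc] at h1
      exact h.trans hpo hx he.1 hy.1 hc (h.comm_of_comm_conj hpo he.1 hy.1 h1).symm)
    (by
      intro u hu
      rw [hs] at hu
      have hux : ¬ Commute u (x * u * x⁻¹) := fun hc =>
        hu.2 (h.comm_of_comm_conj hpo hu.1 hx hc)
      have hxX : x ∈ pSwap D u (x * u * x⁻¹) := ⟨hx, Commute.refl _⟩
      rw [← h.ncard_swap hp hodd hu.1 (h.cj x u hu.1) hux, ← Set.ncard_sdiff_singleton_of_mem hxX,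
        ← Set.ncard_coe_finset]
      refine Set.ncard_le_ncard ?_ (Set.toFinite _)
      intro y hy
      simp only [Finset.bipartiteBelow, Finset.coe_filter, Set.mem_ofPred_eq] at hy
      rw [hs] at hy
      refine ⟨⟨hy.1.1, hconj y u hy.2⟩, ?_⟩
      rintro rfl
      exact hy.1.2 (Commute.refl _))
  have hpos : 0 < s.card := Finset.card_pos.2 ⟨y₀, (hs _).2 ⟨hy₀, hxy₀⟩⟩
  have := Nat.le_of_mul_le_mul_left key hpos
  have := hp.pos
  omega

theorem false [Finite G] (h : PCore p D) (hp : p.Prime) (hodd : p ≠ 2) : False := by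
  have hpo := hp.odd_of_ne_two hodd
  obtain ⟨x₀, hx₀, y₀, hy₀, hxy₀, hemp⟩ := h.exists_fix_empty hp hodd
  have h0 := h.ncard_modEq hp hodd (h.pow hx₀ hy₀ hxy₀)
  rw [hemp, Set.ncard_empty] at h0
  obtain ⟨u, hu, v, hv, -, -, -, huv, -⟩ := h.ex2
  obtain ⟨x, hx, y, hy, hne⟩ := (Set.one_lt_ncard (Set.toFinite _)).1
    (h.ncard_swap hp hodd hu hv huv ▸ hp.one_lt)
  have hxy := h.swap_ncomm_of_ne hpo hu hv huv hx hy hne
  have ht := h.pow hx.1 hy.1 hxy
  have huF := h.swap_fix hpo hu hv hx hy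
  have ht1 := h.mul_ne_one hx.1 hxy
  have hinvx := left_inverts (h.sq x hx.1) (h.sq y hy.1)
  have hcm : ∀ z ∈ D, ¬ Commute z (x * y) := by
    intro z hz hc
    have h1 := h.comm_of_comm_mul hpo hz hx.1 hy.1 hxy hc
    have h2 := h1.inv_right.mul_right hc
    rw [inv_mul_cancel_left] at h2
    exact hxy (h.trans hpo hx.1 hz hy.1 h1.symm h2)
  set t := x * y
  obtain ⟨i, hi⟩ := ncard_of_closed hp hodd (X := {d | d ∈ D ∧ d * t * d⁻¹ = t⁻¹})
    ⟨x, hx.1, hinvx⟩ (fun d hd => h.sq d hd.1)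
    (fun d hd e he => ⟨h.cj d e he.1, by
      have e1 : d⁻¹ * t * d = t⁻¹ := by
        have := hd.2
        rw [h.inv hd.1] at this ⊢
        exact this
      calc d * e * d⁻¹ * t * (d * e * d⁻¹)⁻¹ = d * (e * (d⁻¹ * t * d)⁻¹ * e⁻¹)⁻¹ * d⁻¹ := by group
        _ = t⁻¹ := by rw [e1, inv_inv, he.2, inv_inv, hd.2]⟩)
    (fun d hd e he => by
      by_cases hde : d = e
      · rw [hde, h.sq e he.1, one_pow]
      · refine h.pow hd.1 he.1 fun hc => hcm _ (h.mul_mem hpo hd.1 he.1 hc hde) ?_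
        rw [commute_iff_conj_eq]
        calc d * e * t * (d * e)⁻¹ = (d * (e * t * e⁻¹)⁻¹ * d⁻¹)⁻¹ := by group
          _ = t := by rw [he.2, inv_inv, hd.2, inv_inv])
  have hnc : ∀ d ∈ D, d * t * d⁻¹ = t⁻¹ → ¬ Commute d u := by
    intro d hd hdt hc
    have h1 := (h.fix_blk hpo huF ⟨hd, hc.symm⟩).2
    have h2 : t * d * t⁻¹ = t * t * d := by
      have : d * t⁻¹ * d⁻¹ = t := conj_inv_of_inverts hdt
      calc t * d * t⁻¹ = t * (d * t⁻¹ * d⁻¹) * d := by group
        _ = _ := by rw [this]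
    rw [h2] at h1
    have h3 := h1.mul_right (Commute.refl d).inv_right
    rw [mul_inv_cancel_right] at h3
    exact hcm d hd (commute_of_sq_of_odd hpo ht h3.symm).symm
  have hI : {d | d ∈ D ∧ d * t * d⁻¹ = t⁻¹}.ncard = (pFix D t \ pBlk D u).ncard := by
    refine Set.ncard_congr (fun d _ => d * u * d⁻¹) (fun d hd => ⟨⟨h.cj d u hu, ?_⟩, fun hc =>
      hnc d hd.1 hd.2 (h.comm_of_comm_conj hpo hu hd.1 hc.2)⟩)
      (fun d e hd he hde => h.mid_unique hpo hd.1 he.1 hu (hnc d hd.1 hd.2) hde) ?_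
    · have h1 := (huF.2.conj (d * t⁻¹)).symm
      have e1 : t = d * t⁻¹ * d⁻¹ := (conj_inv_of_inverts hd.2).symm
      convert h1 using 1
      · group
      · calc t * (d * u * d⁻¹) * t⁻¹ = (d * t⁻¹ * d⁻¹) * (d * u * d⁻¹) * (d * t⁻¹ * d⁻¹)⁻¹ := by
              rw [← e1]
          _ = _ := by group
    · intro w hw
      have huw : ¬ Commute u w := fun hc => hw.2 ⟨hw.1.1, hc⟩
      obtain ⟨m, hm, hmu⟩ := h.exists_mid hpo hu hw.1.1 huw
      exact ⟨m, ⟨hm, h.inverts_of_fix hp hodd ht huF hw.1 huw ⟨hm, hmu ▸ Commute.refl _⟩⟩, hmu⟩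
  have h1 := Set.ncard_sdiff_add_ncard_of_subset (s := pBlk D u) (t := pFix D t)
    (fun e he => h.fix_blk hpo huF he)
  rw [← hI, hi, h.ncard_blk hp hodd hu] at h1
  have h2 := (h.ncard_modEq hp hodd ht).symm.trans h0
  rw [← h1, Nat.modEq_zero_iff_dvd] at h2
  have hp1 := hp.one_lt
  match i with
  | 0 =>
    have : p ∣ p ^ 0 + p := (Dvd.intro _ (pow_two p).symm).trans h2
    rw [pow_zero, Nat.dvd_add_left dvd_rfl, Nat.dvd_one] at this
    omega
  | 1 =>
    rw [pow_one, ← two_mul, pow_two, Nat.mul_dvd_mul_iff_right hp.pos] at h2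
    exact hodd ((Nat.prime_dvd_prime_iff_eq hp Nat.prime_two).1 h2)
  | i + 2 =>
    rw [Nat.dvd_add_right (Dvd.intro_left _ (pow_add p i 2).symm)] at h2
    have := Nat.le_of_dvd hp.pos h2
    nlinarith

end PCore

theorem pti_aux {p : ℕ} (hp : p.Prime) (hodd : p ≠ 2) (n : ℕ) :
    ∀ (G : Type u) [Group G] [Finite G], Nat.card G = n → ∀ D : Set G, PT p D → PTI D := by
  induction n using Nat.strong_induction_on with
  | _ n ih =>
  intro G _ _ hn D h a ha b hb c hc hac hab hcb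
  have hpo := hp.odd_of_ne_two hodd
  by_contra h2
  have hquot : ∀ (N : Subgroup G) [N.Normal], (∀ z ∈ N, z ^ p = 1 → ∀ g, Commute z g) →
      N = ⊥ := by
    intro N _ hN
    by_contra hne
    have hlt : Nat.card (G ⧸ N) < n := by
      rw [← hn, Subgroup.card_eq_card_quotient_mul_card_subgroup N]
      have := (Subgroup.one_lt_card_iff_ne_bot N).2 hne
      have := Nat.card_pos (α := G ⧸ N)
      nlinarith
    have hf : ∀ z, QuotientGroup.mk' N z = 1 → z ^ p = 1 → ∀ g, Commute z g :=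
      fun z hz => hN z ((QuotientGroup.eq_one_iff z).1 hz)
    have := ih _ hlt (G ⧸ N) rfl _ (h.map (QuotientGroup.mk' N) (QuotientGroup.mk'_surjective N))
      _ ⟨a, ha, rfl⟩ _ ⟨b, hb, rfl⟩ _ ⟨c, hc, rfl⟩ (hac.map _)
      (fun h1 => hab (h.commute_of_map hpo _ hf ha hb h1))
      (fun h1 => hcb (h.commute_of_map hpo _ hf hc hb h1))
    exact h2 (h.commute_of_map hpo _ hf hb (h.cj _ b hb) (by simpa using this))
  have hab' := h.isConj hpo ha hb hab
  refine PCore.false (D := D ∩ conjugatesOf a)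
    { toPT := h.inter_class a
      cls := fun x hx y hy => hx.2.symm.trans hy.2
      noE := ?_
      gen2 := ?_
      ex2 := ⟨a, ⟨ha, IsConj.refl a⟩, b, ⟨hb, hab'⟩, c,
        ⟨hc, hab'.trans (h.isConj hpo hc hb hcb).symm⟩, hac, hab, hcb, h2⟩ } hp hodd
  · intro w hw hcomm
    have hcc : ∀ x ∈ conjugatesOf w, ∀ y ∈ conjugatesOf w, Commute x y := by
      intro x hx y hy
      obtain ⟨g, rfl⟩ := isConj_iff.1 hx
      obtain ⟨k, rfl⟩ := isConj_iff.1 hy
      have := (hcomm (g⁻¹ * k)).conj g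
      convert this using 1; group
    haveI := normal_closure_of_conj_mem (D := conjugatesOf w)
      (fun g d hd => IsConj.trans hd (isConj_iff.2 ⟨g, rfl⟩))
    have hsq : ∀ z ∈ Subgroup.closure (conjugatesOf w),
        z * z = 1 ∧ ∀ y ∈ conjugatesOf w, Commute z y := by
      intro z hz
      induction hz using Subgroup.closure_induction_left with
      | one => simp
      | mul_left x hx y _ ihy =>
        obtain ⟨g, rfl⟩ := isConj_iff.1 hx
        exact ⟨mul_sq_of_commute (by rw [conj_mul, hw]; simp) ihy.1 (ihy.2 _ hx).symm,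
          fun t ht => (hcc _ hx t ht).mul_left (ihy.2 t ht)⟩
      | inv_mul_cancel x hx y _ ihy =>
        obtain ⟨g, rfl⟩ := isConj_iff.1 hx
        have : (g * w * g⁻¹)⁻¹ = g * w * g⁻¹ :=
          inv_eq_of_mul_eq_one_right (by rw [conj_mul, hw]; simp)
        rw [this]
        exact ⟨mul_sq_of_commute (by rw [conj_mul, hw]; simp) ihy.1 (ihy.2 _ hx).symm,
          fun t ht => (hcc _ hx t ht).mul_left (ihy.2 t ht)⟩
    have := hquot (Subgroup.closure (conjugatesOf w)) (fun z hz hzp g => by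
      rw [eq_of_sq_eq_of_odd hpo hzp (one_pow p) (by rw [(hsq z hz).1, one_mul])]
      exact Commute.one_left g)
    have hwm : w ∈ Subgroup.closure (conjugatesOf w) := Subgroup.subset_closure (IsConj.refl w)
    rwa [this, Subgroup.mem_bot] at hwm
  · intro a' ha' b' hb' c' hc' hac' hab' hcb' h2' s h1 h2 h3
    let H := Subgroup.closure ({a', b', c'} : Set G)
    have hH : H = ⊤ := by
      by_contra hne
      have hlt : Nat.card H < n := by
        rw [← hn]
        refine lt_of_le_of_ne (Subgroup.card_le_card_group H) fun he => hne ?_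
        exact Subgroup.eq_top_of_card_eq H he
      have := ih _ hlt H rfl _ (h.comap H) ⟨a', Subgroup.subset_closure (by simp)⟩ ha'.1
        ⟨b', Subgroup.subset_closure (by simp)⟩ hb'.1
        ⟨c', Subgroup.subset_closure (by simp)⟩ hc'.1 (Subtype.ext hac')
        (fun h1 => hab' (congrArg Subtype.val h1)) (fun h1 => hcb' (congrArg Subtype.val h1))
      exact h2' (congrArg Subtype.val this)
    have hs : s ∈ Subgroup.center G := by
      rw [Subgroup.mem_center_iff]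
      intro g
      have hg : g ∈ H := hH ▸ Subgroup.mem_top g
      have : H ≤ Subgroup.centralizer {s} := by
        rw [Subgroup.closure_le]
        rintro x (rfl | rfl | rfl) <;> rw [SetLike.mem_coe, Subgroup.mem_centralizer_singleton_iff]
        exacts [h1.symm, h2.symm, h3.symm]
      exact Subgroup.mem_centralizer_singleton_iff.1 (this hg)
    have := hquot (Subgroup.center G) (fun z hz _ g => (Subgroup.mem_center_iff.1 hz g).symm)
    rwa [this, Subgroup.mem_bot] at hs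

theorem PT.pti [Finite G] {p : ℕ} {D : Set G} (h : PT p D) (hp : p.Prime) (hodd : p ≠ 2) :
    PTI D := pti_aux hp hodd _ G rfl D h

end Cfsg.Agent.H3
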