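import Cfsg.Agent.H3.Transv
import Cfsg.Agent.H7.Omega
import Cfsg.Agent.H7.Bridge
import Cfsg.Agent.H7.Classify

/-! Orthogonal transvections over the field with two elements are 3-transpositions. -/

set_option autoImplicit false

namespace Cfsg.Agent.H3

open Cfsg.Agent.H7 QuadraticMap Module

theorem IsThreeTranspositionClass.of_equiv {G H : Type*} [Group G] [Group H] (e : G ≃* H)
    {D : Set H} (h : IsThreeTranspositionClass D) : IsThreeTranspositionClass (e ⁻¹' D) := by
  obtain ⟨⟨h1, h2⟩, ⟨d, hd, h3⟩, h4⟩ := h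
  refine ⟨⟨fun a ha => by rw [← e.orderOf_eq, h1 _ ha], fun a ha b hb =>
    (h2 _ ha _ hb).imp (fun h => e.injective (by simpa using h))
      (fun h => e.injective (by simpa using h))⟩, ⟨e.symm d, by simpa using hd, ?_⟩, ?_⟩
  · ext x
    rw [Set.mem_preimage, h3]
    constructor
    · intro hx
      simpa [conjugatesOf] using e.symm.toMonoidHom.map_isConj hx
    · intro hx
      simpa [conjugatesOf] using e.toMonoidHom.map_isConj hx
  · apply Subgroup.map_injective (f := e.toMonoidHom) e.injective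
    rw [MonoidHom.map_closure, Subgroup.map_top_of_surjective _ e.surjective, ← h4]
    congr 1
    exact Set.image_preimage_eq _ e.surjective

variable {F V : Type*} [Field F] [AddCommGroup V] [Module F V] [FiniteDimensional F V]
  {Q : QuadraticForm F V}

theorem exists_refl_of_rk (hQ : ND Q) {g : OG Q} (h : rk g = 1) :
    ∃ v, Q v ≠ 0 ∧ g = refl Q v := by
  rw [rk, finrank_eq_one_iff'] at h
  obtain ⟨⟨v, hv⟩, hv0, h⟩ := h
  have hv0' : v ≠ 0 := fun e => hv0 (Subtype.ext e)
  have hc : ∀ x, ∃ c : F, g.1 x = x + c • v := fun x => by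
    obtain ⟨c, hc⟩ := h ⟨_, sub_mem_movS g x⟩
    have : c • v = g.1 x - x := congrArg Subtype.val hc
    exact ⟨c, by rw [this]; abel⟩
  have hfix : ∀ x, polar Q x v = 0 ↔ g.1 x = x := fun x => by
    rw [← mem_fixS, ← perp_movS hQ, mem_perp]
    refine ⟨fun hx u hu => ?_, fun hx => by rw [B_comm]; exact hx v hv⟩
    obtain ⟨c, hc⟩ := h ⟨u, hu⟩
    have : c • v = u := congrArg Subtype.val hc
    rw [← this, B_smul_left, B_comm, hx, mul_zero]
  have key : ∀ x c, g.1 x = x + c • v → polar Q x v ≠ 0 → c * Q v + polar Q x v = 0 := by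
    intro x c hx h0
    have hc0 : c ≠ 0 := fun e => h0 ((hfix x).2 (by rw [hx, e, zero_smul, add_zero]))
    have := OG.map_Q g x
    rw [hx, Q_add, Q_smul, B_smul_right] at this
    apply mul_left_cancel₀ hc0
    linear_combination this
  have hQv : Q v ≠ 0 := fun h0 => hv0' (hQ.eq_zero fun y => by
    by_contra h1
    rw [B_comm] at h1
    obtain ⟨c, hc⟩ := hc y
    have := key y c hc h1
    rw [h0, mul_zero, zero_add] at this
    exact h1 this)
  refine ⟨v, hQv, OG.ext' fun x => ?_⟩
  by_cases h0 : polar Q x v = 0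
  · rw [(hfix x).1 h0, refl_of_perp h0]
  · obtain ⟨c, hc⟩ := hc x
    rw [hc, refl_apply, sub_eq_add_neg, ← neg_smul]
    congr 2
    field_simp
    linear_combination key x c hc h0

theorem tt_class_refl {V : Type*} [AddCommGroup V] [Module (ZMod 2) V]
    [FiniteDimensional (ZMod 2) V] {Q : QuadraticForm (ZMod 2) V} (hQ : ND Q)
    (h : 5 ≤ finrank (ZMod 2) V) : IsThreeTranspositionClass {g : OG Q | rk g = 1} := by
  have h01 : ∀ x : ZMod 2, x ≠ 0 → x = 1 := by decide
  refine isThreeTranspositionClass_of ?_ (fun t ht => ?_) (fun s hs t ht => ?_)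
    (fun g t ht => ?_) (fun s hs t ht => ?_) ?_
  · obtain ⟨v, hv⟩ := exists_Q_eq hQ (by omega) 1
    exact ⟨_, rk_refl hQ (by rw [hv]; exact one_ne_zero)⟩
  · obtain ⟨v, hv, rfl⟩ := exists_refl_of_rk hQ ht
    exact ⟨H7.refl_mul_self _ _, fun e => by rw [Set.mem_ofPred_eq, e, rk_one] at ht; omega⟩
  · obtain ⟨u, hu, rfl⟩ := exists_refl_of_rk hQ hs
    obtain ⟨v, hv, rfl⟩ := exists_refl_of_rk hQ ht
    by_cases h0 : polar Q v u = 0
    · left
      have := refl_conj (refl Q u) v
      rw [refl_of_perp h0, mul_inv_eq_iff_eq_mul] at this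
      exact this
    · right
      have h1 := refl_conj (refl Q u) v
      have h2 := refl_conj (refl Q v) u
      rw [refl_inv] at h1 h2
      rw [h1, h2, refl_apply, refl_apply, B_comm Q u v, h01 _ h0, h01 _ hu, h01 _ hv]
      have := refl_smul (Q := Q) (c := -1) (by decide) (v - u)
      simp only [inv_one, mul_one, one_smul]
      rw [← this, neg_smul, one_smul, neg_sub]
  · obtain ⟨v, hv, rfl⟩ := exists_refl_of_rk hQ ht
    rw [Set.mem_ofPred_eq, refl_conj]
    exact rk_refl hQ (by rwa [OG.map_Q])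
  · obtain ⟨u, hu, rfl⟩ := exists_refl_of_rk hQ hs
    obtain ⟨v, hv, rfl⟩ := exists_refl_of_rk hQ ht
    obtain ⟨g, hg⟩ := witt_vec hQ (u := u) (v := v) (fun e => hu (by simp [e]))
      (fun e => hv (by simp [e])) (by rw [h01 _ hu, h01 _ hv])
    exact isConj_iff.2 ⟨g, by rw [refl_conj, hg]⟩
  · exact eq_top_of_refl hQ (nonExc_of_finrank hQ (by omega)) fun v hv =>
      Subgroup.subset_closure (rk_refl hQ hv)

theorem tt_class_isometry {ι : Type} [Fintype ι] [DecidableEq ι]
    {Q : QuadraticForm (ZMod 2) (ι → ZMod 2)} (hQ : ND Q) (h : 5 ≤ Fintype.card ι) :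
    IsThreeTranspositionClass {g : Cfsg.isometryGroup (ZMod 2) ⇑Q |
      (((g : GL ι (ZMod 2)) : Matrix ι ι (ZMod 2)) - 1).rank = 1} := by
  simp only [rank_sub_one]
  exact IsThreeTranspositionClass.of_equiv (isoEquiv Q) (tt_class_refl hQ (by simpa using h))

end Cfsg.Agent.H3
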